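import Cfsg.Agent.H32.LargeFischer.Plane

/-!
# Carrying the part in `Q` to the standard plane
-/

set_option autoImplicit false
set_option linter.unusedSectionVars false
set_option maxRecDepth 20000
set_option maxHeartbeats 1000000

namespace Cfsg.Agent.H32.LargeFischer

open Matrix Cfsg.Agent.H8.U62 Cfsg.Agent.H8.U62.Setup Cfsg.Agent.H8.LFT

variable {F : Type} [Setup F]

/-- The plane is carried to the standard one. -/
theorem carry_plane {W : Set (Fin 6 → F)} (hc : W.ncard = 64) (hadd : ∀ x ∈ W, ∀ y ∈ W, x + y ∈ W)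
    (hom' : ∀ x ∈ W, (om : F) • x ∈ W) (hiso : ∀ x ∈ W, ∀ y ∈ W, hermForm 6 F 2 x y = 0)
    (hseed : (seedF 0 : Fin 6 → F) ∈ W) :
    ∃ γ ∈ sub (F := F) 0, ∀ x ∈ W, γ • x ∈ W0 := by
  classical
  have hseed' : vecF (om : F) 1365 ∈ W := hseed
  have horth : ∀ x y : ℕ, vecF (om : F) x ∈ W → vecF (om : F) y ∈ W → orthC x y = true := fun x y hx hy =>
    (hermForm_eq_zero_iff _ hom two).1 (hiso _ hx _ hy)
  let line : List ℕ := [0, 1365, H8.U62.sW 1365, H8.U62.sW (H8.U62.sW 1365)]
  have h0 : vecF (om : F) 0 ∈ W := by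
    rw [vecF_zero _ hom two, ← Model.add_self (vecF (om : F) 1365)]
    exact hadd _ hseed' _ hseed'
  have hsW : ∀ x : ℕ, vecF (om : F) x ∈ W → vecF (om : F) (H8.U62.sW x) ∈ W := fun x hx => by
    rw [vecF_sW _ hom two]; exact hom' _ hx
  have hline : ∀ l ∈ line, vecF (om : F) l ∈ W := by
    intro l hl
    simp only [line, List.mem_cons, List.not_mem_nil, or_false] at hl
    rcases hl with rfl | rfl | rfl | rfl
    exacts [h0, hseed', hsW _ hseed', hsW _ (hsW _ hseed')]
  have h := plane_ok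
  simp only [planeOK, forceL_eq, force_eq, Bool.and_eq_true, List.all_eq_true, List.mem_filter, List.mem_range,
    Bool.or_eq_true, Bool.not_eq_true', testBit_maskL, List.any_eq_true] at h
  obtain ⟨hrep, hpair⟩ := h
  set P5 := (List.range 4096).filter fun v => orthC v 1365 with hP5
  -- a vector outside the line has a representative
  have hexp : ∀ v < 4096, vecF (om : F) v ∈ W → v ∉ line →
      ∃ r ∈ repR, vecF (om : F) r ∈ W ∧ v ∈ repExp r := by
    intro v hv hvW hvl
    simp only [line, List.mem_cons, List.not_mem_nil, or_false, not_or] at hvl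
    rcases hrep v ⟨hv, horth _ _ hvW hseed'⟩ with ((((e | e) | e) | e) | e) | e
    · rw [horth _ _ hvW hvW] at e; cases e
    · obtain ⟨r, hr, hvr⟩ := List.mem_flatMap.1 e
      refine ⟨r, hr, ?_, hvr⟩
      simp only [repExp, List.mem_flatMap, List.mem_map] at hvr
      obtain ⟨s, hs, l, hl, e⟩ := hvr
      have hsW' : vecF (om : F) s ∈ W := by
        have e' : vecF (om : F) s = vecF om v + vecF om l := by
          rw [← e, vecF_xor _ hom two, add_assoc, Model.add_self, add_zero]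
        rw [e']
        exact hadd _ hvW _ (hline l hl)
      simp only [List.mem_cons, List.not_mem_nil, or_false] at hs
      have hcube : ∀ x : Fin 6 → F, (om : F) • (om : F) • (om : F) • x = x := fun x => by
        rw [smul_smul, smul_smul]
        rw [show (om : F) * om * om = 1 by linear_combination (om + 1) * hom (F := F) + (om : F) * two (F := F)]
        exact one_smul _ x
      rcases hs with rfl | rfl | rfl
      · exact hsW'
      · have := hsW _ (hsW _ hsW')
        rwa [vecF_sW _ hom two, vecF_sW _ hom two, vecF_sW _ hom two, hcube] at this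
      · have := hsW _ hsW'
        rwa [vecF_sW _ hom two, vecF_sW _ hom two, vecF_sW _ hom two, hcube] at this
    · exact absurd (Nat.eq_of_beq_eq_true e) hvl.1
    · exact absurd (Nat.eq_of_beq_eq_true e) hvl.2.1
    · exact absurd (Nat.eq_of_beq_eq_true e) hvl.2.2.1
    · exact absurd (Nat.eq_of_beq_eq_true e) hvl.2.2.2
  have hout : ∀ l : List ℕ, l.length < 64 → ∃ v < 4096, vecF (om : F) v ∈ W ∧ v ∉ l := by
    intro l hl
    by_contra hno
    push Not at hno
    have hsub : W ⊆ ↑(l.toFinset.image (vecF (om : F))) := by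
      intro x hx
      obtain ⟨v, hv, rfl⟩ := exists_vecF x
      exact Finset.mem_coe.2 (Finset.mem_image_of_mem _ (List.mem_toFinset.2 (hno v hv hx)))
    have h1 := Set.ncard_le_ncard hsub (Finset.finite_toSet _)
    rw [hc, Set.ncard_coe_finset] at h1
    exact absurd (h1.trans (Finset.card_image_le.trans (List.toFinset_card_le l))) (by omega)
  obtain ⟨v, hv, hvW, hvl⟩ := hout line (by norm_num [line])
  obtain ⟨b, hb, hbW, -⟩ := hexp v hv hvW hvl
  obtain ⟨v', hv', hvW', hvl'⟩ := hout (line ++ repExp b) (by norm_num [line, repExp])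
  rw [List.mem_append, not_or] at hvl'
  obtain ⟨c, hc', hcW, hvc⟩ := hexp v' hv' hvW' hvl'.1
  obtain ⟨ib, hib, rfl⟩ := List.getElem_of_mem hb
  obtain ⟨ic, hic, rfl⟩ := List.getElem_of_mem hc'
  rcases hpair ib hib ic hic with (e | e) | ⟨m, hm, e⟩
  · obtain rfl := Nat.eq_of_beq_eq_true e
    exact absurd hvc hvl'.2
  · rw [List.getD_eq_getElem _ _ hib, List.getD_eq_getElem _ _ hic, horth _ _ hbW hcW] at e
    cases e
  obtain ⟨w, -, rfl⟩ := List.mem_map.1 hm
  obtain ⟨g, hg, hge⟩ := real_genWord (F := F) w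
  refine ⟨g⁻¹, inv_mem hg, fun x hx => ?_⟩
  obtain ⟨u, hu, rfl⟩ := exists_vecF x
  have hget : ∀ i (hi : i < repR.length),
      (repR.map fun r => maskL (P5.filter fun x => orthC x r)).getD i 0 = maskL (P5.filter fun x => orthC x repR[i]) := by
    intro i hi
    rw [List.getD_eq_getElem _ _ (by simpa using hi), List.getElem_map]
  have e' := Nat.eq_of_beq_eq_true e
  rw [hget ib hib, hget ic hic] at e'
  have hbit : (maskL (wL.map (mvC (genWord w)))).testBit u = true := by
    rw [e']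
    show ((_ : ℕ) &&& (_ : ℕ)).testBit u = true
    rw [Nat.testBit_and, Bool.and_eq_true, testBit_maskL, testBit_maskL]
    have h5 : u ∈ P5 := List.mem_filter.2 ⟨List.mem_range.2 hu, horth _ _ hx hseed'⟩
    exact ⟨List.mem_filter.2 ⟨h5, horth _ _ hx hbW⟩, List.mem_filter.2 ⟨h5, horth _ _ hx hcW⟩⟩
  obtain ⟨y, hy, rfl⟩ := List.mem_map.1 ((testBit_maskL _ _).1 hbit)
  refine ⟨y, hy, ?_⟩
  rw [← code_smul hge y, inv_smul_smul]

/-- The hermitian form is fixed by the group. -/
theorem herm_gsmul (g : SU6 F) (x y : Fin 6 → F) : hermForm 6 F 2 (g • x) (g • y) = hermForm 6 F 2 x y :=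
  herm_mulVec g x y

theorem smul_smulF (g : SU6 F) (c : F) (x : Fin 6 → F) : g • (c • x) = c • (g • x) := by
  rw [smul_def, smul_def, Matrix.mulVec_smul]

/-- A group of sixteen commuting involutions displacing into the plane has two different images. -/
theorem images_differ {K : Subgroup (SU6 F)} (hK : K ≤ sub 0) (hsq : ∀ k ∈ K, k * k = 1)
    (h16 : Nat.card ↥K = 16) : ∃ k ∈ K, k ≠ 1 ∧ ∃ l ∈ K, l ≠ 1 ∧ ¬ dImg l ⊆ dImg k := by
  classical
  by_contra hno
  push Not at hno
  obtain ⟨k0, hk0, hk01⟩ : ∃ k ∈ K, k ≠ 1 := by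
    by_contra h
    push Not at h
    have : K = ⊥ := (Subgroup.eq_bot_iff_forall K).2 h
    rw [this, Subgroup.card_bot] at h16
    omega
  have hI : ∀ k ∈ K, k ≠ 1 → dImg k = dImg k0 := fun k hk h1 => (hno k0 hk0 hk01 k hk h1).antisymm (hno k hk h1 k0 hk0 hk01)
  have hc : ∀ k ∈ K, k ≠ 1 → (dImg k).ncard = 16 := fun k hk h1 => ncard_dImg (hK hk) (hsq k hk) h1
  -- a vector not orthogonal to the image
  obtain ⟨w, hw, hw0⟩ : ∃ w ∈ dImg k0, w ≠ 0 := by
    by_contra h
    push Not at h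
    have h1 := Set.ncard_le_ncard (fun y hy => Set.mem_singleton_iff.2 (h y hy)) (Set.finite_singleton (0 : Fin 6 → F))
    rw [hc k0 hk0 hk01, Set.ncard_singleton] at h1
    omega
  obtain ⟨x, hx⟩ := H3.exists_hermForm_eq_one (F := F) hF hw0
  have hwx : hermForm 6 F 2 w x = 1 := by rw [← H3.hermForm_pow_q hF, hx, one_pow]
  -- the values on this vector lie in the prime field
  have hval : ∀ k ∈ K, hermForm 6 F 2 (k • x + x) x ^ 2 = hermForm 6 F 2 (k • x + x) x := by
    intro k hk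
    have e1 : hermForm 6 F 2 x (k • x) = hermForm 6 F 2 (k • x) x := by
      conv_lhs => rw [← herm_gsmul k, ← mul_smul, hsq k hk, one_smul]
    rw [H3.hermForm_pow_q hF, H3.hermForm_add_right hF, H3.hermForm_add_left hF, e1]
  have hinj : Function.Injective fun k : ↥K => k.1 • x + x := by
    intro a b e
    have e1 : a.1 • x = b.1 • x := add_right_cancel e
    by_contra hab
    have hm : a.1⁻¹ * b.1 ∈ K := mul_mem (inv_mem a.2) b.2
    have hm1 : a.1⁻¹ * b.1 ≠ 1 := fun h => hab (Subtype.ext (inv_mul_eq_one.1 h))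
    have hfx : (a.1⁻¹ * b.1) • x = x := by rw [mul_smul, inv_smul_eq_iff]; exact e1.symm
    obtain ⟨y, hy⟩ : w ∈ dImg (a.1⁻¹ * b.1) := by rw [hI _ hm hm1]; exact hw
    have : hermForm 6 F 2 w x = 0 := by
      rw [← hy, H3.hermForm_add_left hF]
      conv_lhs => rw [← hfx, herm_gsmul, hfx]
      exact congrFun (Model.add_self fun _ : Fin 6 => hermForm 6 F 2 y x) 0
    rw [hwx] at this
    exact one_ne_zero this
  have hsub : ∀ k : ↥K, k.1 • x + x ∈ dImg k0 := fun k => by
    by_cases h1 : k.1 = 1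
    · rw [h1, one_smul, Model.add_self]
      exact ⟨0, by show k0 • (0 : Fin 6 → F) + 0 = 0; rw [smul_def, Matrix.mulVec_zero, add_zero]⟩
    · rw [← hI k.1 k.2 h1]; exact ⟨x, rfl⟩
  have hsurj : Function.Surjective fun k : ↥K => (⟨k.1 • x + x, hsub k⟩ : ↥(dImg k0)) := by
    refine (Function.Injective.bijective_of_nat_card_le (fun a b e => hinj (congrArg Subtype.val e)) ?_).2
    rw [Nat.card_coe_set_eq, hc k0 hk0 hk01, h16]
  obtain ⟨k, hk⟩ := hsurj ⟨(om : F) • w, by
    obtain ⟨y, hy⟩ := hw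
    refine ⟨(om : F) • y, ?_⟩
    show k0 • ((om : F) • y) + (om : F) • y = (om : F) • w
    rw [smul_smulF, ← smul_add]; exact congrArg _ hy⟩
  have hk' : k.1 • x + x = (om : F) • w := congrArg Subtype.val hk
  have := hval k.1 k.2
  rw [hk', H3.hermForm_smul_left hF, hwx, mul_one, pow_two, hom] at this
  exact one_ne_zero (add_eq_left.1 this)

/-- The sixteen elements and their plane are carried to the standard ones. -/
theorem exists_carry {K : Subgroup (SU6 F)} {W : Set (Fin 6 → F)} (hK : K ≤ sub 0) (hsq : ∀ k ∈ K, k * k = 1)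
    (h16 : Nat.card ↥K = 16) (hc : W.ncard = 64) (hadd : ∀ x ∈ W, ∀ y ∈ W, x + y ∈ W)
    (hsing : ∀ x ∈ W, hermForm 6 F 2 x x = 0) (hfix : ∀ k ∈ K, ∀ x ∈ W, k • x = x)
    (hdW : ∀ k ∈ K, dImg k ⊆ W) (hshort : ∃ x ∈ W, IsShort x) :
    ∃ γ ∈ sub (F := F) 0, (fun x => γ • x) '' W = W0 ∧ K.map (MulAut.conj γ).toMonoidHom = K0 ∧
      16 ≤ Nat.card ↥(K0 (F := F)) := by
  classical
  obtain ⟨k, hk, hk1, l, hl, hl1, hne⟩ := images_differ hK hsq h16
  obtain ⟨w, hw, hwk⟩ := Set.not_subset.1 hne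
  have hsm : ∀ {j : SU6 F} {y : Fin 6 → F} (c : F), y ∈ dImg j → c • y ∈ dImg j := by
    rintro j _ c ⟨u, rfl⟩
    exact ⟨c • u, by show j • (c • u) + c • u = c • (j • u + u); rw [smul_smulF, smul_add]⟩
  have had : ∀ {j : SU6 F} {y y' : Fin 6 → F}, y ∈ dImg j → y' ∈ dImg j → y + y' ∈ dImg j := by
    rintro j _ _ ⟨u, rfl⟩ ⟨u', rfl⟩
    exact ⟨u + u', by show j • (u + u') + (u + u') = _; rw [smul_add']; exact add_add_add_comm _ _ _ _⟩
  let f : ↥(dImg k) × F → ↥W := fun p => ⟨p.1.1 + p.2 • w, hadd _ (hdW k hk p.1.2) _ (hdW l hl (hsm p.2 hw))⟩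
  have hf : Function.Injective f := by
    rintro ⟨⟨a, ha⟩, c⟩ ⟨⟨b, hb⟩, d⟩ e
    have e' : a + c • w = b + d • w := congrArg Subtype.val e
    by_cases hcd : c = d
    · subst hcd
      obtain rfl := add_right_cancel e'
      rfl
    · exfalso
      refine hwk ?_
      have e2 : (c + d) • w = a + b := by
        rw [add_smul]
        calc c • w + d • w = (a + a) + (c • w + d • w) := by rw [Model.add_self, zero_add]
          _ = a + (a + c • w) + d • w := by abel
          _ = a + (b + d • w) + d • w := by rw [e']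
          _ = a + b + (d • w + d • w) := by abel
          _ = a + b := by rw [Model.add_self, add_zero]
      have hne0 : c + d ≠ 0 := fun h => hcd (by linear_combination h - d * two (F := F))
      have := hsm (c + d)⁻¹ (had ha hb)
      rwa [← e2, inv_smul_smul₀ hne0] at this
  have hF4 : Nat.card F = 4 := by rw [Nat.card_eq_fintype_card]; exact Setup.card
  have hfb : Function.Bijective f := hf.bijective_of_nat_card_le (by
    rw [Nat.card_prod, Nat.card_coe_set_eq, Nat.card_coe_set_eq, ncard_dImg (hK hk) (hsq k hk) hk1, hc, hF4])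
  have hom' : ∀ x ∈ W, (om : F) • x ∈ W := by
    intro x hx
    obtain ⟨⟨⟨a, ha⟩, c⟩, e⟩ := hfb.2 ⟨x, hx⟩
    have e' : a + c • w = x := congrArg Subtype.val e
    rw [← e', smul_add, smul_smul]
    exact (f ⟨⟨_, hsm om ha⟩, om * c⟩).2
  have hiso : ∀ x ∈ W, ∀ y ∈ W, hermForm 6 F 2 x y = 0 := by
    intro x hx y hy
    have h1 := hsing _ (hadd x hx y hy)
    have h2 := hsing _ (hadd _ (hom' x hx) y hy)
    simp only [H3.hermForm_add_left hF, H3.hermForm_add_right hF, H3.hermForm_smul_left hF,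
      H3.hermForm_smul_right hF, hsing x hx, hsing y hy, mul_zero, zero_add, add_zero] at h1 h2
    linear_combination -h2 + (om : F) ^ 2 * h1 - hermForm 6 F 2 x y * hom (F := F)
  obtain ⟨x, hx, γ1, hγ1, e1⟩ := hshort
  let W1 : Set (Fin 6 → F) := (fun y => γ1⁻¹ • y) '' W
  obtain ⟨γ2, hγ2, h2⟩ := carry_plane (W := W1)
    (by rw [Set.ncard_image_of_injective _ (MulAction.injective _), hc])
    (by rintro _ ⟨a, ha, rfl⟩ _ ⟨b, hb, rfl⟩; exact ⟨a + b, hadd a ha b hb, smul_add' _ _ _⟩)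
    (by rintro _ ⟨a, ha, rfl⟩; exact ⟨(om : F) • a, hom' a ha, smul_smulF _ _ _⟩)
    (by rintro _ ⟨a, ha, rfl⟩ _ ⟨b, hb, rfl⟩; rw [herm_gsmul]; exact hiso a ha b hb)
    ⟨x, hx, by show γ1⁻¹ • x = _; rw [← e1, inv_smul_smul]; rfl⟩
  have hγ : γ2 * γ1⁻¹ ∈ sub (F := F) 0 := mul_mem hγ2 (inv_mem hγ1)
  have himg : (fun y => (γ2 * γ1⁻¹) • y) '' W = W0 := by
    refine Set.eq_of_subset_of_ncard_le ?_ ?_ (Set.toFinite _)
    · rintro _ ⟨y, hy, rfl⟩
      show (γ2 * γ1⁻¹) • y ∈ W0
      rw [mul_smul]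
      exact h2 _ ⟨y, hy, rfl⟩
    · rw [ncard_W0, Set.ncard_image_of_injective _ (MulAction.injective _), hc]
  have hle : K.map (MulAut.conj (γ2 * γ1⁻¹)).toMonoidHom ≤ K0 := by
    rintro _ ⟨j, hj, rfl⟩
    refine ⟨mul_mem (mul_mem hγ (hK hj)) (inv_mem hγ), fun y hy => ?_⟩
    rw [← himg] at hy
    obtain ⟨u, hu, rfl⟩ := hy
    show ((γ2 * γ1⁻¹) * j * (γ2 * γ1⁻¹)⁻¹) • ((γ2 * γ1⁻¹) • u) = (γ2 * γ1⁻¹) • u
    rw [mul_smul, inv_smul_smul, mul_smul, hfix j hj u hu]
  have hcard : Nat.card ↥(K.map (MulAut.conj (γ2 * γ1⁻¹)).toMonoidHom) = 16 :=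
    (Subgroup.card_map_of_injective (MulEquiv.injective _)).trans h16
  have hle16 : Nat.card ↥(K0 (F := F)) ≤ 16 := by
    choose i hi hie using fun g : ↥(K0 (F := F)) => K0_code g.2
    have := Nat.card_le_card_of_injective (fun g => (⟨i g, hi g⟩ : Fin 16)) fun a b e => Subtype.ext (ext_mat (by
      rw [hie a, hie b, show i a = i b from congrArg Fin.val e]))
    rwa [Nat.card_fin] at this
  exact ⟨_, hγ, himg, Subgroup.eq_of_le_of_card_ge hle (by rw [hcard]; exact hle16),
    hcard ▸ Subgroup.card_le_of_le hle⟩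

end Cfsg.Agent.H32.LargeFischer
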