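import Cfsg.Agent.H84.LF.Check
import Cfsg.Agent.H32.LargeFischer.Data

/-!
# Checks on the stabilisers of the long orbit
-/

set_option autoImplicit false

namespace Cfsg.Agent.H32.LargeFischer

open Cfsg.Agent.H8.U62 Cfsg.Agent.H84.LF

/-- The code of a word of the stabiliser. -/
def genS (i k : ℕ) : ℕ := wordS (subGenC i) ((genW.getD i []).getD k [])

/-- The generators fix the representative and the listed inverses invert them. -/
def genOK (i : ℕ) : Bool :=
  (List.range 2).all fun k => force (genS i k) fun g =>
    Nat.beq (mvC g 85) 85 && Nat.beq (mmC g ((ginv.getD i []).getD k 0)) oneC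

/-- The transversal is built from the generators and has distinct images. -/
def transOK (i : ℕ) : Bool :=
  force (genS i 0) fun g0 => force (genS i 1) fun g1 =>
    let T := tTab.getD i []
    let s := tStep.getD i []
    let o := tOrd.getD i []
    Nat.beq T.length 480 && Nat.beq s.length 479 && Nat.beq o.length 480 &&
    Nat.beq (T.getD 0 0) oneC &&
    ((List.range 479).all fun n =>
      let q := s.getD n 0
      Nat.blt (q / 2) (n + 1) && Nat.blt (q % 2) 2 &&
        Nat.beq (T.getD (n + 1) 0) (mmC (bif Nat.beq (q % 2) 0 then g0 else g1) (T.getD (q / 2) 0))) &&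
    (o.all fun n => Nat.blt n 480) &&
    keysOK (o.map fun n => mvC (T.getD n 0) 27) 0

/-- Two matrix codes differ in a column. -/
def colsDiffer (A B : ℕ) : Bool :=
  (List.range 6).any fun j => !(Nat.beq (colC A j) (colC B j))

/-- The further stabiliser has twelve elements. -/
def pointOK (i : ℕ) : Bool :=
  force (genS i 0) fun g0 => force (genS i 1) fun g1 =>
    let S := sTab.getD i []
    let W := sW.getD i []
    Nat.beq S.length 12 && Nat.beq W.length 12 &&
    ((List.range 12).all fun n =>
      Nat.beq (S.getD n 0) (wordS [g0, g1] (W.getD n [])) && Nat.beq (mvC (S.getD n 0) 27) 27 &&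
        (W.getD n []).all fun k => Nat.blt k 2) &&
    ((List.range 12).all fun a => (List.range 12).all fun b =>
      Nat.beq a b || colsDiffer (S.getD a 0) (S.getD b 0))

/-- The square of the product moves a coordinate vector. -/
def sqMoves (M : ℕ) : Bool :=
  (List.range 6).any fun j => force (1 <<< (2 * j)) fun e => !(Nat.beq (mvC M (mvC M e)) e)

/-- The product does not commute with a conjugate by a generator. -/
def ncMoves (M g gi : ℕ) : Bool :=
  force (mmC g (mmC M gi)) fun N =>
    force (mmC M N) fun A => force (mmC N M) fun B => colsDiffer A B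

/-- The product times the outer element fails to commute at one of the probes. -/
def outerMoves (pr : List (ℕ × ℕ × ℕ)) (M : ℕ) : Bool :=
  pr.any fun q => !(Nat.beq (mvC M q.2.1) (mvC q.1 (mvC M q.2.2)))

/-- The probes with their vectors. -/
def probeV (i : ℕ) : List (ℕ × ℕ × ℕ) :=
  (probes.getD i []).map fun p =>
    force ((oTab.getD i []).getD (p.getD 0 0) 0) fun o =>
      force (1 <<< (2 * p.getD 1 0)) fun e => (o, mvC tauC (mvC o e), mvC tauC e)

/-- The conditions on one element of the stabiliser. -/
def elemOK (g0 g1 h0 h1 : ℕ) (O : List ℕ) (pr : List (ℕ × ℕ × ℕ)) (M : ℕ) : Bool :=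
  outerMoves pr M &&
    (sqMoves M || ncMoves M g0 h0 || ncMoves M g1 h1 || O.any fun o => Nat.beq M o)

/-- The conditions on all elements of the stabiliser. -/
def allOK (i : ℕ) : Bool :=
  force (genS i 0) fun g0 => force (genS i 1) fun g1 =>
    let h0 := (ginv.getD i []).getD 0 0
    let h1 := (ginv.getD i []).getD 1 0
    let O := oTab.getD i []
    let pr := probeV i
    Nat.beq O.length 16 && ((probes.getD i []).all fun p => Nat.blt (p.getD 0 0) 16 && Nat.blt (p.getD 1 0) 6) &&
    ((tTab.getD i []).all fun T => (sTab.getD i []).all fun S =>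
      force (mmC T S) fun M => elemOK g0 g1 h0 h1 O pr M)

/-- All checks for the subgroup with number `i`. -/
def longOK (i : ℕ) : Bool := genOK i && transOK i && pointOK i && allOK i

theorem long_ok0 : longOK 0 = true := by decide +kernel

theorem long_ok1 : longOK 1 = true := by decide +kernel

theorem long_ok2 : longOK 2 = true := by decide +kernel

end Cfsg.Agent.H32.LargeFischer
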