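import Cfsg.Agent.H32.LargeFischer.Stars
import Cfsg.Agent.H18.Singular.Basic

/-!
# The configuration on an elementary subgroup of order 2^11 from its meet with `E`
-/

set_option autoImplicit false
set_option linter.unusedSectionVars false

namespace Cfsg.Agent.H32.LargeFischer

variable {G : Type*} [Group G] [Finite G]

/-- An element of `A` that is neither trivial nor a conjugate of `z`. -/
def IsDuad (z : G) (A : Subgroup G) (t : G) : Prop := t ∈ A ∧ t ≠ 1 ∧ ¬ IsConj z t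

/-- The displacements of `x` under `E`, up to `z`. -/
def disp (z : G) (E : Subgroup G) (x : G) : Set G :=
  {i | ∃ q ∈ E, i = q * x * q⁻¹ * x⁻¹ ∨ i = q * x * q⁻¹ * x⁻¹ * z}

/-- What is known about `A` and its meet with `E`. -/
structure ALocal (z : G) (E A : Subgroup G) : Prop where
  sing : H18.SingPt E z
  sq : ∀ a ∈ A, a * a = 1
  cardA : Nat.card A = 2 ^ 11
  mem : z ∈ A
  cardAE : Nat.card (A ⊓ E : Subgroup G) = 2 ^ 7
  norm : ∀ q ∈ E, ∀ a ∈ A, q * a * q⁻¹ ∈ A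
  count36 : Set.ncard {t | IsDuad z A t ∧ t ∈ E} = 36
  four : ∀ t, IsDuad z A t → t ∈ E → Set.ncard {w | IsDuad z A w ∧ w ∈ E ∧ IsDuad z A (t * w)} = 4
  two : ∀ t w, IsDuad z A t → t ∈ E → IsDuad z A w → w ∈ E → IsDuad z A (t * w) →
    Set.ncard {u | IsDuad z A u ∧ u ∈ E ∧ IsDuad z A (t * u) ∧ IsDuad z A (w * u)} = 2
  disp_card : ∀ x ∈ A, x ∉ E → Set.ncard (disp z E x) = 32
  disp_mul : ∀ x ∈ A, x ∉ E → ∀ i ∈ disp z E x, ∀ j ∈ disp z E x, i * j ∈ disp z E x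
  five : ∀ t, IsDuad z A t → t ∈ E → Set.ncard {x | x ∈ A ∧ x ∉ E ∧ t ∈ disp z E x} = 640
  pair : ∀ t w, IsDuad z A t → t ∈ E → IsDuad z A w → w ∈ E → IsDuad z A (t * w) →
    ∀ x ∈ A, x ∉ E → t ∈ disp z E x → w ∈ disp z E x
  trans15 : ∀ x ∈ A, x ∉ E → ∀ y ∈ A, y ∉ E → ∃ h : G, h * z = z * h ∧ (∀ a ∈ A, h * a * h⁻¹ ∈ A) ∧
    h * x * h⁻¹ * y⁻¹ ∈ E
  transZ : ∀ a ∈ A, IsConj z a → ∃ m : G, (∀ b ∈ A, m * b * m⁻¹ ∈ A) ∧ m * z * m⁻¹ = a
  transP : ∀ a b, IsDuad z A a → IsDuad z A b → ∃ m : G, (∀ c ∈ A, m * c * m⁻¹ ∈ A) ∧ m * a * m⁻¹ = b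

namespace ALocal

variable {z : G} {E A : Subgroup G} (h : ALocal z E A)
include h

theorem inv_eq {a : G} (ha : a ∈ A) : a⁻¹ = a := inv_eq_of_mul_eq_one_right (h.sq a ha)

theorem comm {a b : G} (ha : a ∈ A) (hb : b ∈ A) : a * b = b * a := by
  calc a * b = (a * b)⁻¹ := (h.inv_eq (mul_mem ha hb)).symm
    _ = b⁻¹ * a⁻¹ := mul_inv_rev _ _
    _ = b * a := by rw [h.inv_eq ha, h.inv_eq hb]

theorem duad_conj {q t : G} (hq : q ∈ E) (ht : IsDuad z A t) : IsDuad z A (q * t * q⁻¹) :=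
  ⟨h.norm q hq t ht.1, fun e => ht.2.1 (conj_eq_one_iff.1 e),
    fun e => ht.2.2 (e.trans (isConj_iff.2 ⟨q, rfl⟩).symm)⟩

theorem conj_mem_E {a q : G} (ha : a ∈ A) (hq : q ∈ E) : a * q * a⁻¹ ∈ E :=
  h.sing.norm a (h.comm ha h.mem) q hq

theorem disp_inner {q x : G} (hq : q ∈ E) (hx : x ∈ A) : q * x * q⁻¹ * x⁻¹ ∈ A ⊓ E :=
  Subgroup.mem_inf.2 ⟨mul_mem (h.norm q hq x hx) (inv_mem hx), by
    rw [show q * x * q⁻¹ * x⁻¹ = q * (x * q⁻¹ * x⁻¹) by group]
    exact mul_mem hq (h.conj_mem_E hx (inv_mem hq))⟩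

theorem disp_le {x i : G} (hx : x ∈ A) (hi : i ∈ disp z E x) : i ∈ A ⊓ E := by
  obtain ⟨q, hq, rfl | rfl⟩ := hi
  · exact h.disp_inner hq hx
  · exact mul_mem (h.disp_inner hq hx) ⟨h.mem, h.sing.mem⟩

theorem disp_z {x i : G} (hi : i ∈ disp z E x) : i * z ∈ disp z E x := by
  obtain ⟨q, hq, rfl | rfl⟩ := hi
  · exact ⟨q, hq, Or.inr rfl⟩
  · exact ⟨q, hq, Or.inl (by rw [mul_assoc, h.sing.xx, mul_one])⟩

/-- The displacements depend on the coset of `A ⊓ E` only. -/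
theorem disp_coset {x y : G} (hx : x ∈ A) (hy : y ∈ A) (hxy : x⁻¹ * y ∈ E) :
    disp z E y ⊆ disp z E x := by
  intro i hi
  obtain ⟨j, hj, rfl⟩ : ∃ j ∈ A ⊓ E, y = x * j :=
    ⟨x⁻¹ * y, Subgroup.mem_inf.2 ⟨mul_mem (inv_mem hx) hy, hxy⟩, (mul_inv_cancel_left x y).symm⟩
  have key : ∀ q ∈ E, q * (x * j) * q⁻¹ * (x * j)⁻¹ = q * x * q⁻¹ * x⁻¹ ∨
      q * (x * j) * q⁻¹ * (x * j)⁻¹ = q * x * q⁻¹ * x⁻¹ * z := by
    intro q hq
    rcases h.sing.pair (h.sing.comm hq hj.2) with e | e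
    · left
      rw [show q * (x * j) * q⁻¹ * (x * j)⁻¹ = q * x * q⁻¹ * (q * j * q⁻¹ * j⁻¹) * x⁻¹ by group, e, mul_one]
    · right
      rw [show q * (x * j) * q⁻¹ * (x * j)⁻¹ = q * x * q⁻¹ * (q * j * q⁻¹ * j⁻¹) * x⁻¹ by group, e,
        mul_assoc (q * x * q⁻¹), h.inv_eq hx, h.comm h.mem hx, ← mul_assoc]
  obtain ⟨q, hq, rfl | rfl⟩ := hi
  · rcases key q hq with e | e <;> rw [e]
    · exact ⟨q, hq, Or.inl rfl⟩
    · exact ⟨q, hq, Or.inr rfl⟩
  · rcases key q hq with e | e <;> rw [e]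
    · exact ⟨q, hq, Or.inr rfl⟩
    · exact ⟨q, hq, Or.inl (by rw [mul_assoc, h.sing.xx, mul_one])⟩

/-- The conjugates of `x` under `E`. -/
def orb (_ : ALocal z E A) (x : G) : Set G := {y | ∃ q ∈ E, q * x * q⁻¹ = y}

theorem orb_fac {x y : G} (hy : y ∈ h.orb x) : y * x⁻¹ ∈ disp z E x := by
  obtain ⟨q, hq, rfl⟩ := hy
  exact ⟨q, hq, Or.inl rfl⟩

theorem disp_fac {x i : G} (hi : i ∈ disp z E x) : i * x ∈ h.orb x ∨ i * z * x ∈ h.orb x := by
  obtain ⟨q, hq, rfl | rfl⟩ := hi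
  · exact Or.inl ⟨q, hq, by rw [inv_mul_cancel_right]⟩
  · refine Or.inr ⟨q, hq, ?_⟩
    rw [mul_assoc _ z z, h.sing.xx, mul_one, inv_mul_cancel_right]

theorem orb_pow_two (x : G) : ∃ k, (h.orb x).ncard = 2 ^ k := by
  letI : MulAction ↥E G := MulAction.compHom G ((MulAut.conj : G →* MulAut G).comp E.subtype)
  have e : MulAction.orbit ↥E x = h.orb x := by
    ext y
    exact ⟨fun ⟨q, hq⟩ => ⟨q.1, q.2, hq⟩, fun ⟨q, hq, e⟩ => ⟨⟨q, hq⟩, e⟩⟩
  have h2 : IsPGroup 2 ↥E := h.sing.ext.1.1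
  obtain ⟨k, hk⟩ := h2.index (MulAction.stabilizer ↥E x)
  exact ⟨k, by rw [← e, ← MulAction.index_stabilizer, hk]⟩

theorem orb_cases {x : G} (hx : x ∈ A) (hxE : x ∉ E) : 16 ∣ (h.orb x).ncard := by
  obtain ⟨k, hk⟩ := h.orb_pow_two x
  have h32 := h.disp_card x hx hxE
  have hsub : disp z E x ⊆ (fun y => y * x⁻¹) '' h.orb x ∪ (fun y => y * x⁻¹ * z) '' h.orb x := by
    intro i hi
    obtain ⟨q, hq, rfl | rfl⟩ := hi
    · exact Or.inl ⟨_, ⟨q, hq, rfl⟩, rfl⟩
    · exact Or.inr ⟨_, ⟨q, hq, rfl⟩, rfl⟩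
  have hb := ((Set.ncard_le_ncard hsub (Set.toFinite _)).trans (Set.ncard_union_le _ _)).trans
    (Nat.add_le_add (Set.ncard_image_le (Set.toFinite _)) (Set.ncard_image_le (Set.toFinite _)))
  rw [h32, hk] at hb
  rw [hk, show (16 : ℕ) = 2 ^ 4 from rfl]
  refine pow_dvd_pow 2 ?_
  by_contra hk4
  have : 2 ^ k ≤ 2 ^ 3 := Nat.pow_le_pow_right (by norm_num) (by omega)
  omega

/-- The elements of `A` of the class set in a coset of `A ⊓ E`. -/
def cosetP (_ : ALocal z E A) (x : G) : Set G := {y | IsDuad z A y ∧ y * x⁻¹ ∈ E}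

theorem cosetP_conj {q x y : G} (hq : q ∈ E) (hx : x ∈ A) (hy : y ∈ h.cosetP x) :
    q * y * q⁻¹ ∈ h.cosetP x := by
  refine ⟨h.duad_conj hq hy.1, ?_⟩
  rw [show q * y * q⁻¹ * x⁻¹ = q * (y * x⁻¹) * (x * q⁻¹ * x⁻¹) by group]
  exact mul_mem (mul_mem hq hy.2) (h.conj_mem_E hx (inv_mem hq))

theorem sixteen_dvd {x : G} (hx : x ∈ A) (hxE : x ∉ E) : 16 ∣ (h.cosetP x).ncard := by
  suffices key : ∀ n, ∀ S : Set G, S.ncard = n → S ⊆ h.cosetP x → (∀ y ∈ S, h.orb y ⊆ S) → 16 ∣ S.ncard from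
    key _ _ rfl subset_rfl fun y hy _ ⟨q, hq, e⟩ => e ▸ h.cosetP_conj hq hx hy
  intro n
  induction n using Nat.strong_induction_on with
  | _ n ih =>
    intro S hn hS hinv
    rcases S.eq_empty_or_nonempty with rfl | ⟨y, hy⟩
    · simp
    have hyA := (hS hy).1.1
    have hyE : y ∉ E := fun hh => hxE (inv_mem_iff.1 ((mul_mem_cancel_left hh).1 (hS hy).2))
    have hsub := hinv y hy
    have hne : 0 < (h.orb y).ncard :=
      Set.ncard_pos (Set.toFinite _) |>.2 ⟨y, 1, one_mem _, by rw [one_mul, inv_one, mul_one]⟩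
    have hd := Set.ncard_sdiff_add_ncard_of_subset hsub (Set.toFinite _)
    have hrec := ih (S \ h.orb y).ncard (by omega) _ rfl (Set.sdiff_subset.trans hS) fun w hw v hv =>
      ⟨hinv w hw.1 hv, fun hv' => by
        obtain ⟨q, hq, rfl⟩ := hv
        obtain ⟨q', hq', e⟩ := hv'
        exact hw.2 ⟨q⁻¹ * q', mul_mem (inv_mem hq) hq', by
          calc q⁻¹ * q' * y * (q⁻¹ * q')⁻¹ = q⁻¹ * (q' * y * q'⁻¹) * q := by group
            _ = w := by rw [e]; group⟩⟩
    rw [← hd]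
    exact Nat.dvd_add hrec (h.orb_cases hyA hyE)

theorem cosetP_ncard_eq {x y : G} (hx : x ∈ A) (hxE : x ∉ E) (hy : y ∈ A) (hyE : y ∉ E) :
    (h.cosetP x).ncard = (h.cosetP y).ncard := by
  suffices key : ∀ {x y : G}, x ∈ A → x ∉ E → y ∈ A → y ∉ E → (h.cosetP x).ncard ≤ (h.cosetP y).ncard from
    le_antisymm (key hx hxE hy hyE) (key hy hyE hx hxE)
  intro x y hx hxE hy hyE
  obtain ⟨g, hgz, hgA, hg⟩ := h.trans15 x hx hxE y hy hyE
  refine Set.ncard_le_ncard_of_injOn (fun w => g * w * g⁻¹) (fun w hw => ⟨⟨hgA w hw.1.1,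
    fun e => hw.1.2.1 (conj_eq_one_iff.1 e), fun e => hw.1.2.2 (e.trans (isConj_iff.2 ⟨g, rfl⟩).symm)⟩, ?_⟩)
    (fun a _ b _ e => mul_left_cancel (mul_right_cancel e)) (Set.toFinite _)
  rw [show g * w * g⁻¹ * y⁻¹ = g * (w * x⁻¹) * g⁻¹ * (g * x * g⁻¹ * y⁻¹) by group]
  exact mul_mem (h.sing.norm g hgz _ hw.2) hg

open Classical in
/-- The set of duads. -/
noncomputable def duads (_ : ALocal z E A) : Finset G := (Set.toFinite {t | IsDuad z A t}).toFinset

theorem mem_duads {t : G} : t ∈ h.duads ↔ IsDuad z A t := by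
  classical
  simp [duads]

open Classical in
/-- The part outside `E`. -/
noncomputable def outer (_ : ALocal z E A) : Finset G := (Set.toFinite {x | x ∈ A ∧ x ∉ E}).toFinset

theorem mem_outer {x : G} : x ∈ h.outer ↔ x ∈ A ∧ x ∉ E := by
  classical
  simp [outer]

theorem card_outer : h.outer.card = 1920 := by
  classical
  have e : (h.outer : Set G) = (A : Set G) \ ((A ⊓ E : Subgroup G) : Set G) := by
    ext x
    simp [h.mem_outer]
  rw [← Set.ncard_coe_finset, e]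
  have hd := Set.ncard_sdiff_add_ncard_of_subset (s := ((A ⊓ E : Subgroup G) : Set G)) (t := (A : Set G))
    (fun x hx => hx.1) (Set.toFinite _)
  have h1 : (A : Set G).ncard = 2 ^ 11 := by rw [← Nat.card_coe_set_eq]; exact h.cardA
  have h2 : ((A ⊓ E : Subgroup G) : Set G).ncard = 2 ^ 7 := by rw [← Nat.card_coe_set_eq]; exact h.cardAE
  rw [h1, h2] at hd
  omega

open Classical in
theorem double_count (p : G → Prop) [DecidablePred p] (hp : ∀ x ∈ A, ∀ y ∈ A, x⁻¹ * y ∈ E → p x → p y) {c : ℕ}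
    (hc : ∀ x ∈ A, x ∉ E → (h.cosetP x).ncard = c) :
    (h.duads.filter fun y => y ∉ E ∧ p y).card * 128 = (h.outer.filter p).card * c := by
  classical
  have e := Finset.sum_card_bipartiteAbove_eq_sum_card_bipartiteBelow
    (s := h.duads.filter fun y => y ∉ E ∧ p y) (t := h.outer.filter p) (fun y x => y * x⁻¹ ∈ E)
  have hmove : ∀ y x, y ∈ A → x ∈ A → y * x⁻¹ ∈ E → x⁻¹ * y ∈ E := fun y x hy hx hyx => by
    rw [h.comm (inv_mem hx) hy]; exact hyx
  have hl : ∀ y ∈ h.duads.filter (fun y => y ∉ E ∧ p y),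
      (Finset.bipartiteAbove (fun y x => y * x⁻¹ ∈ E) (h.outer.filter p) y).card = 128 := by
    intro y hy
    rw [Finset.mem_filter, h.mem_duads] at hy
    have e' : ((Finset.bipartiteAbove (fun y x => y * x⁻¹ ∈ E) (h.outer.filter p) y : Finset G) : Set G) =
        (fun i => i * y) '' ((A ⊓ E : Subgroup G) : Set G) := by
      ext x
      simp only [Finset.bipartiteAbove, Finset.coe_filter, Finset.mem_filter, h.mem_outer, Set.mem_setOf_eq,
        Set.mem_image, SetLike.mem_coe]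
      constructor
      · rintro ⟨⟨⟨hx, -⟩, -⟩, hxy⟩
        refine ⟨x * y⁻¹, Subgroup.mem_inf.2 ⟨mul_mem hx (inv_mem hy.1.1), ?_⟩, inv_mul_cancel_right x y⟩
        have := inv_mem hxy
        rwa [mul_inv_rev, inv_inv] at this
      · rintro ⟨i, hi, rfl⟩
        have hix : y * (i * y)⁻¹ ∈ E := by
          rw [mul_inv_rev, mul_inv_cancel_left]; exact inv_mem (Subgroup.mem_inf.1 hi).2
        have hin : i * y ∈ A := mul_mem hi.1 hy.1.1
        refine ⟨⟨⟨hin, fun hh => hy.2.1 ((mul_mem_cancel_left (Subgroup.mem_inf.1 hi).2).1 hh)⟩, hp y hy.1.1 _ hin ?_ hy.2.2⟩, hix⟩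
        rw [h.comm (inv_mem hy.1.1) hin, mul_inv_cancel_right]
        exact hi.2
    rw [← Set.ncard_coe_finset, e', Set.ncard_image_of_injective _ (mul_left_injective y), ← Nat.card_coe_set_eq]
    exact h.cardAE
  have hr : ∀ x ∈ h.outer.filter p,
      (Finset.bipartiteBelow (fun y x => y * x⁻¹ ∈ E) (h.duads.filter fun y => y ∉ E ∧ p y) x).card = c := by
    intro x hx
    rw [Finset.mem_filter, h.mem_outer] at hx
    have e' : ((Finset.bipartiteBelow (fun y x => y * x⁻¹ ∈ E) (h.duads.filter fun y => y ∉ E ∧ p y) x : Finset G) :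
        Set G) = h.cosetP x := by
      ext y
      simp only [Finset.bipartiteBelow, Finset.coe_filter, Finset.mem_filter, h.mem_duads, Set.mem_setOf_eq, cosetP]
      constructor
      · rintro ⟨⟨hy, -⟩, hyx⟩
        exact ⟨hy, hyx⟩
      · rintro ⟨hy, hyx⟩
        exact ⟨⟨hy, fun hh => hx.1.2 (inv_mem_iff.1 ((mul_mem_cancel_left hh).1 hyx)),
          hp x hx.1.1 y hy.1 (hmove y x hy.1 hx.1.1 hyx) hx.2⟩, hyx⟩
    rw [← Set.ncard_coe_finset, e', hc x hx.1.1 hx.1.2]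
  rwa [Finset.sum_congr rfl hl, Finset.sum_congr rfl hr, Finset.sum_const, Finset.sum_const, smul_eq_mul,
    smul_eq_mul] at e

theorem card_duads_inner [DecidablePred fun t => t ∈ E] : (h.duads.filter fun t => t ∈ E).card = 36 := by
  classical
  rw [← h.count36, ← Set.ncard_coe_finset]
  congr 1
  ext t
  simp [h.mem_duads]

/-- An element of order `p` moving an element of an elementary group of order 2^11 forces `2^k ≡ 1`. -/
theorem prime_of_moved {p : ℕ} [hp : Fact p.Prime] (hp3 : 3 ≤ p) {m : G} (hm : ∀ a ∈ A, m * a * m⁻¹ ∈ A)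
    (hpm : ∀ a ∈ A, m ^ p * a * (m ^ p)⁻¹ = a) {a : G} (ha : a ∈ A) (hne : m * a * m⁻¹ ≠ a) :
    ∃ k, 0 < k ∧ k ≤ 11 ∧ 2 ^ k % p = 1 % p := by
  classical
  have hpow : ∀ (n : ℕ), ∀ b ∈ A, m ^ n * b * (m ^ n)⁻¹ ∈ A := by
    intro n
    induction n with
    | zero => intro b hb; simpa using hb
    | succ n ih =>
      intro b hb
      rw [pow_succ', show m * m ^ n * b * (m * m ^ n)⁻¹ = m * (m ^ n * b * (m ^ n)⁻¹) * m⁻¹ by group]
      exact hm _ (ih b hb)
  let f : ↥A → ↥A := fun b => ⟨m * b * m⁻¹, hm _ b.2⟩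
  have hf : Function.Injective f := fun b c e => Subtype.ext
    (mul_left_cancel (mul_right_cancel (congrArg Subtype.val e)))
  let σ : Equiv.Perm ↥A := Equiv.ofBijective f (Finite.injective_iff_bijective.1 hf)
  have hσn : ∀ (n : ℕ) (b : ↥A), ((σ ^ n) b : G) = m ^ n * b * (m ^ n)⁻¹ := by
    intro n
    induction n with
    | zero => intro b; simp
    | succ n ih =>
      intro b
      rw [pow_succ', Equiv.Perm.mul_apply, pow_succ']
      show m * ((σ ^ n) b : G) * m⁻¹ = _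
      rw [ih]; group
  have hσp : σ ^ p = 1 := Equiv.ext fun b => Subtype.ext (by rw [hσn, hpm _ b.2]; rfl)
  have hσ1 : σ ≠ 1 := fun e => hne (congrArg Subtype.val (DFunLike.congr_fun e ⟨a, ha⟩ : σ ⟨a, ha⟩ = ⟨a, ha⟩))
  have hord : orderOf σ = p := orderOf_eq_prime hσp hσ1
  have hPG : IsPGroup p ↥(Subgroup.zpowers σ) := IsPGroup.of_card (n := 1) (by rw [Nat.card_zpowers, hord, pow_one])
  have hmod := hPG.card_modEq_card_fixedPoints ↥A
  let B : Subgroup ↥A := (Subgroup.centralizer ({m} : Set G)).subgroupOf A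
  have hfix : Nat.card (MulAction.fixedPoints ↥(Subgroup.zpowers σ) ↥A) = Nat.card B := by
    refine Nat.card_congr (Equiv.subtypeEquivRight fun b => ?_)
    constructor
    · intro hb
      have h1 : m * (b : G) * m⁻¹ = b := congrArg Subtype.val (hb ⟨σ, Subgroup.mem_zpowers σ⟩)
      exact Subgroup.mem_centralizer_singleton_iff.2 (mul_inv_eq_iff_eq_mul.1 h1).symm
    · intro hb
      have h1 : σ b = b := Subtype.ext (mul_inv_eq_iff_eq_mul.2 (Subgroup.mem_centralizer_singleton_iff.1 hb).symm)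
      intro τ
      obtain ⟨τ, hτ⟩ := τ
      have hle : Subgroup.zpowers σ ≤ MulAction.stabilizer (Equiv.Perm ↥A) b := Subgroup.zpowers_le.2 h1
      exact hle hτ
  rw [hfix, h.cardA] at hmod
  have hB : Nat.card B ∣ 2 ^ 11 := h.cardA ▸ B.card_subgroup_dvd_card
  obtain ⟨j, hj, ej⟩ := (Nat.dvd_prime_pow Nat.prime_two).1 hB
  have hj11 : j < 11 := by
    rcases Nat.lt_or_ge j 11 with hh | hh
    · exact hh
    exfalso
    have htop : B = ⊤ := Subgroup.eq_top_of_card_eq _ (by rw [ej, h.cardA, show j = 11 by omega])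
    have hmem : (⟨a, ha⟩ : ↥A) ∈ B := htop ▸ Subgroup.mem_top _
    exact hne (mul_inv_eq_iff_eq_mul.2 (Subgroup.mem_centralizer_singleton_iff.1 hmem).symm)
  rw [ej, show (11 : ℕ) = (11 - j) + j by omega, pow_add] at hmod
  refine ⟨11 - j, by omega, by omega, ?_⟩
  have hcop : Nat.Coprime (2 ^ j) p :=
    Nat.Coprime.pow_left j ((Nat.coprime_primes Nat.prime_two hp.out).2 (by omega))
  have h1 : 2 ^ (11 - j) * 2 ^ j ≡ 1 * 2 ^ j [MOD p] := by rw [one_mul]; exact hmod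
  exact Nat.ModEq.cancel_right_of_coprime (Nat.Coprime.symm hcop) h1

theorem exists_moved_prime {m : Subgroup G} (hm : ∀ g ∈ m, ∀ a ∈ A, g * a * g⁻¹ ∈ A)
    {S : Set G} (hS : ∀ a ∈ S, ∃ g ∈ m, g * z * g⁻¹ = a) (hS' : ∀ g ∈ m, g * z * g⁻¹ ∈ S)
    {p : ℕ} (hp : p.Prime) (hp3 : 3 ≤ p) (hd : p ∣ S.ncard) : ∃ k, 0 < k ∧ k ≤ 11 ∧ 2 ^ k % p = 1 % p := by
  classical
  haveI := Fact.mk hp
  let act : ↥m →* Equiv.Perm ↥A :=
    { toFun := fun g =>
        { toFun := fun b => ⟨g.1 * b * g.1⁻¹, hm _ g.2 _ b.2⟩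
          invFun := fun b => ⟨g.1⁻¹ * b * g.1, by simpa using hm _ (inv_mem g.2) _ b.2⟩
          left_inv := fun b => Subtype.ext (by simp [mul_assoc])
          right_inv := fun b => Subtype.ext (by simp [mul_assoc]) }
      map_one' := Equiv.ext fun b => Subtype.ext (by simp)
      map_mul' := fun g g' => Equiv.ext fun b => Subtype.ext (by simp [mul_assoc]) }
  let zA : ↥A := ⟨z, h.mem⟩
  have horb : Nat.card (MulAction.orbit ↥act.range zA) = S.ncard := by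
    rw [← Nat.card_coe_set_eq]
    refine Nat.card_congr (Equiv.ofBijective (fun b => ⟨(b.1 : G), ?_⟩) ⟨fun a b e => ?_, fun a => ?_⟩)
    · obtain ⟨⟨_, g, rfl⟩, hg⟩ := b.2
      rw [← hg]
      exact hS' g.1 g.2
    · have e' : ((a.1 : ↥A) : G) = ((b.1 : ↥A) : G) := congrArg (fun u : ↥S => (u : G)) e
      exact Subtype.ext (Subtype.ext e')
    · obtain ⟨g, hg, e⟩ := hS a.1 a.2
      exact ⟨⟨_, ⟨act ⟨g, hg⟩, ⟨_, rfl⟩⟩, rfl⟩, Subtype.ext e⟩
  have hdvd : p ∣ Nat.card ↥act.range := by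
    refine hd.trans (horb ▸ ?_)
    rw [Nat.card_coe_set_eq, ← MulAction.index_stabilizer]
    exact Subgroup.index_dvd_card _
  obtain ⟨⟨_, g, rfl⟩, hg⟩ := exists_prime_orderOf_dvd_card' p hdvd
  have hpow : act (g ^ p) = 1 := by
    rw [map_pow]
    exact congrArg Subtype.val (orderOf_dvd_iff_pow_eq_one.1 hg.dvd)
  obtain ⟨b, hb⟩ : ∃ b, act g b ≠ b := by
    by_contra hno
    push Not at hno
    have : act g = 1 := Equiv.ext hno
    rw [← Subgroup.orderOf_coe] at hg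
    simp only [this, orderOf_one] at hg
    omega
  exact h.prime_of_moved hp3 (hm _ g.2) (fun a ha => by
    have := congrArg Subtype.val (DFunLike.congr_fun hpow ⟨a, ha⟩ : act (g ^ p) ⟨a, ha⟩ = ⟨a, ha⟩)
    exact this) b.2 fun e => hb (Subtype.ext e)

theorem cosetP_eq {x : G} (hx : x ∈ A) (hxE : x ∉ E) : (h.cosetP x).ncard = 16 := by
  classical
  obtain ⟨j, hj⟩ := h.sixteen_dvd hx hxE
  have hj8 : j ≤ 8 := by
    have hsub : h.cosetP x ⊆ (fun i => i * x) '' ((A ⊓ E : Subgroup G) : Set G) := fun y hy =>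
      ⟨y * x⁻¹, Subgroup.mem_inf.2 ⟨mul_mem hy.1.1 (inv_mem hx), hy.2⟩, inv_mul_cancel_right y x⟩
    have hb := (Set.ncard_le_ncard hsub (Set.toFinite _)).trans (Set.ncard_image_le (Set.toFinite _))
    have h2 : ((A ⊓ E : Subgroup G) : Set G).ncard = 2 ^ 7 := by rw [← Nat.card_coe_set_eq]; exact h.cardAE
    rw [hj, h2] at hb
    omega
  have hc : ∀ y ∈ A, y ∉ E → (h.cosetP y).ncard = 16 * j := fun y hy hyE =>
    (h.cosetP_ncard_eq hy hyE hx hxE).trans hj
  have hd := h.double_count (fun _ => True) (fun _ _ _ _ _ _ => trivial) hc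
  rw [Finset.filter_true, h.card_outer] at hd
  simp only [and_true] at hd
  have hin := h.card_duads_inner
  have hsplit := Finset.card_filter_add_card_filter_not (s := h.duads) (fun t => t ∈ E)
  let S : Set G := {a | a ∈ A ∧ IsConj z a}
  have hScard : S.ncard + h.duads.card = 2047 := by
    have e : S = (A : Set G) \ (insert 1 (h.duads : Set G)) := by
      ext a
      simp only [S, Set.mem_setOf_eq, Set.mem_sdiff, SetLike.mem_coe, Set.mem_insert_iff, h.mem_duads, IsDuad, not_or]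
      constructor
      · rintro ⟨ha, hc⟩
        refine ⟨ha, fun e => ?_, fun e => e.2.2 hc⟩
        exact h.sing.xne (by
          obtain ⟨c, hc⟩ := isConj_iff.1 hc
          rw [e] at hc
          exact conj_eq_one_iff.1 hc)
      · rintro ⟨ha, h1, h2⟩
        exact ⟨ha, by by_contra hh; exact h2 ⟨ha, h1, hh⟩⟩
    have h1 : (A : Set G).ncard = 2 ^ 11 := by rw [← Nat.card_coe_set_eq]; exact h.cardA
    have hsub : insert 1 (h.duads : Set G) ⊆ (A : Set G) := by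
      rintro a (rfl | ha)
      · exact one_mem A
      · exact (h.mem_duads.1 ha).1
    have hne : (1 : G) ∉ (h.duads : Set G) := fun hh => (h.mem_duads.1 hh).2.1 rfl
    have hcd := Set.ncard_sdiff_add_ncard_of_subset hsub (Set.toFinite _)
    rw [← e, h1, Set.ncard_insert_of_notMem hne (Set.toFinite _), Set.ncard_coe_finset] at hcd
    omega
  have key : ∀ p : ℕ, p.Prime → 3 ≤ p → p ∣ S.ncard → ∃ k, 0 < k ∧ k ≤ 11 ∧ 2 ^ k % p = 1 % p := by
    intro p hp hp3 hdp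
    refine h.exists_moved_prime (m := Subgroup.normalizer (A : Set G))
      (fun g hg a ha => (Subgroup.mem_normalizer_iff.1 hg a).1 ha) ?_ ?_ hp hp3 hdp
    · rintro a ⟨ha, hc⟩
      obtain ⟨g, hgA, hga⟩ := h.transZ a ha hc
      refine ⟨g, Subgroup.mem_normalizer_iff.2 fun b => ⟨hgA b, fun hb => ?_⟩, hga⟩
      have hmap : (A.map (MulAut.conj g).toMonoidHom) = A := by
        refine Subgroup.eq_of_le_of_card_ge ?_ (by rw [Subgroup.card_map_of_injective (MulEquiv.injective _)])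
        rintro _ ⟨c, hc, rfl⟩
        exact hgA c hc
      rw [← hmap] at hb
      obtain ⟨c, hc, e⟩ := hb
      rwa [← mul_left_cancel (mul_right_cancel e)]
    · exact fun g hg => ⟨(Subgroup.mem_normalizer_iff.1 hg z).1 h.mem, isConj_iff.2 ⟨g, rfl⟩⟩
  have bad : ∀ p : ℕ, p.Prime → 3 ≤ p → (∀ k < 12, 0 < k → 2 ^ k % p ≠ 1 % p) → ¬ p ∣ S.ncard :=
    fun p hp hp3 hk hdp => by
      obtain ⟨k, hk0, hk11, e⟩ := key p hp hp3 hdp
      exact hk k (by omega) hk0 e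
  have hs : S.ncard = 2011 - 240 * j := by omega
  rw [hj]
  rw [hs] at bad
  interval_cases j
  · exact absurd (by norm_num) (bad 2011 (by norm_num) (by norm_num) (by decide))
  · rfl
  · exact absurd (by norm_num) (bad 1531 (by norm_num) (by norm_num) (by decide))
  · exact absurd (by norm_num) (bad 1291 (by norm_num) (by norm_num) (by decide))
  · exact absurd (by norm_num) (bad 1051 (by norm_num) (by norm_num) (by decide))
  · exact absurd (by norm_num) (bad 811 (by norm_num) (by norm_num) (by decide))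
  · exact absurd (by norm_num) (bad 571 (by norm_num) (by norm_num) (by decide))
  · exact absurd (by norm_num) (bad 331 (by norm_num) (by norm_num) (by decide))
  · exact absurd (by norm_num) (bad 13 (by norm_num) (by norm_num) (by decide))

theorem orb_eq {x : G} (hx : IsDuad z A x) (hxE : x ∉ E) : h.orb x = h.cosetP x := by
  have hsub : h.orb x ⊆ h.cosetP x := fun y ⟨q, hq, e⟩ => e ▸
    h.cosetP_conj hq hx.1 ⟨hx, by rw [mul_inv_cancel]; exact one_mem E⟩
  refine Set.eq_of_subset_of_ncard_le hsub ?_ (Set.toFinite _)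
  rw [h.cosetP_eq hx.1 hxE]
  have hd := h.orb_cases hx.1 hxE
  have hne : 0 < (h.orb x).ncard :=
    Set.ncard_pos (Set.toFinite _) |>.2 ⟨x, 1, one_mem _, by rw [one_mul, inv_one, mul_one]⟩
  exact Nat.le_of_dvd hne hd

theorem card_orb {x : G} (hx : IsDuad z A x) (hxE : x ∉ E) : (h.orb x).ncard = 16 := by
  rw [h.orb_eq hx hxE, h.cosetP_eq hx.1 hxE]

theorem mul_z_notMem {x : G} (hx : IsDuad z A x) (hxE : x ∉ E) : ¬ IsDuad z A (x * z) := by
  intro hxz
  have hmem : x * z ∈ h.cosetP x :=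
    ⟨hxz, by rw [h.comm hx.1 h.mem, mul_inv_cancel_right]; exact h.sing.mem⟩
  rw [← h.orb_eq hx hxE] at hmem
  obtain ⟨q0, hq0, e0⟩ := hmem
  have hsub : disp z E x ⊆ (fun y => y * x⁻¹) '' h.orb x := by
    intro i hi
    obtain ⟨q, hq, rfl | rfl⟩ := hi
    · exact ⟨_, ⟨q, hq, rfl⟩, rfl⟩
    · refine ⟨q * q0 * x * (q * q0)⁻¹, ⟨q * q0, mul_mem hq hq0, rfl⟩, ?_⟩
      show q * q0 * x * (q * q0)⁻¹ * x⁻¹ = q * x * q⁻¹ * x⁻¹ * z
      rw [show q * q0 * x * (q * q0)⁻¹ = q * (q0 * x * q0⁻¹) * q⁻¹ by group, e0,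
        show q * (x * z) * q⁻¹ = q * x * (z * q⁻¹) by group, ← h.sing.comm_x _ (inv_mem hq),
        show q * x * (q⁻¹ * z) * x⁻¹ = q * x * q⁻¹ * (z * x⁻¹) by group, h.inv_eq hx.1, h.comm h.mem hx.1,
        ← mul_assoc]
  have hb := (Set.ncard_le_ncard hsub (Set.toFinite _)).trans (Set.ncard_image_le (Set.toFinite _))
  rw [h.disp_card x hx.1 hxE, h.card_orb hx hxE] at hb
  omega

theorem mem_disp_of_duad {x i : G} (hx : IsDuad z A x) (hxE : x ∉ E) (hi : i ∈ E) (hix : IsDuad z A (i * x)) :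
    i ∈ disp z E x := by
  have hmem : i * x ∈ h.cosetP x := ⟨hix, by rwa [mul_inv_cancel_right]⟩
  rw [← h.orb_eq hx hxE] at hmem
  obtain ⟨q, hq, e⟩ := hmem
  exact ⟨q, hq, Or.inl (by rw [e, mul_inv_cancel_right])⟩

theorem duad_or {x i : G} (hx : IsDuad z A x) (hxE : x ∉ E) (hi : i ∈ disp z E x) :
    IsDuad z A (i * x) ∨ IsDuad z A (i * z * x) := by
  have hsub : h.orb x ⊆ h.cosetP x := (h.orb_eq hx hxE).le
  rcases h.disp_fac hi with e | e
  · exact Or.inl (hsub e).1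
  · exact Or.inr (hsub e).1

theorem duad_not_both {x i : G} (hxE : x ∉ E) (hi : i ∈ A ⊓ E) (hx : x ∈ A) (h1 : IsDuad z A (i * x)) :
    ¬ IsDuad z A (i * z * x) := by
  obtain ⟨hiA, hiE⟩ := Subgroup.mem_inf.1 hi
  have := h.mul_z_notMem h1 fun hh => hxE ((mul_mem_cancel_left hiE).1 hh)
  rwa [mul_assoc, h.comm hx h.mem, ← mul_assoc] at this

theorem inner_mul_z {t : G} (ht : IsDuad z A t) (htE : t ∈ E) : IsDuad z A (t * z) := by
  by_contra hno
  have hnc : ¬ ∀ q ∈ E, q * t = t * q := fun hc => by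
    rcases h.sing.cent t hc with e | e
    · exact ht.2.1 e
    · exact ht.2.2 (e ▸ IsConj.refl z)
  push Not at hnc
  obtain ⟨q, hq, hqt⟩ := hnc
  refine hno ?_
  rcases h.sing.pair (h.sing.comm hq htE) with e | e
  · exact absurd (mul_inv_eq_iff_eq_mul.1 (mul_inv_eq_one.1 e)) hqt
  · have := h.duad_conj hq ht
    rwa [show q * t * q⁻¹ = q * t * q⁻¹ * t⁻¹ * t by group, e, h.comm h.mem ht.1] at this

theorem sep {t w : G} (ht : IsDuad z A t) (htE : t ∈ E) (hwE : w ∈ E)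
    (htw : IsDuad z A (t * w)) : ∃ q ∈ E, q * t * q⁻¹ = t * z ∧ q * w * q⁻¹ = w := by
  have hval : ∀ q ∈ E, ∀ a ∈ E, q * a * q⁻¹ = a ∨ q * a * q⁻¹ = a * z := fun q hq a ha => by
    rcases h.sing.pair (h.sing.comm hq ha) with e | e
    · exact Or.inl (mul_inv_eq_one.1 e)
    · exact Or.inr (by rw [mul_inv_eq_iff_eq_mul.1 e, h.sing.comm_x a ha])
  have hne : ∀ {a : G}, a ∈ A → a * z ≠ a := fun _ e => h.sing.xne (mul_eq_left.1 e)
  by_contra hno
  push Not at hno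
  have h1 : ∀ q ∈ E, q * w * q⁻¹ = w → q * t * q⁻¹ = t := fun q hq e =>
    (hval q hq t htE).resolve_right fun e' => hno q hq e' e
  obtain ⟨q1, hq1, e1⟩ : ∃ q ∈ E, q * t * q⁻¹ = t * z := by
    by_contra hc
    push Not at hc
    rcases h.sing.cent t (fun q hq =>
      mul_inv_eq_iff_eq_mul.1 ((hval q hq t htE).resolve_right (hc q hq))) with e | e
    · exact ht.2.1 e
    · exact ht.2.2 (e ▸ IsConj.refl z)
  have e1w : q1 * w * q1⁻¹ = w * z := (hval q1 hq1 w hwE).resolve_left (hno q1 hq1 e1)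
  have hcent : ∀ q ∈ E, q * (t * w) = t * w * q := by
    intro q hq
    refine mul_inv_eq_iff_eq_mul.1 ?_
    rw [show q * (t * w) * q⁻¹ = (q * t * q⁻¹) * (q * w * q⁻¹) by group]
    rcases hval q hq w hwE with e | e
    · rw [h1 q hq e, e]
    · rcases hval q hq t htE with e' | e'
      · exfalso
        have ew : q1 * q * w * (q1 * q)⁻¹ = w := by
          rw [show q1 * q * w * (q1 * q)⁻¹ = q1 * (q * w * q⁻¹) * q1⁻¹ by group, e,
            show q1 * (w * z) * q1⁻¹ = (q1 * w * q1⁻¹) * (q1 * z * q1⁻¹) by group, e1w,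
            h.sing.comm_x q1 hq1, mul_inv_cancel_right, mul_assoc, h.sing.xx, mul_one]
        have et := h1 _ (mul_mem hq1 hq) ew
        rw [show q1 * q * t * (q1 * q)⁻¹ = q1 * (q * t * q⁻¹) * q1⁻¹ by group, e', e1] at et
        exact hne ht.1 et
      · rw [e, e', mul_assoc, ← mul_assoc z, ← h.sing.comm_x w hwE, mul_assoc w z z, h.sing.xx, mul_one]
  rcases h.sing.cent (t * w) hcent with e | e
  · exact htw.2.1 e
  · exact htw.2.2 (e ▸ IsConj.refl z)

theorem card_over_pair {t w : G} (ht : IsDuad z A t) (htE : t ∈ E) (hw : IsDuad z A w) (hwE : w ∈ E)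
    (htw : IsDuad z A (t * w)) :
    Set.ncard {x | IsDuad z A x ∧ x ∉ E ∧ IsDuad z A (t * x) ∧ IsDuad z A (w * x)} = 20 := by
  classical
  let X := h.duads.filter fun x => x ∉ E ∧ t ∈ disp z E x
  have hX : X.card = 80 := by
    have hd := h.double_count (fun x => t ∈ disp z E x) (fun x hx y hy hxy htx => by
      refine h.disp_coset hy hx ?_ htx
      have := inv_mem hxy
      rwa [mul_inv_rev, inv_inv] at this) (c := 16) (fun x hx hxE => h.cosetP_eq hx hxE)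
    have h640 : (h.outer.filter fun x => t ∈ disp z E x).card = 640 := by
      rw [← h.five t ht htE, ← Set.ncard_coe_finset]
      congr 1
      ext x
      simp [h.mem_outer, and_assoc]
    rw [h640] at hd
    show (h.duads.filter fun x => x ∉ E ∧ t ∈ disp z E x).card = 80
    omega
  have hwt : IsDuad z A (w * t) := by rw [h.comm hw.1 ht.1]; exact htw
  have hflip : ∀ {s r : G}, IsDuad z A s → s ∈ E → r ∈ A → s * r * s⁻¹ = r := fun hs _ hr => by
    rw [h.comm hs.1 hr, mul_inv_cancel_right]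
  let a : G → Prop := fun x => IsDuad z A (t * x)
  let b : G → Prop := fun x => IsDuad z A (w * x)
  have hinvX : ∀ q ∈ E, ∀ x ∈ X, q * x * q⁻¹ ∈ X := by
    intro q hq x hx
    simp only [X, Finset.mem_filter, h.mem_duads] at hx ⊢
    obtain ⟨hxP, hxE, hxt⟩ := hx
    refine ⟨h.duad_conj hq hxP, fun hh => hxE ?_, h.disp_coset (h.norm q hq x hxP.1) hxP.1 ?_ hxt⟩
    · simpa [mul_assoc] using mul_mem (mul_mem (inv_mem hq) hh) hq
    · rw [show (q * x * q⁻¹)⁻¹ * x = q * (x⁻¹ * q⁻¹ * x) by group]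
      have := h.conj_mem_E (inv_mem hxP.1) (inv_mem hq)
      rw [inv_inv] at this
      exact mul_mem hq this
  have hexact : ∀ {s : G}, IsDuad z A s → s ∈ E → ∀ x ∈ X, s ∈ disp z E x →
      (IsDuad z A (s * z * x) ↔ ¬ IsDuad z A (s * x)) := by
    intro s hs hsE x hx hsx
    simp only [X, Finset.mem_filter, h.mem_duads] at hx
    refine ⟨fun e e' => h.duad_not_both hx.2.1 (Subgroup.mem_inf.2 ⟨hs.1, hsE⟩) hx.1.1 e' e,
      fun e => (h.duad_or hx.1 hx.2.1 hsx).resolve_left e⟩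
  have hwX : ∀ x ∈ X, w ∈ disp z E x := fun x hx => by
    simp only [X, Finset.mem_filter, h.mem_duads] at hx
    exact h.pair t w ht htE hw hwE htw x hx.1.1 hx.2.1 hx.2.2
  have htX : ∀ x ∈ X, t ∈ disp z E x := fun x hx => (Finset.mem_filter.1 hx).2.2
  have hmove : ∀ {s r : G}, IsDuad z A s → s ∈ E → (∀ x ∈ X, s ∈ disp z E x) →
      ∀ q ∈ E, q * s * q⁻¹ = s * z → q * r * q⁻¹ = r → ∀ x ∈ X,
        (IsDuad z A (s * (q * x * q⁻¹)) ↔ ¬ IsDuad z A (s * x)) ∧
        (IsDuad z A (r * (q * x * q⁻¹)) ↔ IsDuad z A (r * x)) := by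
    intro s r hs hsE hsX q hq es er x hx
    have hiff : ∀ y, IsDuad z A (q * y * q⁻¹) ↔ IsDuad z A y := fun y => ⟨fun e => by
      have := h.duad_conj (inv_mem hq) e
      simpa [mul_assoc] using this, h.duad_conj hq⟩
    constructor
    · rw [← hexact hs hsE x hx (hsX x hx), ← hiff (s * z * x)]
      refine iff_of_eq (congrArg (IsDuad z A) ?_)
      rw [show q * (s * z * x) * q⁻¹ = (q * s * q⁻¹) * (q * z * q⁻¹) * (q * x * q⁻¹) by group, es,
        h.sing.comm_x q hq, mul_inv_cancel_right, mul_assoc s z z, h.sing.xx, mul_one]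
    · rw [← hiff (r * x)]
      refine iff_of_eq (congrArg (IsDuad z A) ?_)
      rw [show q * (r * x) * q⁻¹ = (q * r * q⁻¹) * (q * x * q⁻¹) by group, er]
  obtain ⟨q1, hq1, e1, e1'⟩ := h.sep ht htE hwE htw
  obtain ⟨q2, hq2, e2, e2'⟩ := h.sep hw hwE htE hwt
  have hcard : ∀ (q : G) (p p' : G → Prop) [DecidablePred p] [DecidablePred p'], q ∈ E →
      (∀ x ∈ X, p x → p' (q * x * q⁻¹)) → (∀ x ∈ X, p' x → p (q * x * q⁻¹)) →
      (X.filter p).card = (X.filter p').card := by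
    intro q p p' _ _ hq h1 h2
    refine le_antisymm (Finset.card_le_card_of_injOn (fun x => q * x * q⁻¹) (fun x hx => ?_)
      fun x _ y _ e => mul_left_cancel (mul_right_cancel e))
      (Finset.card_le_card_of_injOn (fun x => q * x * q⁻¹) (fun x hx => ?_)
      fun x _ y _ e => mul_left_cancel (mul_right_cancel e))
    · rw [Finset.mem_coe, Finset.mem_filter] at hx ⊢
      exact ⟨hinvX q hq x hx.1, h1 x hx.1 hx.2⟩
    · rw [Finset.mem_coe, Finset.mem_filter] at hx ⊢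
      exact ⟨hinvX q hq x hx.1, h2 x hx.1 hx.2⟩
  have c1 : (X.filter fun x => a x ∧ b x).card = (X.filter fun x => ¬ a x ∧ b x).card := by
    refine hcard q1 _ _ hq1 ?_ ?_ <;> intro x hx hh <;> obtain ⟨g1, g2⟩ := hmove ht htE htX q1 hq1 e1 e1' x hx
    · exact ⟨fun e => g1.1 e hh.1, g2.2 hh.2⟩
    · exact ⟨g1.2 hh.1, g2.2 hh.2⟩
  have c2 : (X.filter fun x => a x ∧ b x).card = (X.filter fun x => a x ∧ ¬ b x).card := by
    refine hcard q2 _ _ hq2 ?_ ?_ <;> intro x hx hh <;> obtain ⟨g1, g2⟩ := hmove hw hwE hwX q2 hq2 e2 e2' x hx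
    · exact ⟨g2.2 hh.1, fun e => g1.1 e hh.2⟩
    · exact ⟨g2.2 hh.1, g1.2 hh.2⟩
  have c3 : (X.filter fun x => ¬ a x ∧ b x).card = (X.filter fun x => ¬ a x ∧ ¬ b x).card := by
    refine hcard q2 _ _ hq2 ?_ ?_ <;> intro x hx hh <;> obtain ⟨g1, g2⟩ := hmove hw hwE hwX q2 hq2 e2 e2' x hx
    · exact ⟨fun e => hh.1 (g2.1 e), fun e => g1.1 e hh.2⟩
    · exact ⟨fun e => hh.1 (g2.1 e), g1.2 hh.2⟩
  have hs1 := Finset.card_filter_add_card_filter_not (s := X) a
  have hs2 := Finset.card_filter_add_card_filter_not (s := X.filter a) b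
  have hs3 := Finset.card_filter_add_card_filter_not (s := X.filter fun x => ¬ a x) b
  simp only [Finset.filter_filter] at hs2 hs3
  have hgoal : (X.filter fun x => a x ∧ b x).card = 20 := by omega
  rw [← hgoal, ← Set.ncard_coe_finset]
  congr 1
  ext x
  simp only [X, a, b, Finset.coe_filter, Finset.mem_filter, h.mem_duads, Set.mem_setOf_eq]
  constructor
  · rintro ⟨hxP, hxE, hxt, hxw⟩
    exact ⟨⟨hxP, hxE, h.mem_disp_of_duad hxP hxE htE hxt⟩, hxt, hxw⟩
  · rintro ⟨⟨hxP, hxE, -⟩, hxt, hxw⟩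
    exact ⟨hxP, hxE, hxt, hxw⟩

end ALocal

end Cfsg.Agent.H32.LargeFischer
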