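import Cfsg.Agent.H32.LargeFischer.DuadLocal
import Cfsg.Agent.S0364
import Cfsg.Agent.S0365

/-!
# The normalizer of the elementary subgroup maps onto `M24`
-/

set_option autoImplicit false
set_option linter.unusedSectionVars false

namespace Cfsg.Agent.H32.LargeFischer

variable {G : Type*} [Group G] [Finite G]

/-- A subgroup of `M24` of order divisible by 23 with index below 24 is everything. -/
theorem m24_eq_top (X : Subgroup ↥Cfsg.M24) (hi : X.index < 23) : X = ⊤ := by
  classical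
  by_contra hX
  have hsimp : IsSimpleGroup ↥Cfsg.M24 := Cfsg.Agent.S0365.result
  rcases hsimp.eq_bot_or_eq_top_of_normal X.normalCore inferInstance with hc | hc
  · have hinj : Function.Injective (MulAction.toPermHom ↥Cfsg.M24 (↥Cfsg.M24 ⧸ X)) := by
      rw [← MonoidHom.ker_eq_bot_iff, ← Subgroup.normalCore_eq_ker]
      exact hc
    have hd : Nat.card ↥Cfsg.M24 ∣ X.index.factorial := by
      have h := Subgroup.card_dvd_of_injective _ hinj
      rwa [Nat.card_perm, ← Subgroup.index_eq_card] at h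
    rw [Cfsg.Agent.S0364.result] at hd
    have h23 : (23 : ℕ) ∣ X.index.factorial := dvd_trans (by norm_num) hd
    exact absurd ((Nat.Prime.dvd_factorial (by norm_num)).1 h23) (by omega)
  · exact hX (top_le_iff.1 (hc ▸ X.normalCore_le))

namespace ALocal

variable {z : G} {E A : Subgroup G} (h : ALocal z E A)
include h

theorem normalizer_of {m : G} (hm : ∀ a ∈ A, m * a * m⁻¹ ∈ A) : m ∈ Subgroup.normalizer (A : Set G) := by
  refine Subgroup.mem_normalizer_iff.2 fun b => ⟨hm b, fun hb => ?_⟩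
  have hmap : (A.map (MulAut.conj m).toMonoidHom) = A := by
    refine Subgroup.eq_of_le_of_card_ge ?_ (by rw [Subgroup.card_map_of_injective (MulEquiv.injective _)])
    rintro _ ⟨c, hc, rfl⟩
    exact hm c hc
  rw [← hmap] at hb
  obtain ⟨c, hc, e⟩ := hb
  rwa [← mul_left_cancel (mul_right_cancel e)]

theorem duad_conj_norm {g t : G} (hg : g ∈ Subgroup.normalizer (A : Set G)) (ht : IsDuad z A t) :
    IsDuad z A (g * t * g⁻¹) :=
  ⟨(Subgroup.mem_normalizer_iff.1 hg t).1 ht.1, fun e => ht.2.1 (conj_eq_one_iff.1 e),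
    fun e => ht.2.2 (e.trans (isConj_iff.2 ⟨g, rfl⟩).symm)⟩

theorem duad_conj_iff {g t : G} (hg : g ∈ Subgroup.normalizer (A : Set G)) :
    IsDuad z A (g * t * g⁻¹) ↔ IsDuad z A t := by
  refine ⟨fun e => ?_, h.duad_conj_norm hg⟩
  have := h.duad_conj_norm (inv_mem hg) e
  simpa [mul_assoc] using this

theorem card_duads : h.duads.card = 276 := by
  classical
  have hd := h.double_count (fun _ => True) (fun _ _ _ _ _ _ => trivial) (c := 16) (fun x hx hxE => h.cosetP_eq hx hxE)
  rw [Finset.filter_true, h.card_outer] at hd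
  simp only [and_true] at hd
  have hin := h.card_duads_inner
  have := Finset.card_filter_add_card_filter_not (s := h.duads) (fun t => t ∈ E)
  omega

theorem nbhd_z {t : G} : (IsDuad z A t ∧ IsDuad z A (t * z)) ↔ IsDuad z A t ∧ t ∈ E :=
  ⟨fun ⟨h1, h2⟩ => ⟨h1, by_contra fun hE => h.mul_z_notMem h1 hE h2⟩, fun ⟨h1, h2⟩ => ⟨h1, h.inner_mul_z h1 h2⟩⟩

theorem common_card {t w : G} (ht : IsDuad z A t) (htE : t ∈ E) (hw : IsDuad z A w) (hwE : w ∈ E)
    (htw : IsDuad z A (t * w)) :
    Set.ncard {u | IsDuad z A u ∧ IsDuad z A (t * u) ∧ IsDuad z A (w * u)} = 22 := by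
  have e : {u | IsDuad z A u ∧ IsDuad z A (t * u) ∧ IsDuad z A (w * u)} =
      {u | IsDuad z A u ∧ u ∈ E ∧ IsDuad z A (t * u) ∧ IsDuad z A (w * u)} ∪
        {u | IsDuad z A u ∧ u ∉ E ∧ IsDuad z A (t * u) ∧ IsDuad z A (w * u)} := by
    ext u
    simp only [Set.mem_union, Set.mem_setOf_eq]
    tauto
  rw [e, Set.ncard_union_eq (Set.disjoint_left.2 fun u h1 h2 => h2.2.1 h1.2.1) (Set.toFinite _) (Set.toFinite _),
    h.two t w ht htE hw hwE htw, h.card_over_pair ht htE hw hwE htw]

theorem third_z {t w u : G} (ht : IsDuad z A t) (htE : t ∈ E) (hw : IsDuad z A w) (hwE : w ∈ E)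
    (hu : IsDuad z A u) (huE : u ∉ E) (htu : IsDuad z A (t * u)) (hwu : IsDuad z A (w * u)) :
    IsDuad z A (t * w * u) ∨ IsDuad z A (t * w * z * u) :=
  h.duad_or hu huE (h.disp_mul u hu.1 huE t (h.mem_disp_of_duad hu huE htE htu) w
    (h.mem_disp_of_duad hu huE hwE hwu))

theorem exists_hom : ∃ Φ : ↥(Subgroup.normalizer (A : Set G)) →* ↥Cfsg.M24,
    ∀ m, Φ m = 1 ↔ ∀ a ∈ A, (m : G) * a * (m : G)⁻¹ = a := by
  classical
  letI : CommGroup ↥A := { (inferInstance : Group ↥A) with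
    mul_comm := fun a b => Subtype.ext (h.comm a.2 b.2) }
  letI : Fintype ↥A := Fintype.ofFinite _
  let V := Additive ↥A
  let g : V → G := fun v => ((Additive.toMul v : ↥A) : G)
  have hg : Function.Injective g := fun a b e => Additive.toMul.injective (Subtype.ext e)
  let P : Finset V := Finset.univ.filter fun v => IsDuad z A (g v)
  have hP : ∀ v, v ∈ P ↔ IsDuad z A (g v) := fun v => by simp [P]
  have gadd : ∀ a b, g (a + b) = g a * g b := fun _ _ => rfl
  have hcard : ∀ (S : Finset V) (p : G → Prop), (∀ v, v ∈ S ↔ p (g v)) → (∀ x, p x → x ∈ A) →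
      S.card = Set.ncard {x | p x} := by
    intro S p hS hpA
    rw [← Set.ncard_coe_finset, ← Set.ncard_image_of_injective _ hg]
    congr 1
    ext x
    exact ⟨fun ⟨v, hv, e⟩ => e ▸ (hS v).1 hv, fun hx => ⟨Additive.ofMul ⟨x, hpA x hx⟩, (hS _).2 hx, rfl⟩⟩
  let N := Subgroup.normalizer (A : Set G)
  let f : ↥N → V ≃+ V := fun m =>
    { toFun := fun v => Additive.ofMul ⟨(m : G) * g v * (m : G)⁻¹,
        (Subgroup.mem_normalizer_iff.1 m.2 _).1 (Additive.toMul v).2⟩
      invFun := fun v => Additive.ofMul ⟨(m : G)⁻¹ * g v * (m : G), by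
        have := (Subgroup.mem_normalizer_iff.1 (inv_mem m.2) _).1 (Additive.toMul v).2
        rwa [inv_inv] at this⟩
      left_inv := fun v => hg (by simp [g, mul_assoc])
      right_inv := fun v => hg (by simp [g, mul_assoc])
      map_add' := fun a b => hg (by
        show (m : G) * (g a * g b) * (m : G)⁻¹ = (m : G) * g a * (m : G)⁻¹ * ((m : G) * g b * (m : G)⁻¹)
        group) }
  have hf : ∀ m v, g (f m v) = (m : G) * g v * (m : G)⁻¹ := fun _ _ => rfl
  have hfP : ∀ m v, f m v ∈ P ↔ v ∈ P := fun m v => by rw [hP, hP, hf, h.duad_conj_iff m.2]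
  have hfadd : ∀ m (a b : V), f m (a + b) = f m a + f m b := fun m a b => map_add _ _ _
  let z0 : V := Additive.ofMul ⟨z, h.mem⟩
  have hnb : ∀ v, v ∈ nbhd P z0 ↔ IsDuad z A (g v) ∧ g v ∈ E := fun v => by
    rw [nbhd, Finset.mem_filter, hP, hP, gadd]
    exact h.nbhd_z
  -- carry an element outside `P` to `z`
  have hmove : ∀ x : V, x ≠ 0 → x ∉ P → ∃ m : ↥N, f m z0 = x := by
    intro x hx hxP
    have hc : IsConj z (g x) := by
      by_contra hc
      exact hxP ((hP x).2 ⟨(Additive.toMul x).2, fun e => hx (hg e), hc⟩)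
    obtain ⟨m, hm, e⟩ := h.transZ _ (Additive.toMul x).2 hc
    exact ⟨⟨m, h.normalizer_of hm⟩, hg e⟩
  have hnbm : ∀ (m : ↥N) (v : V), f m v ∈ nbhd P (f m z0) ↔ v ∈ nbhd P z0 := fun m v => by
    simp only [nbhd, Finset.mem_filter, ← hfadd, hfP]
  have himg : ∀ (m : ↥N) (q q' : V → Prop) [DecidablePred q] [DecidablePred q'] (S T : Finset V),
      (∀ v, f m v ∈ S ∧ q' (f m v) ↔ v ∈ T ∧ q v) → (S.filter q').card = (T.filter q).card := by
    intro m q q' _ _ S T hiff
    refine (Finset.card_nbij (fun v => f m v) (fun v hv => ?_) ((f m).injective.injOn) fun v hv => ?_).symm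
    · rw [Finset.mem_coe, Finset.mem_filter] at hv ⊢
      exact (hiff v).2 hv
    · rw [Finset.mem_coe, Finset.mem_filter] at hv
      obtain ⟨w, rfl⟩ := (f m).surjective v
      exact ⟨w, Finset.mem_filter.2 ((hiff w).1 hv), rfl⟩
  have hcfg : DuadConfig P := by
    refine ⟨fun x => hg ?_, ?_, ?_, ?_, ?_, ?_, ?_, ?_, ?_, ?_⟩
    · show g x * g x = 1
      exact h.sq _ (Additive.toMul x).2
    · rw [Fintype.card_congr Additive.toMul, ← Nat.card_eq_fintype_card, h.cardA]; norm_num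
    · rw [← h.card_duads, hcard P (IsDuad z A) hP fun x hx => hx.1, ← Set.ncard_coe_finset]
      congr 1
      ext x
      exact (h.mem_duads).symm
    · rw [hP]; exact fun e => e.2.1 rfl
    · intro t ht t' ht'
      obtain ⟨m, hm, e⟩ := h.transP _ _ ((hP t).1 ht) ((hP t').1 ht')
      let m' : ↥N := ⟨m, h.normalizer_of hm⟩
      have et : f m' t = t' := hg e
      exact (himg m' (fun w => t + w ∈ P) (fun w => t' + w ∈ P) P P fun v => by
        rw [← et, ← hfadd, hfP, hfP]).symm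
    · intro x hx hxP
      obtain ⟨m, rfl⟩ := hmove x hx hxP
      have := himg m (fun _ => True) (fun _ => True) (nbhd P (f m z0)) (nbhd P z0) fun v => by
        rw [hnbm]
      rw [Finset.filter_true, Finset.filter_true] at this
      rw [this, hcard (nbhd P z0) (fun y => IsDuad z A y ∧ y ∈ E) hnb fun y hy => hy.1.1]
      exact h.count36
    · intro x hx hxP t ht
      obtain ⟨m, rfl⟩ := hmove x hx hxP
      obtain ⟨t, rfl⟩ := (f m).surjective t
      rw [hnbm] at ht
      rw [himg m (fun w => t + w ∈ P) (fun w => f m t + w ∈ P) (nbhd P (f m z0)) (nbhd P z0) fun v => by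
        rw [hnbm, ← hfadd, hfP]]
      rw [hcard _ (fun y => IsDuad z A y ∧ y ∈ E ∧ IsDuad z A (g t * y)) (fun v => by
        rw [Finset.mem_filter, hnb, hP, gadd, and_assoc]) fun y hy => hy.1.1]
      exact h.four (g t) ((hnb t).1 ht).1 ((hnb t).1 ht).2
    · intro x hx hxP t ht w hw htw
      obtain ⟨m, rfl⟩ := hmove x hx hxP
      obtain ⟨t, rfl⟩ := (f m).surjective t
      obtain ⟨w, rfl⟩ := (f m).surjective w
      rw [hnbm, hnb] at ht hw
      rw [← hfadd, hfP, hP, gadd] at htw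
      rw [← hfadd, ← hfadd, hfP, hP, gadd, gadd]
      exact h.inner_mul_z htw (mul_mem ht.2 hw.2)
    · intro x hx hxP t ht w hw htw
      obtain ⟨m, rfl⟩ := hmove x hx hxP
      obtain ⟨t, rfl⟩ := (f m).surjective t
      obtain ⟨w, rfl⟩ := (f m).surjective w
      rw [hnbm, hnb] at ht hw
      rw [← hfadd, hfP, hP, gadd] at htw
      rw [common, himg m (fun u => t + u ∈ P ∧ w + u ∈ P) (fun u => f m t + u ∈ P ∧ f m w + u ∈ P) P P fun v => by
        rw [← hfadd, ← hfadd, hfP, hfP, hfP]]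
      rw [hcard _ (fun y => IsDuad z A y ∧ IsDuad z A (g t * y) ∧ IsDuad z A (g w * y)) (fun v => by
        rw [Finset.mem_filter, hP, hP, hP, gadd, gadd]) fun y hy => hy.1.1]
      exact h.common_card ht.1 ht.2 hw.1 hw.2 htw
    · intro x hx hxP t ht w hw htw u hu hux
      obtain ⟨m, rfl⟩ := hmove x hx hxP
      obtain ⟨t, rfl⟩ := (f m).surjective t
      obtain ⟨w, rfl⟩ := (f m).surjective w
      obtain ⟨u, rfl⟩ := (f m).surjective u
      rw [hnbm, hnb] at ht hw
      rw [hnbm, hnb] at hux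
      rw [common, Finset.mem_filter, ← hfadd, ← hfadd, hfP, hfP, hfP, hP, hP, hP, gadd, gadd] at hu
      rw [← hfadd, ← hfadd, ← hfadd, ← hfadd, hfP, hfP, hP, hP, gadd, gadd, gadd, gadd, gadd]
      exact h.third_z ht.1 ht.2 hw.1 hw.2 hu.1 (fun hE => hux ⟨hu.1, hE⟩) hu.2.1 hu.2.2
  obtain ⟨Φ, hΦ⟩ := hcfg.exists_hom f
    (fun m n v => hg (by simp only [hf, Subgroup.coe_mul, mul_inv_rev, mul_assoc])) hfP
  refine ⟨Φ, fun m => (hΦ m).trans ⟨fun e a ha => ?_, fun e v => hg ?_⟩⟩
  · have := congrArg g (e (Additive.ofMul ⟨a, ha⟩))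
    exact this
  · exact e _ (Additive.toMul v).2

/-- A large stabiliser of `z` makes the image everything. -/
theorem exists_epi {n : ℕ} (hn : 6021 ≤ n)
    (hstab : ∀ Φ : ↥(Subgroup.normalizer (A : Set G)) →* ↥Cfsg.M24,
      (∀ m, Φ m = 1 ↔ ∀ a ∈ A, (m : G) * a * (m : G)⁻¹ = a) →
      n ≤ Nat.card ↥(((Subgroup.centralizer ({z} : Set G)).subgroupOf (Subgroup.normalizer (A : Set G))).map Φ)) :
    ∃ Φ : ↥(Subgroup.normalizer (A : Set G)) →* ↥Cfsg.M24, Function.Surjective Φ ∧
      ∀ m, Φ m = 1 ↔ ∀ a ∈ A, (m : G) * a * (m : G)⁻¹ = a := by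
  classical
  obtain ⟨Φ, hΦ⟩ := h.exists_hom
  refine ⟨Φ, MonoidHom.range_eq_top.1 (m24_eq_top _ ?_), hΦ⟩
  obtain ⟨S, hS⟩ : ∃ S, S = (Subgroup.centralizer ({z} : Set G)).subgroupOf (Subgroup.normalizer (A : Set G)) := ⟨_, rfl⟩
  have hker : Φ.ker ≤ S := fun m hm => by
    rw [hS, Subgroup.mem_subgroupOf, Subgroup.mem_centralizer_singleton_iff]
    exact mul_inv_eq_iff_eq_mul.1 ((hΦ m).1 hm z h.mem)
  have hidx : S.index = 1771 := by
    letI : MulAction ↥(Subgroup.normalizer (A : Set G)) G := MulAction.compHom G ((MulAut.conj : G →* MulAut G).comp (Subgroup.normalizer (A : Set G)).subtype)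
    have e1 : MulAction.stabilizer ↥(Subgroup.normalizer (A : Set G)) z = S := by
      ext m
      rw [hS, Subgroup.mem_subgroupOf, Subgroup.mem_centralizer_singleton_iff]
      exact mul_inv_eq_iff_eq_mul
    rw [← e1, MulAction.index_stabilizer]
    have e2 : MulAction.orbit ↥(Subgroup.normalizer (A : Set G)) z = (A : Set G) \ (insert 1 (h.duads : Set G)) := by
      ext a
      simp only [Set.mem_sdiff, SetLike.mem_coe, Set.mem_insert_iff, h.mem_duads, not_or]
      constructor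
      · rintro ⟨m, rfl⟩
        refine ⟨(Subgroup.mem_normalizer_iff.1 m.2 z).1 h.mem, fun e => h.sing.xne (conj_eq_one_iff.1 e),
          fun e => e.2.2 (isConj_iff.2 ⟨m.1, rfl⟩)⟩
      · rintro ⟨ha, h1, h2⟩
        obtain ⟨m, hm, e⟩ := h.transZ a ha (by_contra fun hh => h2 ⟨ha, h1, hh⟩)
        exact ⟨⟨m, h.normalizer_of hm⟩, e⟩
    have hA : (A : Set G).ncard = 2 ^ 11 := by rw [← Nat.card_coe_set_eq]; exact h.cardA
    have hsub : insert 1 (h.duads : Set G) ⊆ (A : Set G) := by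
      rintro a (rfl | ha)
      · exact one_mem A
      · exact (h.mem_duads.1 ha).1
    have hne : (1 : G) ∉ (h.duads : Set G) := fun hh => (h.mem_duads.1 hh).2.1 rfl
    have hcd := Set.ncard_sdiff_add_ncard_of_subset hsub (Set.toFinite _)
    rw [hA, Set.ncard_insert_of_notMem hne (Set.toFinite _), Set.ncard_coe_finset, h.card_duads] at hcd
    rw [e2]
    omega
  have hm := hstab Φ hΦ
  -- the image has `1771` cosets of the image of the stabiliser
  have hi : (S.map Φ).relIndex Φ.range = 1771 := by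
    rw [← hidx, ← Subgroup.relIndex_top_right, MonoidHom.range_eq_map, Subgroup.relIndex_map_map,
      sup_eq_left.2 hker, top_sup_eq, Subgroup.relIndex_top_right]
  have hc := ((S.map Φ).subgroupOf Φ.range).card_mul_index
  rw [show ((S.map Φ).subgroupOf Φ.range).index = 1771 from hi,
    Nat.card_congr (Subgroup.subgroupOfEquivOfLe (show S.map Φ ≤ Φ.range from
      fun x ⟨y, _, e⟩ => ⟨y, e⟩)).toEquiv] at hc
  have hci := Φ.range.card_mul_index
  rw [Cfsg.Agent.S0364.result, ← hc] at hci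
  rw [← hS] at hm
  by_contra hlt
  push Not at hlt
  have h1 : 6021 * 1771 * 23 ≤ Nat.card ↥(S.map Φ) * 1771 * Φ.range.index :=
    Nat.mul_le_mul (Nat.mul_le_mul_right _ (hn.trans hm)) hlt
  rw [hci] at h1
  norm_num at h1

end ALocal

end Cfsg.Agent.H32.LargeFischer
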