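import Cfsg.Agent.H32.LargeFischer.DuadM24
import Cfsg.Agent.H8.LFT.Semi
import Cfsg.Agent.H8.LFT.FuseCls

/-!
# The configuration from the model of the centralizer
-/

set_option autoImplicit false
set_option linter.unusedSectionVars false
set_option maxRecDepth 20000
set_option maxHeartbeats 1000000

namespace Cfsg.Agent.H32.LargeFischer

open Cfsg.Agent.H8.U62 Cfsg.Agent.H8.U62.Setup Cfsg.Agent.H8.LFT

variable {F : Type} [Setup F]

/-- A vector of the short orbit. -/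
def IsShort (x : Fin 6 → F) : Prop := ∃ γ ∈ sub (F := F) 0, γ • (seedF ((0 : Fin 2) : ℕ) : Fin 6 → F) = x

/-- The displacement image. -/
def dImg (k : SU6 F) : Set (Fin 6 → F) := Set.range fun x => k • x + x

/-- What is needed of the sixteen matrices and the sixty four vectors. -/
structure WCert (K : Subgroup (SU6 F)) (W : Set (Fin 6 → F)) : Prop where
  cardW : W.ncard = 64
  zeroW : (0 : Fin 6 → F) ∈ W
  s18 : Set.ncard {x | x ∈ W ∧ IsShort x} = 18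
  pt : ∀ u ∈ W, IsShort u → Set.ncard {x | x ∈ W ∧ IsShort x ∧ IsShort (u + x)} = 2
  pt2 : ∀ u ∈ W, ∀ w ∈ W, IsShort u → IsShort w → IsShort (u + w) →
    Set.ncard {x | x ∈ W ∧ IsShort x ∧ IsShort (u + x) ∧ IsShort (w + x)} = 1
  img16 : ∀ k ∈ K, k ≠ 1 → (dImg k).ncard = 16
  imgW : ∀ k ∈ K, dImg k ⊆ W
  five : ∀ u ∈ W, IsShort u → Set.ncard {k | k ∈ K ∧ k ≠ 1 ∧ u ∈ dImg k} = 5
  pair : ∀ u ∈ W, ∀ w ∈ W, IsShort u → IsShort w → IsShort (u + w) →
    ∀ k ∈ K, k ≠ 1 → u ∈ dImg k → w ∈ dImg k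
  trans : ∀ k ∈ K, k ≠ 1 → ∀ l ∈ K, l ≠ 1 →
    ∃ g ∈ sub (F := F) 0, (∀ j ∈ K, g * j * g⁻¹ ∈ K) ∧ g * k * g⁻¹ = l
  big : ∃ (n : ℕ) (L : Fin n → SU6 F), 95 ≤ n ∧ (∀ l, L l ∈ sub 0 ∧ ∀ j ∈ K, L l * j * (L l)⁻¹ ∈ K) ∧
    ∀ l l', (∀ x ∈ W, L l • x = L l' • x) → l = l'

theorem smul_add' (k : SU6 F) (x y : Fin 6 → F) : k • (x + y) = k • x + k • y := by
  rw [smul_def, smul_def, smul_def, Matrix.mulVec_add]

variable {G : Type*} [Group G] [Finite G] {z : G} {Q : Subgroup (Subgroup.centralizer ({z} : Set G))} [Q.Normal]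

/-- `A` read in the model. -/
structure AData (D : H8.LFT.Model z Q F) (K : Subgroup (SU6 F)) (W : Set (Fin 6 → F)) (A : Subgroup G) : Prop where
  sq : ∀ a ∈ A, a * a = 1
  cardA : Nat.card A = 2 ^ 11
  inW : ∀ q : Q, gv q ∈ A ↔ D.v q ∈ W
  inK : ∀ a ∈ A, ∃ m : D.M, ((m : Subgroup.centralizer ({z} : Set G)) : G) = a ∧ D.ρ m ∈ K
  onK : ∀ k ∈ K, ∃ m : D.M, ((m : Subgroup.centralizer ({z} : Set G)) : G) ∈ A ∧ D.ρ m = k
  normK : ∀ m : D.M, (∀ k ∈ K, D.ρ m * k * (D.ρ m)⁻¹ ∈ K) → ∀ a ∈ A,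
    ((m : Subgroup.centralizer ({z} : Set G)) : G) * a * ((m : Subgroup.centralizer ({z} : Set G)) : G)⁻¹ ∈ A
  transZ : ∀ a ∈ A, IsConj z a → ∃ m : G, (∀ b ∈ A, m * b * m⁻¹ ∈ A) ∧ m * z * m⁻¹ = a
  transP : ∀ a b, IsDuad z A a → IsDuad z A b → ∃ m : G, (∀ c ∈ A, m * c * m⁻¹ ∈ A) ∧ m * a * m⁻¹ = b

namespace AData

variable {D : H8.LFT.Model z Q F} {K : Subgroup (SU6 F)} {W : Set (Fin 6 → F)} {A : Subgroup G}
  (h : AData D K W A)
include h

theorem ncard_preimage (S : Set (Fin 6 → F)) : Set.ncard (gv '' {q : Q | D.v q ∈ S}) = 2 * S.ncard := by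
  classical
  rw [Set.ncard_image_of_injective _ gv_injective]
  obtain ⟨c, hc⟩ := D.exists_zQ
  have hvc : D.v c = 0 := (D.v_eq_zero c).2 (Or.inr hc)
  have hv : ∀ (x : Fin 6 → F) (b : Bool), D.v (D.lift x * bif b then c else 1) = x := fun x b => by
    cases b <;> simp [D.v_mul, D.v_lift, hvc]
  have hbij : Function.Bijective (fun p : S × Bool =>
      (⟨D.lift p.1.1 * bif p.2 then c else 1, by show D.v _ ∈ S; rw [hv]; exact p.1.2⟩ : {q : Q | D.v q ∈ S})) := by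
    constructor
    · rintro ⟨⟨x, hx⟩, a⟩ ⟨⟨y, hy⟩, b⟩ e
      have e' : D.lift x * (bif a then c else 1) = D.lift y * bif b then c else 1 := congrArg Subtype.val e
      obtain rfl : x = y := by rw [← hv x a, e', hv]
      have ec := mul_left_cancel e'
      cases a <;> cases b
      · rfl
      · exact absurd (hc.symm.trans (congrArg gv ec.symm)) D.sing.xne
      · exact absurd (hc.symm.trans (congrArg gv ec)) D.sing.xne
      · rfl
    · rintro ⟨q, hq⟩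
      obtain ⟨d, hd, e⟩ := (D.v_eq_iff (D.lift (D.v q)) q).1 (D.v_lift _)
      rcases hd with e1 | e1
      · exact ⟨⟨⟨D.v q, hq⟩, false⟩, Subtype.ext (by
          show D.lift (D.v q) * 1 = q
          exact ((congrArg (D.lift (D.v q) * ·) (gv_injective e1 : d = 1)).symm.trans e.symm))⟩
      · exact ⟨⟨⟨D.v q, hq⟩, true⟩, Subtype.ext (by
          show D.lift (D.v q) * c = q
          exact ((congrArg (D.lift (D.v q) * ·) (gv_injective (e1.trans hc.symm) : d = c)).symm.trans e.symm))⟩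
  rw [← Nat.card_coe_set_eq, ← Nat.card_eq_of_bijective _ hbij, Nat.card_prod, Nat.card_coe_set_eq,
    Nat.card_eq_fintype_card (α := Bool), Fintype.card_bool, mul_comm]

theorem mem_E_iff {a : G} : a ∈ A ∧ a ∈ EE Q ↔ ∃ q : Q, D.v q ∈ W ∧ gv q = a := by
  constructor
  · rintro ⟨ha, ⟨c, hc, e⟩⟩
    subst e
    exact ⟨⟨c, hc⟩, (h.inW _).1 ha, rfl⟩
  · rintro ⟨q, hq, rfl⟩
    exact ⟨(h.inW q).2 hq, ⟨q.1, q.2, rfl⟩⟩

theorem duad_iff {g : G} {s : Q} (hgs : g * z * g⁻¹ = gv s) (hne : gv s ≠ z) (q : Q) :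
    IsDuad z A (gv q) ↔ D.v q ∈ W ∧ IsShort (D.v q) := by
  constructor
  · rintro ⟨hA, h1, hc⟩
    have hz : gv q ≠ z := fun e => hc (isConj_iff.2 ⟨1, by simpa using e.symm⟩)
    obtain ⟨o, ho⟩ := D.exists_cls (h.sq _ hA) h1 hz
    refine ⟨(h.inW q).1 hA, ?_⟩
    fin_cases o
    · exact ho
    · exfalso
      obtain ⟨u, hu⟩ := D.conj_of_cls (D.local_structure g s hgs hne).1 ho h1 hz
      exact hc (isConj_iff.2 ⟨(u : G) * g, by rw [← hu, gv_cj, ← hgs]; group⟩)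
  · rintro ⟨hW, hS⟩
    have hv0 : D.v q ≠ 0 := by
      intro e
      obtain ⟨γ, -, eγ⟩ := hS
      refine seedF_ne_zero (F := F) 0 (smul_left_cancel γ (eγ.trans (e.trans ?_)))
      rw [smul_def, Matrix.mulVec_zero]
    have hz : gv q ≠ z := fun e => hv0 ((D.v_eq_zero q).2 (Or.inr e))
    exact ⟨(h.inW q).2 hW, fun e => hv0 ((D.v_eq_zero q).2 (Or.inl e)), D.not_conj_of_cls hS hz⟩

/-- The displacement set is the full preimage of the image. -/
theorem disp_eq {x : G} {m : D.M} (hm : ((m : Subgroup.centralizer ({z} : Set G)) : G) = x) :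
    disp z (EE Q) x = gv '' {q : Q | D.v q ∈ dImg (D.ρ m)} := by
  obtain ⟨c, hc⟩ := D.exists_zQ
  have key : ∀ q : Q, ∃ r : Q, gv r = gv q * x * (gv q)⁻¹ * x⁻¹ ∧ D.v r = D.ρ m • D.v q + D.v q := fun q => by
    refine ⟨q * cj (m : Subgroup.centralizer ({z} : Set G)) q⁻¹, ?_, ?_⟩
    · show gv q * gv (cj (m : Subgroup.centralizer ({z} : Set G)) q⁻¹) = _
      rw [gv_cj, hm, show gv q⁻¹ = (gv q)⁻¹ from rfl]
      group
    · rw [D.v_mul, D.v_conj, D.v_inv, smul_def, add_comm]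
  ext i
  constructor
  · rintro ⟨_, ⟨u, hu, rfl⟩, hi⟩
    obtain ⟨r, hr, hrv⟩ := key ⟨u, hu⟩
    rcases hi with rfl | rfl
    · exact ⟨r, ⟨_, hrv.symm⟩, hr⟩
    · refine ⟨r * c, ?_, ?_⟩
      · show D.v (r * c) ∈ dImg (D.ρ m)
        rw [D.v_mul, (D.v_eq_zero c).2 (Or.inr hc), add_zero]
        exact ⟨_, hrv.symm⟩
      · show gv r * gv c = _
        rw [hr, hc]
        rfl
  · rintro ⟨r, ⟨x', hx'⟩, rfl⟩
    obtain ⟨q, rfl⟩ := D.v_surj x'
    obtain ⟨r', hr', hrv'⟩ := key q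
    refine ⟨gv q, ⟨q.1, q.2, rfl⟩, ?_⟩
    obtain ⟨d, hd, e⟩ := (D.v_eq_iff r' r).1 (hrv'.trans hx')
    rw [e, show gv (r' * d) = gv r' * gv d from rfl, hr']
    rcases hd with e1 | e1 <;> rw [e1]
    · exact Or.inl (mul_one _)
    · exact Or.inr rfl

theorem rho_one_iff {x : G} {m : D.M} (hm : ((m : Subgroup.centralizer ({z} : Set G)) : G) = x) :
    D.ρ m = 1 ↔ x ∈ EE Q := by
  rw [D.ρ_ker]
  refine ⟨fun e => ⟨_, e, hm⟩, fun ⟨c, hc, e⟩ => ?_⟩
  rwa [show ((m : Subgroup.centralizer ({z} : Set G))) = c from Subtype.ext (hm.trans e.symm)]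

theorem alocal (hW : WCert K W) {g : G} {s : Q} (hgs : g * z * g⁻¹ = gv s) (hne : gv s ≠ z) :
    ALocal z (EE Q) A := by
  classical
  obtain ⟨c, hc⟩ := D.exists_zQ
  have hset : ∀ (p : (Fin 6 → F) → Prop),
      {t | (IsDuad z A t ∧ t ∈ EE Q) ∧ ∃ q : Q, gv q = t ∧ p (D.v q)} =
        gv '' {q : Q | D.v q ∈ {x | x ∈ W ∧ IsShort x ∧ p x}} := by
    intro p
    ext t
    constructor
    · rintro ⟨⟨ht, -⟩, q, rfl, hq⟩
      exact ⟨q, ⟨((h.duad_iff hgs hne q).1 ht).1, ((h.duad_iff hgs hne q).1 ht).2, hq⟩, rfl⟩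
    · rintro ⟨q, ⟨hq1, hq2, hq3⟩, rfl⟩
      exact ⟨⟨(h.duad_iff hgs hne q).2 ⟨hq1, hq2⟩, ⟨q.1, q.2, rfl⟩⟩, q, rfl, hq3⟩
  have hWadd : ∀ u w : Q, D.v u ∈ W → D.v w ∈ W → D.v (u * w) ∈ W := fun u w hu hw =>
    (h.inW _).1 (by show gv u * gv w ∈ A; exact mul_mem ((h.inW u).2 hu) ((h.inW w).2 hw))
  have hprod : ∀ t q : Q, D.v t ∈ W → D.v q ∈ W → (IsDuad z A (gv t * gv q) ↔ IsShort (D.v t + D.v q)) := by
    intro t q ht hq
    rw [show gv t * gv q = gv (t * q) from rfl, h.duad_iff hgs hne, D.v_mul]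
    exact ⟨And.right, fun e => ⟨D.v_mul t q ▸ hWadd t q ht hq, e⟩⟩
  have hcount : ∀ (p : (Fin 6 → F) → Prop) (S : G → Prop),
      (∀ q : Q, D.v q ∈ W → IsShort (D.v q) → (S (gv q) ↔ p (D.v q))) →
      Set.ncard {t | IsDuad z A t ∧ t ∈ EE Q ∧ S t} = 2 * Set.ncard {x | x ∈ W ∧ IsShort x ∧ p x} := by
    intro p S hS
    rw [← h.ncard_preimage, ← hset p]
    congr 1
    ext t
    constructor
    · rintro ⟨ht, htE, hSt⟩
      obtain ⟨q, hq, rfl⟩ := h.mem_E_iff.1 ⟨ht.1, htE⟩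
      exact ⟨⟨ht, htE⟩, q, rfl, (hS q hq ((h.duad_iff hgs hne q).1 ht).2).1 hSt⟩
    · rintro ⟨⟨ht, htE⟩, q, rfl, hp⟩
      obtain ⟨h1, h2⟩ := (h.duad_iff hgs hne q).1 ht
      exact ⟨ht, htE, (hS q h1 h2).2 hp⟩
  have hdisp : ∀ x ∈ A, x ∉ EE Q → ∃ m : D.M, D.ρ m ∈ K ∧ D.ρ m ≠ 1 ∧
      disp z (EE Q) x = gv '' {q : Q | D.v q ∈ dImg (D.ρ m)} := by
    intro x hx hxE
    obtain ⟨m, hm, hk⟩ := h.inK x hx
    exact ⟨m, hk, fun e => hxE ((h.rho_one_iff hm).1 e), h.disp_eq hm⟩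
  have hnormE : ∀ q ∈ EE Q, ∀ a ∈ A, q * a * q⁻¹ ∈ A := by
    rintro _ ⟨u, hu, rfl⟩ a ha
    refine h.normK ⟨u, D.le hu⟩ (fun k hk => ?_) a ha
    rw [(D.ρ_ker ⟨u, D.le hu⟩).2 hu]
    simpa using hk
  refine
    { sing := D.sing, sq := h.sq, cardA := h.cardA, mem := ?_, cardAE := ?_, norm := hnormE, count36 := ?_,
      four := ?_, two := ?_, disp_card := ?_, disp_mul := ?_, five := ?_, pair := ?_, trans15 := ?_,
      transZ := h.transZ, transP := h.transP }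
  · rw [← hc]
    refine (h.inW c).2 ?_
    rw [(D.v_eq_zero c).2 (Or.inr hc)]
    exact hW.zeroW
  · rw [show 2 ^ 7 = 2 * W.ncard by rw [hW.cardW]; norm_num, ← h.ncard_preimage, ← Nat.card_coe_set_eq]
    refine Nat.card_congr (Equiv.subtypeEquivRight fun t => ?_)
    exact h.mem_E_iff.trans ⟨fun ⟨q, h1, h2⟩ => ⟨q, h1, h2⟩, fun ⟨q, h1, h2⟩ => ⟨q, h1, h2⟩⟩
  · have e := hcount (fun _ => True) (fun _ => True) fun _ _ _ => Iff.rfl
    simp only [and_true] at e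
    rw [e, hW.s18]
  · intro t ht htE
    obtain ⟨u, hu, rfl⟩ := h.mem_E_iff.1 ⟨ht.1, htE⟩
    rw [hcount (fun x => IsShort (D.v u + x)) (fun w => IsDuad z A (gv u * w)) fun q hq _ => hprod u q hu hq,
      hW.pt _ hu ((h.duad_iff hgs hne u).1 ht).2]
  · intro t w ht htE hw hwE htw
    obtain ⟨u, hu, rfl⟩ := h.mem_E_iff.1 ⟨ht.1, htE⟩
    obtain ⟨v, hv, rfl⟩ := h.mem_E_iff.1 ⟨hw.1, hwE⟩
    rw [hcount (fun x => IsShort (D.v u + x) ∧ IsShort (D.v v + x))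
      (fun y => IsDuad z A (gv u * y) ∧ IsDuad z A (gv v * y))
      fun q hq _ => and_congr (hprod u q hu hq) (hprod v q hv hq),
      hW.pt2 _ hu _ hv ((h.duad_iff hgs hne u).1 ht).2 ((h.duad_iff hgs hne v).1 hw).2 ((hprod u v hu hv).1 htw)]
  · intro x hx hxE
    obtain ⟨m, hk, h1, e⟩ := hdisp x hx hxE
    rw [e, h.ncard_preimage, hW.img16 _ hk h1]
  · intro x hx hxE i hi j hj
    obtain ⟨m, -, -, e⟩ := hdisp x hx hxE
    rw [e] at hi hj ⊢
    obtain ⟨a, ⟨x1, ha⟩, rfl⟩ := hi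
    obtain ⟨b, ⟨x2, hb⟩, rfl⟩ := hj
    refine ⟨a * b, ⟨x1 + x2, ?_⟩, rfl⟩
    show D.ρ m • (x1 + x2) + (x1 + x2) = D.v (a * b)
    rw [D.v_mul, ← ha, ← hb, smul_add']
    exact add_add_add_comm _ _ _ _
  · intro t ht htE
    obtain ⟨u, hu, rfl⟩ := h.mem_E_iff.1 ⟨ht.1, htE⟩
    have hus := ((h.duad_iff hgs hne u).1 ht).2
    let S := {k | k ∈ K ∧ k ≠ 1 ∧ D.v u ∈ dImg k}
    choose a ha haK using h.onK
    have hval : ∀ (k : S) (i : ↥(A ⊓ EE Q)), ((a k.1 k.2.1 : Subgroup.centralizer ({z} : Set G)) : G) * i ∈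
        {x | x ∈ A ∧ x ∉ EE Q ∧ gv u ∈ disp z (EE Q) x} := by
      intro k i
      obtain ⟨hiA, ⟨r, hr, er⟩⟩ := Subgroup.mem_inf.1 i.2
      let m : D.M := a k.1 k.2.1 * ⟨r, D.le hr⟩
      have hm : ((m : Subgroup.centralizer ({z} : Set G)) : G) =
          ((a k.1 k.2.1 : Subgroup.centralizer ({z} : Set G)) : G) * i := by rw [← er]; rfl
      have hρ : D.ρ m = k.1 := by
        rw [map_mul, haK, (D.ρ_ker ⟨r, D.le hr⟩).2 hr, mul_one]
      refine ⟨mul_mem (ha _ _) hiA, fun e => k.2.2.1 (hρ ▸ (h.rho_one_iff hm).2 e), ?_⟩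
      rw [h.disp_eq hm, hρ]
      exact ⟨u, k.2.2.2, rfl⟩
    have hb : Function.Bijective (fun p : S × ↥(A ⊓ EE Q) =>
        (⟨_, hval p.1 p.2⟩ : {x | x ∈ A ∧ x ∉ EE Q ∧ gv u ∈ disp z (EE Q) x})) := by
      constructor
      · rintro ⟨k, i⟩ ⟨k', i'⟩ e
        have e' : ((a k.1 k.2.1 : Subgroup.centralizer ({z} : Set G)) : G) * i =
            ((a k'.1 k'.2.1 : Subgroup.centralizer ({z} : Set G)) : G) * i' := congrArg Subtype.val e
        have hk : k = k' := by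
          refine Subtype.ext ?_
          rw [← haK k.1 k.2.1, ← haK k'.1 k'.2.1, ← inv_mul_eq_one, ← map_inv, ← map_mul]
          refine (h.rho_one_iff rfl).2 ?_
          show ((a k.1 k.2.1 : Subgroup.centralizer ({z} : Set G)) : G)⁻¹ *
            ((a k'.1 k'.2.1 : Subgroup.centralizer ({z} : Set G)) : G) ∈ EE Q
          rw [show ∀ p r : G, p⁻¹ * r = p⁻¹ * r * (i' : G) * (i' : G)⁻¹ from fun p r => by group,
            mul_assoc _ _ (i' : G), ← e', inv_mul_cancel_left]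
          exact mul_mem (Subgroup.mem_inf.1 i.2).2 (inv_mem (Subgroup.mem_inf.1 i'.2).2)
        subst hk
        exact Prod.ext rfl (Subtype.ext (mul_left_cancel e'))
      · rintro ⟨x, hx, hxE, hxu⟩
        obtain ⟨m, hm, hk⟩ := h.inK x hx
        rw [h.disp_eq hm] at hxu
        obtain ⟨r, hr, e⟩ := hxu
        rw [gv_injective e] at hr
        let k : S := ⟨D.ρ m, hk, fun e => hxE ((h.rho_one_iff hm).1 e), hr⟩
        refine ⟨⟨k, ⟨((a k.1 k.2.1 : Subgroup.centralizer ({z} : Set G)) : G)⁻¹ * x,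
          Subgroup.mem_inf.2 ⟨mul_mem (inv_mem (ha _ _)) hx, ?_⟩⟩⟩, Subtype.ext (mul_inv_cancel_left _ x)⟩
        refine (h.rho_one_iff (m := (a k.1 k.2.1)⁻¹ * m) (by rw [← hm]; rfl)).1 ?_
        rw [map_mul, map_inv, haK]
        exact inv_mul_cancel _
    have hAE : Nat.card ↥(A ⊓ EE Q) = 2 * W.ncard := by
      rw [← h.ncard_preimage, ← Nat.card_coe_set_eq]
      refine Nat.card_congr (Equiv.subtypeEquivRight fun t => ?_)
      exact h.mem_E_iff.trans ⟨fun ⟨q, h1, h2⟩ => ⟨q, h1, h2⟩, fun ⟨q, h1, h2⟩ => ⟨q, h1, h2⟩⟩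
    rw [← Nat.card_coe_set_eq, ← Nat.card_eq_of_bijective _ hb, Nat.card_prod, Nat.card_coe_set_eq, hAE, hW.cardW]
    show S.ncard * _ = 640
    rw [hW.five _ hu hus]
  · intro t w ht htE hw hwE htw x hx hxE htx
    obtain ⟨u, hu, rfl⟩ := h.mem_E_iff.1 ⟨ht.1, htE⟩
    obtain ⟨v, hv, rfl⟩ := h.mem_E_iff.1 ⟨hw.1, hwE⟩
    obtain ⟨m, hk, h1, e⟩ := hdisp x hx hxE
    rw [e] at htx ⊢
    obtain ⟨r, hr, er⟩ := htx
    rw [gv_injective er] at hr
    exact ⟨v, hW.pair _ hu _ hv ((h.duad_iff hgs hne u).1 ht).2 ((h.duad_iff hgs hne v).1 hw).2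
      ((hprod u v hu hv).1 htw) _ hk h1 hr, rfl⟩
  · intro x hx hxE y hy hyE
    obtain ⟨m, hm, hk⟩ := h.inK x hx
    obtain ⟨n, hn, hl⟩ := h.inK y hy
    obtain ⟨γ, hγ, hγK, e⟩ := hW.trans _ hk (fun e => hxE ((h.rho_one_iff hm).1 e)) _ hl
      (fun e => hyE ((h.rho_one_iff hn).1 e))
    obtain ⟨a, ha⟩ := D.exists_rho hγ
    refine ⟨((a : Subgroup.centralizer ({z} : Set G)) : G), Subgroup.mem_centralizer_singleton_iff.1 a.1.2,
      h.normK a (by rw [ha]; exact hγK), ?_⟩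
    refine (h.rho_one_iff (m := a * m * a⁻¹ * n⁻¹) (by rw [← hm, ← hn]; rfl)).1 ?_
    rw [map_mul, map_mul, map_mul, map_inv, map_inv, ha, e, mul_inv_cancel]

/-- The stabiliser of `z` has a large image. -/
theorem stab_image (hW : WCert K W) {g : G} {s : Q} (hgs : g * z * g⁻¹ = gv s) (hne : gv s ≠ z)
    (Φ : ↥(Subgroup.normalizer (A : Set G)) →* ↥Cfsg.M24)
    (hΦ : ∀ m, Φ m = 1 ↔ ∀ a ∈ A, (m : G) * a * (m : G)⁻¹ = a) :
    6080 ≤ Nat.card ↥(((Subgroup.centralizer ({z} : Set G)).subgroupOf (Subgroup.normalizer (A : Set G))).map Φ) := by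
  classical
  have hl := h.alocal hW hgs hne
  obtain ⟨n, L, hn, hL, hLinj⟩ := hW.big
  choose m hm using fun l => D.exists_rho (hL l).1
  have hmN : ∀ l, ((m l : Subgroup.centralizer ({z} : Set G)) : G) ∈ Subgroup.normalizer (A : Set G) := fun l =>
    hl.normalizer_of (h.normK (m l) (by rw [hm]; exact (hL l).2))
  have hqN : ∀ q : Q, gv q ∈ Subgroup.normalizer (A : Set G) := fun q =>
    hl.normalizer_of (hl.norm _ ⟨q.1, q.2, rfl⟩)
  obtain ⟨R, hR, hRsurj⟩ : ∃ R : Fin 64 → Q,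
      (∀ i j, ((gv (R i))⁻¹ * gv (R j)) ∈ A → i = j) ∧ True := by
    let AQ : Subgroup Q := A.comap ((Subgroup.centralizer ({z} : Set G)).subtype.comp Q.subtype)
    have hAQ : Nat.card AQ = 2 ^ 7 := by
      rw [show 2 ^ 7 = 2 * W.ncard by rw [hW.cardW]; norm_num, ← h.ncard_preimage,
        Set.ncard_image_of_injective _ gv_injective, ← Nat.card_coe_set_eq]
      exact Nat.card_congr (Equiv.subtypeEquivRight fun q => h.inW q)
    have hidx : AQ.index = 64 := by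
      have := AQ.card_mul_index
      rw [hAQ, D.card_Q] at this
      omega
    have e : Fin 64 ≃ Q ⧸ AQ := (Finite.equivFinOfCardEq (show Nat.card (Q ⧸ AQ) = 64 from hidx)).symm
    refine ⟨fun i => (e i).out, fun i j hij => e.injective ?_, trivial⟩
    rw [← (e i).out_eq', ← (e j).out_eq']
    exact QuotientGroup.eq.2 hij
  let f : Fin 64 × Fin n → ↥(((Subgroup.centralizer ({z} : Set G)).subgroupOf (Subgroup.normalizer (A : Set G))).map Φ) :=
    fun p => ⟨Φ ⟨gv (R p.1) * ((m p.2 : Subgroup.centralizer ({z} : Set G)) : G), mul_mem (hqN _) (hmN _)⟩,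
      _, Subgroup.mem_subgroupOf.2 (mul_mem (R p.1).1.2 (m p.2).1.2), rfl⟩
  have hf : Function.Injective f := by
    rintro ⟨i, l⟩ ⟨j, k⟩ e
    have e' := congrArg Subtype.val e
    have h1 : Φ ((⟨gv (R j) * ((m k : Subgroup.centralizer ({z} : Set G)) : G), mul_mem (hqN _) (hmN _)⟩ :
        ↥(Subgroup.normalizer (A : Set G)))⁻¹ *
        ⟨gv (R i) * ((m l : Subgroup.centralizer ({z} : Set G)) : G), mul_mem (hqN _) (hmN _)⟩) = 1 := by
      rw [map_mul, map_inv, inv_mul_eq_one]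
      exact e'.symm
    have hsame : ∀ a ∈ A, gv (R i) * ((m l : Subgroup.centralizer ({z} : Set G)) : G) * a *
        (gv (R i) * ((m l : Subgroup.centralizer ({z} : Set G)) : G))⁻¹ =
        gv (R j) * ((m k : Subgroup.centralizer ({z} : Set G)) : G) * a *
        (gv (R j) * ((m k : Subgroup.centralizer ({z} : Set G)) : G))⁻¹ := by
      intro a ha
      have := (hΦ _).1 h1 a ha
      simp only [Subgroup.coe_mul, Subgroup.coe_inv] at this
      conv_rhs => rw [← this]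
      group
    have hlk : l = k := by
      refine hLinj l k fun x hx => ?_
      obtain ⟨q, rfl⟩ := D.v_surj x
      have e1 := hsame (gv q) ((h.inW q).2 hx)
      have conjv : ∀ (r : Q) (mm : D.M), D.v (cj (r.1 * (mm : Subgroup.centralizer ({z} : Set G))) q) =
          D.ρ mm • D.v q := fun r mm => by
        rw [← cj_cj, D.v_cj_sub, D.v_conj, smul_def]
      rw [← hm l, ← hm k, ← conjv (R i) (m l), ← conjv (R j) (m k)]
      congr 1
      refine gv_injective ?_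
      rw [gv_cj, gv_cj]
      exact e1
    subst hlk
    refine Prod.ext (hR i j ?_) rfl
    -- `gv (R i)⁻¹ * gv (R j)` centralises `A`, so it lies in `A`
    set q0 := (gv (R i))⁻¹ * gv (R j) with hq0
    have hq0E : q0 ∈ EE Q := mul_mem (inv_mem ⟨_, (R i).2, rfl⟩) ⟨_, (R j).2, rfl⟩
    have hcomm : ∀ a ∈ A, q0 * a = a * q0 := by
      intro a ha
      set mm := ((m l : Subgroup.centralizer ({z} : Set G)) : G) with hmm
      have hb : mm⁻¹ * a * mm ∈ A := by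
        have := (Subgroup.mem_normalizer_iff.1 (inv_mem (hmN l)) a).1 ha
        rwa [inv_inv] at this
      have e1 := hsame _ hb
      have e2 : gv (R i) * a * (gv (R i))⁻¹ = gv (R j) * a * (gv (R j))⁻¹ := by
        calc gv (R i) * a * (gv (R i))⁻¹ = gv (R i) * mm * (mm⁻¹ * a * mm) * (gv (R i) * mm)⁻¹ := by group
          _ = gv (R j) * mm * (mm⁻¹ * a * mm) * (gv (R j) * mm)⁻¹ := e1
          _ = gv (R j) * a * (gv (R j))⁻¹ := by group
      calc q0 * a = (gv (R i))⁻¹ * (gv (R j) * a * (gv (R j))⁻¹) * gv (R j) := by rw [hq0]; group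
        _ = (gv (R i))⁻¹ * (gv (R i) * a * (gv (R i))⁻¹) * gv (R j) := by rw [e2]
        _ = a * q0 := by rw [hq0]; group
    have hcm := hl.sing.card_mul (A ⊓ EE Q) inf_le_right (Subgroup.mem_inf.2 ⟨hl.mem, hl.sing.mem⟩)
    rw [hl.cardAE, Subgroup.card_map_of_injective (Subgroup.subtype_injective _), D.card_Q] at hcm
    have hCR : A ⊓ EE Q = EE Q ⊓ Subgroup.centralizer ((A ⊓ EE Q : Subgroup G) : Set G) :=
      Subgroup.eq_of_le_of_card_ge (fun b hb => ⟨(Subgroup.mem_inf.1 hb).2, Subgroup.mem_centralizer_iff.2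
        fun b' hb' => hl.comm (Subgroup.mem_inf.1 hb').1 (Subgroup.mem_inf.1 hb).1⟩) (by rw [hl.cardAE]; omega)
    have : q0 ∈ A ⊓ EE Q := by
      rw [hCR]
      exact ⟨hq0E, Subgroup.mem_centralizer_iff.2 fun b hb => (hcomm b (Subgroup.mem_inf.1 hb).1).symm⟩
    exact (Subgroup.mem_inf.1 this).1
  have := Nat.card_le_card_of_injective f hf
  rw [Nat.card_prod, Nat.card_fin, Nat.card_fin] at this
  omega

/-- The normalizer maps onto `M24`. -/
theorem exists_epi (hW : WCert K W) {g : G} {s : Q} (hgs : g * z * g⁻¹ = gv s) (hne : gv s ≠ z) :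
    ∃ Φ : ↥(Subgroup.normalizer (A : Set G)) →* ↥Cfsg.M24, Function.Surjective Φ ∧
      ∀ m, Φ m = 1 ↔ ∀ a ∈ A, (m : G) * a * (m : G)⁻¹ = a :=
  (h.alocal hW hgs hne).exists_epi (n := 6080) (by norm_num) (fun Φ hΦ => h.stab_image hW hgs hne Φ hΦ)

end AData

end Cfsg.Agent.H32.LargeFischer
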