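import Cfsg.Agent.H32.LargeFischer.Thompson
import Cfsg.Agent.S0366
import Cfsg.Agent.S1589

/-!
# The normalizer of the Thompson subgroup and the centralizer of a duad in it
-/

set_option autoImplicit false
set_option linter.unusedSectionVars false

open scoped Pointwise

namespace Cfsg.Agent.H32.LargeFischer

open Cfsg.Agent.H8.LFT

variable {G : Type*} [Group G] [Finite G]

/-- The normalizer acts as `M24`, with duad stabilisers on the involutions not conjugate to `z`. -/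
def Good (z : G) (A : Subgroup G) : Prop :=
  ∃ Φ : ↥(Subgroup.normalizer (A : Set G)) →* ↥Cfsg.M24, Function.Surjective Φ ∧
    (∀ m : ↥(Subgroup.normalizer (A : Set G)), Φ m = 1 ↔ (m : G) ∈ A) ∧
    ∀ t, IsDuad z A t → ∃ s : Finset Cfsg.GolayPt, s.card = 2 ∧
      ((Subgroup.centralizer ({t} : Set G)).subgroupOf (Subgroup.normalizer (A : Set G))).map Φ =
        MulAction.stabilizer Cfsg.M24 s

theorem Good.conj {z : G} {A : Subgroup G} (h : Good z A) (y : G) :
    Good z (A.map (MulAut.conj y).toMonoidHom) := by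
  obtain ⟨Φ, hs, hk, hd⟩ := h
  obtain ⟨B, hB⟩ : ∃ B, B = A.map (MulAut.conj y).toMonoidHom := ⟨_, rfl⟩
  rw [← hB]
  have hmem : ∀ b, b ∈ B ↔ y⁻¹ * b * y ∈ A := by
    intro b
    rw [hB]
    constructor
    · rintro ⟨a, ha, rfl⟩
      rwa [show y⁻¹ * (MulAut.conj y).toMonoidHom a * y = a by
        show y⁻¹ * (y * a * y⁻¹) * y = a
        group]
    · intro hb
      exact ⟨_, hb, by show y * (y⁻¹ * b * y) * y⁻¹ = b; group⟩
  have hn : ∀ m, m ∈ Subgroup.normalizer (B : Set G) ↔ y⁻¹ * m * y ∈ Subgroup.normalizer (A : Set G) := by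
    intro m
    rw [Subgroup.mem_normalizer_iff, Subgroup.mem_normalizer_iff]
    constructor
    · intro hm a
      have := hm (y * a * y⁻¹)
      rw [hmem, hmem] at this
      rw [show y⁻¹ * (y * a * y⁻¹) * y = a by group] at this
      rw [this, show y⁻¹ * (m * (y * a * y⁻¹) * m⁻¹) * y = y⁻¹ * m * y * a * (y⁻¹ * m * y)⁻¹ by group]
    · intro hm b
      rw [hmem, hmem, hm (y⁻¹ * b * y),
        show y⁻¹ * m * y * (y⁻¹ * b * y) * (y⁻¹ * m * y)⁻¹ = y⁻¹ * (m * b * m⁻¹) * y by group]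
  let f : ↥(Subgroup.normalizer (B : Set G)) →* ↥(Subgroup.normalizer (A : Set G)) :=
    MonoidHom.mk' (fun m => ⟨y⁻¹ * m * y, (hn m).1 m.2⟩) fun a b => Subtype.ext (by
      show y⁻¹ * ((a : G) * b) * y = y⁻¹ * a * y * (y⁻¹ * b * y)
      group)
  have hf : Function.Surjective f := fun m => ⟨⟨y * m * y⁻¹, (hn _).2 (by
    rw [show y⁻¹ * (y * (m : G) * y⁻¹) * y = m by group]; exact m.2)⟩, Subtype.ext (by
      show y⁻¹ * (y * (m : G) * y⁻¹) * y = m
      group)⟩
  refine ⟨Φ.comp f, hs.comp hf, fun m => ((hk (f m)).trans (hmem m).symm), fun t ht => ?_⟩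
  have ht' : IsDuad z A (y⁻¹ * t * y) := ⟨(hmem t).1 ht.1, fun e => ht.2.1 (by
      have := congrArg (fun w => y * w * y⁻¹) e
      simpa [mul_assoc] using this),
    fun e => ht.2.2 (e.trans (isConj_iff.2 ⟨y, by group⟩))⟩
  obtain ⟨s, hs2, e⟩ := hd _ ht'
  refine ⟨s, hs2, ?_⟩
  rw [← e, ← Subgroup.map_map]
  congr 1
  ext m
  constructor
  · rintro ⟨n, hnt, rfl⟩
    refine Subgroup.mem_subgroupOf.2 (Subgroup.mem_centralizer_singleton_iff.2 ?_)
    have := Subgroup.mem_centralizer_singleton_iff.1 (Subgroup.mem_subgroupOf.1 hnt)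
    show y⁻¹ * (n : G) * y * (y⁻¹ * t * y) = y⁻¹ * t * y * (y⁻¹ * n * y)
    calc y⁻¹ * (n : G) * y * (y⁻¹ * t * y) = y⁻¹ * ((n : G) * t) * y := by group
      _ = y⁻¹ * (t * n) * y := by rw [this]
      _ = _ := by group
  · intro hm
    obtain ⟨n, rfl⟩ := hf m
    refine ⟨n, Subgroup.mem_subgroupOf.2 (Subgroup.mem_centralizer_singleton_iff.2 ?_), rfl⟩
    have := Subgroup.mem_centralizer_singleton_iff.1 (Subgroup.mem_subgroupOf.1 hm)
    have e : y⁻¹ * (n : G) * y * (y⁻¹ * t * y) = y⁻¹ * t * y * (y⁻¹ * n * y) := this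
    calc (n : G) * t = y * (y⁻¹ * (n : G) * y * (y⁻¹ * t * y)) * y⁻¹ := by group
      _ = y * (y⁻¹ * t * y * (y⁻¹ * n * y)) * y⁻¹ := by rw [e]
      _ = t * n := by group

variable {z : G} {Q : Subgroup (Subgroup.centralizer ({z} : Set G))} [Q.Normal]

theorem exists_good (hF : Cfsg.IsOfLargeFischerTypeAt z Q) (h44 : TopsAt z Q) (T : Sylow 2 G) :
    ∃ A : Subgroup G, IsTop (T : Subgroup G) A ∧ Good z A := by
  classical
  haveI : Fact (Nat.Prime 2) := ⟨Nat.prime_two⟩
  obtain ⟨D, g, s, A, S, hgs, hne, hS, hcent, hW, hD⟩ := exists_standard hF h44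
  obtain ⟨Φ, hsurj, hΦ⟩ := hD.exists_epi hW hgs hne
  have hl := hD.alocal hW hgs hne
  have hker : ∀ m : ↥(Subgroup.normalizer (A : Set G)), Φ m = 1 ↔ (m : G) ∈ A := by
    intro m
    rw [hΦ]
    refine ⟨fun e => hcent (Subgroup.mem_centralizer_iff.2 fun a ha => ?_), fun hm a ha => ?_⟩
    · exact (mul_inv_eq_iff_eq_mul.1 (e a ha)).symm
    · rw [hl.comm hm ha, mul_inv_cancel_right]
  have hgood : Good z A := by
    refine ⟨Φ, hsurj, hker, fun t ht => ?_⟩
    obtain ⟨C, hC⟩ : ∃ C, C = (Subgroup.centralizer ({t} : Set G)).subgroupOf (Subgroup.normalizer (A : Set G)) :=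
      ⟨_, rfl⟩
    rw [← hC]
    refine Cfsg.Agent.S1589.result.2.1 _ ?_
    have hle : Φ.ker ≤ C := fun m hm => by
      rw [hC, Subgroup.mem_subgroupOf, Subgroup.mem_centralizer_singleton_iff]
      exact hl.comm ((hker m).1 hm) ht.1
    rw [Subgroup.index_map_eq _ hsurj hle]
    letI : MulAction ↥(Subgroup.normalizer (A : Set G)) G :=
      MulAction.compHom G ((MulAut.conj : G →* MulAut G).comp (Subgroup.normalizer (A : Set G)).subtype)
    have e1 : MulAction.stabilizer ↥(Subgroup.normalizer (A : Set G)) t = C := by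
      ext m
      rw [hC, Subgroup.mem_subgroupOf, Subgroup.mem_centralizer_singleton_iff]
      exact mul_inv_eq_iff_eq_mul
    have e2 : MulAction.orbit ↥(Subgroup.normalizer (A : Set G)) t = (hl.duads : Set G) := by
      ext a
      constructor
      · rintro ⟨m, rfl⟩
        exact hl.mem_duads.2 ((hl.duad_conj_iff m.2).2 ht)
      · intro ha
        obtain ⟨m, hm, e⟩ := hD.transP t a ht (hl.mem_duads.1 ha)
        exact ⟨⟨m, hl.normalizer_of hm⟩, e⟩
    rw [← e1, MulAction.index_stabilizer, e2, Set.ncard_coe_finset, hl.card_duads]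
  obtain ⟨y, hy⟩ := MulAction.exists_smul_eq G S T
  refine ⟨A.map (MulAut.conj y).toMonoidHom, ?_, hgood.conj y⟩
  rw [← hy, Sylow.coe_subgroup_smul]
  exact hS.conj y

/-- The normalizer of the Thompson subgroup. -/
theorem thompson_normalizer_mathieu (hF : Cfsg.IsOfLargeFischerTypeAt z Q) (h44 : TopsAt z Q) (T : Sylow 2 G)
    (A M : Subgroup G) (hA : A = Cfsg.thompsonSubgroupOf 2 (T : Subgroup G))
    (hM : M = Subgroup.normalizer (A : Set G)) :
    Cfsg.IsElementaryAbelian 2 A ∧ Nat.card A = 2 ^ 11 ∧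
      ∃ _ : (A.subgroupOf M).Normal, Nonempty (↥M ⧸ A.subgroupOf M ≃* ↥Cfsg.M24) := by
  obtain ⟨A', hT, Φ, hs, hk, -⟩ := exists_good hF h44 T
  rw [hT.thompson] at hA
  subst hA hM
  have hker : A.subgroupOf (Subgroup.normalizer (A : Set G)) = Φ.ker := by
    ext m
    rw [Subgroup.mem_subgroupOf, MonoidHom.mem_ker, hk]
  refine ⟨hT.2.1, hT.2.2.1, Subgroup.normal_in_normalizer, ⟨?_⟩⟩
  exact (QuotientGroup.quotientMulEquivOfEq hker).trans (QuotientGroup.quotientKerEquivOfSurjective Φ hs)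

/-- The stabiliser of two points as a subgroup of the permutation group. -/
theorem duad_stab_equiv (s : Finset Cfsg.GolayPt) (hs : s.card = 2) :
    Nonempty (↥(MulAction.stabilizer ↥Cfsg.M24 s) ≃*
      ↥(Cfsg.M24 ⊓ MulAction.stabilizer (Equiv.Perm Cfsg.GolayPt) ({none, some 0} : Set Cfsg.GolayPt))) := by
  classical
  haveI := Cfsg.Agent.S0366.result
  haveI : MulAction.IsMultiplyPretransitive ↥Cfsg.M24 Cfsg.GolayPt 2 :=
    MulAction.isMultiplyPretransitive_of_le (n := 5) (by norm_num) (by simp [Cfsg.GolayPt])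
  obtain ⟨a, b, hab, rfl⟩ := Finset.card_eq_two.1 hs
  obtain ⟨g, hg1, hg2⟩ := MulAction.is_two_pretransitive_iff.1 (inferInstance :
    MulAction.IsMultiplyPretransitive ↥Cfsg.M24 Cfsg.GolayPt 2) hab (Option.some_ne_none (0 : ZMod 23)).symm
  have hg : g • ({a, b} : Finset Cfsg.GolayPt) = {none, some 0} := by
    simp [Finset.smul_finset_def, hg1, hg2]
  have e1 := MulAction.stabilizer_smul_eq_stabilizer_map_conj g ({a, b} : Finset Cfsg.GolayPt)
  rw [hg] at e1
  have e2 : MulAction.stabilizer ↥Cfsg.M24 ({none, some 0} : Finset Cfsg.GolayPt) =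
      (Cfsg.M24 ⊓ MulAction.stabilizer (Equiv.Perm Cfsg.GolayPt) ({none, some 0} : Set Cfsg.GolayPt)).subgroupOf
        Cfsg.M24 := by
    ext m
    rw [Subgroup.mem_subgroupOf, Subgroup.mem_inf, and_iff_right m.2, MulAction.mem_stabilizer_iff,
      MulAction.mem_stabilizer_iff, ← Finset.coe_inj, Finset.coe_smul_finset, Finset.coe_pair]
    rfl
  exact ⟨((Subgroup.equivMapOfInjective _ _ (MulAut.conj g).injective).trans
    (MulEquiv.subgroupCongr (e1.symm.trans e2))).trans (Subgroup.subgroupOfEquivOfLe inf_le_left)⟩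

/-- The centralizer of an involution outside the class of `z`. -/
theorem thompson_stabilizer (hF : Cfsg.IsOfLargeFischerTypeAt z Q) (h44 : TopsAt z Q) (T : Sylow 2 G)
    (A M : Subgroup G) (hA : A = Cfsg.thompsonSubgroupOf 2 (T : Subgroup G))
    (hM : M = Subgroup.normalizer (A : Set G)) (t : G) (htA : t ∈ A) (ht2 : orderOf t = 2) (ht : ¬ IsConj z t) :
    ∃ _ : (A.subgroupOf (M ⊓ Subgroup.centralizer ({t} : Set G))).Normal,
      Nonempty (↥(M ⊓ Subgroup.centralizer ({t} : Set G)) ⧸ A.subgroupOf (M ⊓ Subgroup.centralizer ({t} : Set G)) ≃*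
        ↥(Cfsg.M24 ⊓ MulAction.stabilizer (Equiv.Perm Cfsg.GolayPt) ({none, some 0} : Set Cfsg.GolayPt))) := by
  obtain ⟨A', hT, Φ, hs, hk, hd⟩ := exists_good hF h44 T
  rw [hT.thompson] at hA
  subst hA hM
  obtain ⟨s, hs2, e⟩ := hd t ⟨htA, fun h => by rw [h, orderOf_one] at ht2; omega, ht⟩
  let C := Subgroup.normalizer (A : Set G) ⊓ Subgroup.centralizer ({t} : Set G)
  let Ψ : ↥C →* ↥Cfsg.M24 := Φ.comp (Subgroup.inclusion inf_le_left)
  have hker : A.subgroupOf C = Ψ.ker := by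
    ext m
    rw [Subgroup.mem_subgroupOf, MonoidHom.mem_ker]
    exact (hk (Subgroup.inclusion inf_le_left m)).symm
  have hrange : Ψ.range = MulAction.stabilizer Cfsg.M24 s := by
    rw [← e]
    ext x
    constructor
    · rintro ⟨m, rfl⟩
      exact ⟨_, (Subgroup.mem_inf.1 m.2).2, rfl⟩
    · rintro ⟨m, hm, rfl⟩
      exact ⟨⟨m.1, Subgroup.mem_inf.2 ⟨m.2, hm⟩⟩, rfl⟩
  haveI hn : (A.subgroupOf C).Normal := hker ▸ inferInstance
  obtain ⟨e3⟩ := duad_stab_equiv s hs2
  exact ⟨hn, ⟨(QuotientGroup.quotientMulEquivOfEq hker).trans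
    ((QuotientGroup.quotientKerEquivRange Ψ).trans ((MulEquiv.subgroupCongr hrange).trans e3))⟩⟩

end Cfsg.Agent.H32.LargeFischer
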