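import Cfsg.Agent.H84.LF.Orbits
import Cfsg.Agent.H32.LargeFischer.Check
import Mathlib.GroupTheory.GroupAction.Quotient

/-!
# No outer element centralises a normal subgroup of order sixteen of the stabiliser of the long orbit
-/

set_option autoImplicit false
set_option linter.unusedSectionVars false
set_option maxRecDepth 20000

namespace Cfsg.Agent.H32.LargeFischer

open Matrix Cfsg.Agent.H8.U62 Cfsg.Agent.H8.U62.Setup Cfsg.Agent.H84.LF

variable {F : Type} [Setup F]

theorem long_ok (i : Fin 3) : genOK i.1 = true ∧ transOK i.1 = true ∧ pointOK i.1 = true ∧ allOK i.1 = true := by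
  have h : longOK i.1 = true := by
    match i with
    | ⟨0, _⟩ => exact long_ok0
    | ⟨1, _⟩ => exact long_ok1
    | ⟨2, _⟩ => exact long_ok2
  simp only [longOK, Bool.and_eq_true] at h
  exact ⟨h.1.1.1, h.1.1.2, h.1.2, h.2⟩

theorem getD_mem {α : Type*} {l : List α} {n : ℕ} {d : α} (h : n < l.length) : l.getD n d ∈ l := by
  rw [List.getD_eq_getElem _ _ h]
  exact List.getElem_mem _

theorem matF_mvC (M v : ℕ) : matF (om : F) M *ᵥ vecF om v = vecF om (mvC M v) :=
  (vecF_mvC _ hom two M v).symm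

theorem mvC_eq {A B u v : ℕ} (h : matF (om : F) A *ᵥ vecF om u = matF om B *ᵥ vecF om v) :
    mvC A u = mvC B v := by
  rw [matF_mvC, matF_mvC] at h
  exact vecF_inj (mvN_lt (om : F) hom two 6 _ _) (mvN_lt (om : F) hom two 6 _ _) h

theorem colsDiffer_sound {A B : ℕ} (h : colsDiffer A B = true) : matF (om : F) A ≠ matF om B := by
  intro e
  simp only [colsDiffer, List.any_eq_true, List.mem_range, Bool.not_eq_true'] at h
  obtain ⟨j, hj, hne⟩ := h
  have hc : vecF (om : F) (colC A j) = vecF om (colC B j) := by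
    rw [← col_matF (om : F) A ⟨j, hj⟩, ← col_matF (om : F) B ⟨j, hj⟩, e]
  have hlt : ∀ X, colC X j < 4096 := fun X => lt_of_le_of_lt Nat.and_le_right (by norm_num)
  exact Nat.ne_of_beq_eq_false hne (vecF_inj (hlt A) (hlt B) hc)

/-- The stabiliser of the long orbit's representative. -/
noncomputable abbrev HB (i : Fin 3) : Subgroup (SU6 F) := sub i ⊓ fixV vB

theorem tau_fix : mat (tau : SU6 F) *ᵥ (vB : Fin 6 → F) = vB := by
  rw [mat_tau, vB, matF_mvC, show mvC tauC 85 = 85 by decide +kernel]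

theorem card_HB (i : Fin 3) : Nat.card ↥(HB (F := F) i) = 5760 := by
  letI : MulAction ↥(sub (F := F) i) (Fin 6 → F) :=
    { smul := fun x v => mat x.1 *ᵥ v
      one_smul := fun v => Matrix.one_mulVec v
      mul_smul := fun x y v => by
        show mat (x.1 * y.1) *ᵥ v = _
        rw [mat_mul, ← Matrix.mulVec_mulVec]; rfl }
  have h1 : MulAction.orbit ↥(sub (F := F) i) (vB : Fin 6 → F) = orbV i vB := by
    ext y
    exact ⟨fun ⟨x, hx⟩ => ⟨x.1, x.2, hx⟩, fun ⟨x, hx, e⟩ => ⟨⟨x, hx⟩, e⟩⟩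
  have h2 : MulAction.stabilizer ↥(sub (F := F) i) (vB : Fin 6 → F) = (fixV vB).subgroupOf (sub i) := by
    ext x
    exact Iff.rfl
  have h3 := MulAction.index_stabilizer ↥(sub (F := F) i) (vB : Fin 6 → F)
  rw [h1, h2, (orb_two i).2.1] at h3
  have h4 := ((fixV (vB : Fin 6 → F)).subgroupOf (sub i)).card_mul_index
  rw [h3, card_sub, ← Subgroup.inf_subgroupOf_left (fixV (vB : Fin 6 → F)) (sub i),
    Nat.card_congr (Subgroup.subgroupOfEquivOfLe inf_le_left).toEquiv] at h4
  show Nat.card ↥(sub (F := F) i ⊓ fixV vB) = 5760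
  omega

theorem real_genS (i : Fin 3) {k : ℕ} (hk : k < 2) : Real (HB (F := F) i) (genS i.1 k) := by
  have h := (long_ok i).1
  simp only [genOK, force_eq, List.all_eq_true, List.mem_range, Bool.and_eq_true] at h
  obtain ⟨x, hx, e⟩ := real_wordS (real_subGenC (F := F) i) ((genW.getD i.1 []).getD k [])
  refine ⟨x, ⟨hx, ?_⟩, e⟩
  show mat x *ᵥ vB = vB
  rw [e, vB, matF_mvC]
  exact congrArg _ (Nat.eq_of_beq_eq_true (h k hk).1)

theorem inv_genS (i : Fin 3) {k : ℕ} (hk : k < 2) :
    ∃ g ∈ HB (F := F) i, mat g = matF om (genS i.1 k) ∧ mat g⁻¹ = matF om ((ginv.getD i.1 []).getD k 0) := by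
  have h := (long_ok i).1
  simp only [genOK, force_eq, List.all_eq_true, List.mem_range, Bool.and_eq_true] at h
  obtain ⟨g, hg, e⟩ := real_genS (F := F) i hk
  refine ⟨g, hg, e, ?_⟩
  have h1 : mat g * matF (om : F) ((ginv.getD i.1 []).getD k 0) = 1 := by
    rw [e, ← matF_mmC _ hom two, Nat.eq_of_beq_eq_true (h k hk).2, matF_oneC _ hom two]
  calc mat g⁻¹ = mat g⁻¹ * (mat g * matF (om : F) ((ginv.getD i.1 []).getD k 0)) := by rw [h1, mul_one]
    _ = _ := by rw [← mul_assoc, ← mat_mul, inv_mul_cancel, mat_one, one_mul]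

/-- The elements of the stabiliser are the products of the two lists. -/
theorem cover (i : Fin 3) {x : SU6 F} (hx : x ∈ HB i) :
    ∃ T ∈ tTab.getD i.1 [], ∃ S ∈ sTab.getD i.1 [], mat x = matF om (mmC T S) := by
  classical
  obtain ⟨-, ht, hp, -⟩ := long_ok i
  simp only [transOK, force_eq, Bool.and_eq_true, List.all_eq_true, List.mem_range] at ht
  simp only [pointOK, force_eq, Bool.and_eq_true, List.all_eq_true, List.mem_range] at hp
  obtain ⟨⟨⟨⟨⟨⟨hTl, -⟩, hol⟩, hT0⟩, hstep⟩, hord⟩, hkeys⟩ := ht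
  obtain ⟨⟨⟨hSl, -⟩, hS⟩, hSd⟩ := hp
  have hTl := Nat.eq_of_beq_eq_true hTl
  have hSl := Nat.eq_of_beq_eq_true hSl
  have hol := Nat.eq_of_beq_eq_true hol
  have hT : ∀ n < 480, Real (HB (F := F) i) ((tTab.getD i.1 []).getD n 0) := by
    intro n
    induction n using Nat.strong_induction_on with
    | _ n ih =>
      intro hn
      rcases n with _ | n
      · rw [Nat.eq_of_beq_eq_true hT0]; exact Real.one _
      · obtain ⟨⟨hlt, -⟩, he⟩ := hstep n (by omega)
        rw [Nat.eq_of_beq_eq_true he]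
        have hp' : (tStep.getD i.1 []).getD n 0 / 2 < n + 1 := Nat.le_of_ble_eq_true hlt
        refine Real.mmC ?_ (ih _ hp' (by omega))
        cases Nat.beq ((tStep.getD i.1 []).getD n 0 % 2) 0
        · exact real_genS i (by norm_num)
        · exact real_genS i (by norm_num)
  have hS' : ∀ n < 12, Real (HB (F := F) i) ((sTab.getD i.1 []).getD n 0) ∧
      mvC ((sTab.getD i.1 []).getD n 0) 27 = 27 := by
    intro n hn
    obtain ⟨⟨he, hf⟩, -⟩ := hS n hn
    refine ⟨?_, Nat.eq_of_beq_eq_true hf⟩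
    rw [Nat.eq_of_beq_eq_true he]
    refine real_wordS (fun A hA => ?_) _
    simp only [List.mem_cons, List.not_mem_nil, or_false] at hA
    rcases hA with rfl | rfl
    · exact real_genS i (by norm_num)
    · exact real_genS i (by norm_num)
  choose tf htf hte using hT
  choose sf hsf hse using fun n hn => (hS' n hn).1
  let f : Fin 480 × Fin 12 → ↥(HB (F := F) i) := fun p =>
    ⟨tf p.1 p.1.2 * sf p.2 p.2.2, mul_mem (htf _ _) (hsf _ _)⟩
  -- distinct images
  have hnd := (keysOK_sound _ _ hkeys).1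
  have hond := hnd.of_map _
  have hsub : ∀ n < 480, n ∈ tOrd.getD i.1 [] := by
    have h1 : (tOrd.getD i.1 []).toFinset = Finset.range 480 := by
      refine Finset.eq_of_subset_of_card_le (fun n hn => ?_) ?_
      · exact Finset.mem_range.2 (Nat.le_of_ble_eq_true (hord n (List.mem_toFinset.1 hn)))
      · rw [Finset.card_range, List.toFinset_card_of_nodup hond, hol]
    exact fun n hn => List.mem_toFinset.1 (h1 ▸ Finset.mem_range.2 hn)
  have hinj : ∀ n < 480, ∀ n' < 480, mvC ((tTab.getD i.1 []).getD n 0) 27 = mvC ((tTab.getD i.1 []).getD n' 0) 27 →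
      n = n' := fun n hn n' hn' e => List.inj_on_of_nodup_map hnd (hsub n hn) (hsub n' hn') e
  have hf : Function.Injective f := by
    rintro ⟨a, b⟩ ⟨a', b'⟩ h
    have h' := congrArg (fun y : ↥(HB (F := F) i) => mat (y : SU6 F)) h
    simp only [f, mat_mul, hte, hse] at h'
    have e1 : mvC ((tTab.getD i.1 []).getD a.1 0) 27 = mvC ((tTab.getD i.1 []).getD a'.1 0) 27 := by
      refine mvC_eq (F := F) ?_
      have := congrArg (fun A => A *ᵥ vecF (om : F) 27) h'
      simp only [← Matrix.mulVec_mulVec] at this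
      rwa [matF_mvC, matF_mvC (F := F) ((sTab.getD i.1 []).getD b'.1 0), (hS' _ b.2).2, (hS' _ b'.2).2] at this
    obtain rfl : a = a' := Fin.ext (hinj _ a.2 _ a'.2 e1)
    refine Prod.ext rfl (Fin.ext ?_)
    have e2 : matF (om : F) ((sTab.getD i.1 []).getD b.1 0) = matF om ((sTab.getD i.1 []).getD b'.1 0) := by
      have h2 := congrArg (fun A => mat (tf a a.2)⁻¹ * A) h'
      simp only [← hte a a.2, ← mul_assoc, ← mat_mul, inv_mul_cancel, mat_one, one_mul] at h2
      exact h2
    by_contra hne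
    have hd := hSd b.1 b.2 b'.1 b'.2
    rw [Bool.or_eq_true] at hd
    rcases hd with hd | hd
    · exact hne (Nat.eq_of_beq_eq_true hd)
    · exact colsDiffer_sound hd e2
  obtain ⟨⟨a, b⟩, e⟩ := (hf.bijective_of_nat_card_le (by
    rw [card_HB, Nat.card_prod, Nat.card_fin, Nat.card_fin])).2 ⟨x, hx⟩
  have hgetT : (tTab.getD i.1 []).getD a.1 0 ∈ tTab.getD i.1 [] := by
    exact getD_mem (by rw [hTl]; exact a.2)
  have hgetS : (sTab.getD i.1 []).getD b.1 0 ∈ sTab.getD i.1 [] := by
    exact getD_mem (by rw [hSl]; exact b.2)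
  refine ⟨_, hgetT, _, hgetS, ?_⟩
  rw [matF_mmC _ hom two, ← hte a.1 a.2, ← hse b.1 b.2, ← mat_mul]
  exact congrArg (fun y : ↥(HB (F := F) i) => mat (y : SU6 F)) e.symm

/-- What the check says on an element of the stabiliser. -/
theorem elem_facts (i : Fin 3) {x : SU6 F} (hx : x ∈ HB i) :
    (∃ o ∈ oTab.getD i.1 [], ∀ y : SU6 F, mat y = matF om o → x * tau * y ≠ y * (x * tau)) ∧
    (x * x ≠ 1 ∨ (∃ g ∈ HB (F := F) i, x * (g * x * g⁻¹) ≠ g * x * g⁻¹ * x) ∨
      ∃ o ∈ oTab.getD i.1 [], mat x = matF om o) := by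
  obtain ⟨T, hT, S, hS, hM⟩ := cover i hx
  obtain ⟨-, -, -, hall⟩ := long_ok i
  simp only [allOK, force_eq, Bool.and_eq_true, List.all_eq_true, elemOK] at hall
  obtain ⟨⟨hOl, hpr⟩, hall⟩ := hall
  obtain ⟨houter, hrest⟩ := hall T hT S hS
  set M := mmC T S
  constructor
  · simp only [outerMoves, probeV, List.any_eq_true, List.mem_map, force_eq, Bool.not_eq_true'] at houter
    obtain ⟨q, ⟨p, hp, rfl⟩, hne⟩ := houter
    refine ⟨(oTab.getD i.1 []).getD (p.getD 0 0) 0, ?_, fun y hy e => Nat.ne_of_beq_eq_false hne ?_⟩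
    · have hlt : p.getD 0 0 < 16 := Nat.le_of_ble_eq_true (hpr p hp).1
      exact getD_mem (by rw [Nat.eq_of_beq_eq_true hOl]; exact hlt)
    · have h' := congrArg (fun g : SU6 F => mat g *ᵥ vecF om (1 <<< (2 * p.getD 1 0))) e
      simp only [mat_mul, hM, mat_tau, hy, ← Matrix.mulVec_mulVec, matF_mvC] at h'
      exact vecF_inj (mvN_lt (om : F) hom two 6 _ _) (mvN_lt (om : F) hom two 6 _ _) h'
  · simp only [Bool.or_eq_true] at hrest
    rcases hrest with ((h | h) | h) | h
    · left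
      intro e
      simp only [sqMoves, List.any_eq_true, List.mem_range, force_eq, Bool.not_eq_true'] at h
      obtain ⟨j, hj, hne⟩ := h
      refine Nat.ne_of_beq_eq_false hne ?_
      have h' := congrArg (fun g : SU6 F => mat g *ᵥ vecF om (1 <<< (2 * j))) e
      simp only [mat_mul, hM, mat_one, Matrix.one_mulVec, ← Matrix.mulVec_mulVec, matF_mvC] at h'
      refine vecF_inj (mvN_lt (om : F) hom two 6 _ _) ?_ h'
      rw [Nat.one_shiftLeft]
      calc 2 ^ (2 * j) < 2 ^ 12 := Nat.pow_lt_pow_right (by norm_num) (by omega)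
        _ = 4096 := by norm_num
    · right; left
      obtain ⟨g, hg, e, e'⟩ := inv_genS (F := F) i (k := 0) (by norm_num)
      refine ⟨g, hg, fun hc => ?_⟩
      simp only [ncMoves, force_eq] at h
      refine colsDiffer_sound (F := F) h ?_
      simp only [matF_mmC _ hom two, ← e, ← e', ← hM, ← mat_mul]
      rw [← mul_assoc g x g⁻¹, hc]
    · right; left
      obtain ⟨g, hg, e, e'⟩ := inv_genS (F := F) i (k := 1) (by norm_num)
      refine ⟨g, hg, fun hc => ?_⟩
      simp only [ncMoves, force_eq] at h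
      refine colsDiffer_sound (F := F) h ?_
      simp only [matF_mmC _ hom two, ← e, ← e', ← hM, ← mat_mul]
      rw [← mul_assoc g x g⁻¹, hc]
    · right; right
      rw [List.any_eq_true] at h
      obtain ⟨o, ho, hb⟩ := h
      exact ⟨o, ho, by rw [hM, Nat.eq_of_beq_eq_true hb]⟩

/-- No elementary abelian normal subgroup of order at least 32 of the stabiliser meets both cosets. -/
theorem no_normal_thirtytwo (i : Fin 3) (D : Subgroup (SU6 F))
    (hD : ∀ d ∈ D, d ∈ sub i ∨ d * tau ∈ sub i) (hfix : ∀ d ∈ D, mat d *ᵥ (vB : Fin 6 → F) = vB)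
    (hsq : ∀ d ∈ D, d * d = 1) (hcomm : ∀ d ∈ D, ∀ e ∈ D, d * e = e * d)
    (hnorm : ∀ g ∈ HB (F := F) i, ∀ d ∈ D, g * d * g⁻¹ ∈ D) (hcard : 32 ≤ Nat.card ↥D) : False := by
  classical
  obtain ⟨D0, hD0⟩ : ∃ D0, D0 = D ⊓ sub i := ⟨_, rfl⟩
  let O : Finset (Matrix (Fin 6) (Fin 6) F) := ((oTab.getD i.1 []).map fun o => matF om o).toFinset
  have hOc : O.card ≤ 16 := by
    refine (List.toFinset_card_le _).trans (le_of_eq ?_)
    obtain ⟨-, -, -, hall⟩ := long_ok i
    simp only [allOK, force_eq, Bool.and_eq_true] at hall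
    rw [List.length_map]
    exact Nat.eq_of_beq_eq_true hall.1.1
  have hin : ∀ d ∈ D0, mat d ∈ O := by
    intro d hd
    rw [hD0] at hd
    rcases (elem_facts i (x := d) ⟨hd.2, hfix d hd.1⟩).2 with h | ⟨g, hg, h⟩ | ⟨o, ho, h⟩
    · exact absurd (hsq d hd.1) h
    · exact absurd (hcomm d hd.1 _ (hnorm g hg d hd.1)) h
    · exact List.mem_toFinset.2 (List.mem_map.2 ⟨o, ho, h.symm⟩)
  let ι : ↥D0 → {A // A ∈ O} := fun d => ⟨mat d.1, hin d.1 d.2⟩
  have hι : Function.Injective ι := fun a b e => by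
    have e' := congrArg (fun t : {A // A ∈ O} => t.1) e
    exact Subtype.ext (ext_mat e')
  have h16 : Nat.card ↥D0 ≤ 16 := by
    refine (Nat.card_le_card_of_injective ι hι).trans ?_
    rw [Nat.card_eq_fintype_card, Fintype.card_coe]
    exact hOc
  obtain ⟨d, hd, hdn⟩ : ∃ d ∈ D, d ∉ sub i := by
    by_contra hno
    push Not at hno
    have : D0 = D := by rw [hD0]; exact inf_eq_left.2 hno
    rw [this] at h16
    omega
  have hdi : d * tau ∈ sub i := (hD d hd).resolve_left hdn
  have h2 : Nat.card ↥D ≤ 2 * Nat.card ↥D0 := by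
    have key : ∀ e ∈ D, e ∉ sub i → d * e ∈ D0 := fun e he hen => by
      rw [hD0]
      refine ⟨mul_mem hd he, ?_⟩
      have hei : e * tau ∈ sub i := (hD e he).resolve_left hen
      have : d * e = d * tau * (tau * (e * tau) * tau) := by
        calc d * e = d * (tau * tau) * e * (tau * tau) := by rw [tau_mul_self, mul_one, mul_one]
          _ = _ := by group
      rw [this]
      exact mul_mem hdi (tau_conj_sub i hei)
    let ψ : ↥D → Bool × ↥D0 := fun e =>
      if h : e.1 ∈ sub i then (false, ⟨e.1, hD0 ▸ ⟨e.2, h⟩⟩) else (true, ⟨d * e.1, key _ e.2 h⟩)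
    have hψ : Function.Injective ψ := by
      intro a b e
      simp only [ψ] at e
      split_ifs at e with ha hb
      · exact Subtype.ext (congrArg (fun p : Bool × ↥D0 => (p.2 : SU6 F)) e)
      · simp at e
      · simp at e
      · exact Subtype.ext (mul_left_cancel (congrArg (fun p : Bool × ↥D0 => (p.2 : SU6 F)) e))
    refine (Nat.card_le_card_of_injective ψ hψ).trans (le_of_eq ?_)
    rw [Nat.card_prod, Nat.card_eq_fintype_card (α := Bool), Fintype.card_bool]
  have hbij : Function.Bijective ι := hι.bijective_of_nat_card_le (by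
    rw [Nat.card_eq_fintype_card, Fintype.card_coe]; omega)
  have hx : d * tau ∈ HB (F := F) i := by
    refine ⟨hdi, ?_⟩
    show mat (d * tau) *ᵥ vB = vB
    rw [mat_mul, ← Matrix.mulVec_mulVec, tau_fix, hfix d hd]
  obtain ⟨o, ho, hne⟩ := (elem_facts i hx).1
  obtain ⟨y, hy⟩ := hbij.2 ⟨matF om o, List.mem_toFinset.2 (List.mem_map.2 ⟨o, ho, rfl⟩)⟩
  refine hne y.1 (congrArg Subtype.val hy) ?_
  have hy' := y.2
  simp only [hD0] at hy'
  rw [mul_assoc d tau tau, tau_mul_self, mul_one]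
  exact hcomm d hd y.1 hy'.1

end Cfsg.Agent.H32.LargeFischer
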