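import Cfsg.Agent.H8.U62.Over

/-!
# The normalisers of the three subgroups
-/

set_option autoImplicit false
set_option linter.unusedSectionVars false
set_option maxRecDepth 20000
set_option maxHeartbeats 1000000

namespace Cfsg.Agent.H32.LargeFischer

open Matrix Cfsg.Agent.H8.U62 Cfsg.Agent.H8.U62.Setup

variable {F : Type} [Setup F]

/-- An element normalising one of the three subgroups lies in it or in its coset of `tau`. -/
theorem normalizer_sub {i : Fin 3} {g : SU6 F}
    (h : ∀ x ∈ sub (F := F) i, g * x * g⁻¹ ∈ sub (F := F) i) : g ∈ sub i ∨ g * tau ∈ sub i := by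
  have htt : (tau : SU6 F) * tau = 1 := tau_mul_self
  have hstab : ∀ {b u : SU6 F}, b ∈ sub i → u ∈ stab → b * u ∈ sub i ∨ b * u * tau ∈ sub i := by
    intro b u hb hu
    rcases stab_cases hu with hu | hu
    · exact Or.inl (mul_mem hb (monoE_le_sub i hu))
    · refine Or.inr (mul_assoc b u tau ▸ mul_mem hb ?_)
      have := tau_conj_sub i (monoE_le_sub i hu)
      rwa [← mul_assoc, htt, one_mul] at this
  obtain ⟨r, hr, m, hm, hfr⟩ := classify g
  have hu : (rep r)⁻¹ * (m⁻¹ * g) ∈ stab := by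
    have := fr_eq_iff_mem.1 hfr
    rwa [_root_.mul_inv_rev, mul_assoc] at this
  have hmi := monoE_le_sub i hm
  have hrep : ∀ x, x ∈ sub i → rep r * x * (rep r)⁻¹ ∈ sub (F := F) i := by
    intro x hx
    have hx' : ((rep r)⁻¹ * (m⁻¹ * g))⁻¹ * x * ((rep r)⁻¹ * (m⁻¹ * g)) ∈ sub (F := F) i := by
      simpa using stab_conj_sub i (inv_mem hu) hx
    have h2 := mul_mem (mul_mem (inv_mem hmi) (h _ hx')) hmi
    have e : m⁻¹ * (g * (((rep r)⁻¹ * (m⁻¹ * g))⁻¹ * x * ((rep r)⁻¹ * (m⁻¹ * g))) * g⁻¹) * m =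
        rep r * x * (rep r)⁻¹ := by group
    rwa [e] at h2
  have hfin : ∀ b : SU6 F, b ∈ sub i → b⁻¹ * rep r ∈ stab → g ∈ sub i ∨ g * tau ∈ sub i := by
    intro b hb hbr
    have e : g = m * b * (b⁻¹ * rep r * ((rep r)⁻¹ * (m⁻¹ * g))) := by group
    rw [e]
    exact hstab (mul_mem hmi hb) (mul_mem hbr hu)
  have hbound : ∀ {gens : List ℕ} {t : List (ℕ × ℕ)}, (∀ A ∈ gens, Real (sub (F := F) i) A) →
      treeOK gens t (repT.getD r 0) 113 = true → False := fun hg ht => by
    have hb := treeOK_bound (H := monoE) monoE_le_stab hg ht (u := rep r) (mat_rep hr)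
      (fun s hs => hrep s (monoE_le_sub i hs))
    rw [card_monoE, card_sub] at hb
    omega
  by_cases hr0 : r = 0
  · subst hr0
    exact hfin 1 (one_mem _) (by rw [rep_zero]; simp)
  rcases reps_cases hr0 hr with ⟨t, ht⟩ | hsmall
  · have hb := big_ok
    simp only [bigOK, List.all_eq_true] at hb
    exact (hbound (gens := genC) (t := t) (fun A hA => (real_genC A hA).mono (monoE_le_sub i)) (hb (r, t) ht)).elim
  · have hc := conj_ok
    simp only [conjOK, List.all_eq_true, Bool.and_eq_true, Bool.or_eq_true, List.any_eq_true, List.mem_range] at hc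
    obtain ⟨⟨hbig, hin⟩, hcov⟩ := hc
    rcases hcov r hsmall i.1 i.2 with ⟨q, hq, h1, h2⟩ | ⟨q, hq, h1, h2⟩
    · have := (hbig q hq).2
      rw [Nat.eq_of_beq_eq_true h1, Nat.eq_of_beq_eq_true h2] at this
      exact (hbound (real_subGenC i) this).elim
    · obtain ⟨⟨-, hk⟩, hmask⟩ := hin q hq
      rw [Nat.eq_of_beq_eq_true h1, Nat.eq_of_beq_eq_true h2] at hmask
      have hk' := Nat.le_of_ble_eq_true hk
      have hf : fr (rep r : SU6 F) = fr (subRep i ⟨q.2.2, hk'⟩) :=
        (fr_eq_iff (mat_rep hr) (mat_subRep i _)).2 (Nat.eq_of_beq_eq_true hmask)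
      exact hfin _ (subRep_mem (F := F) i ⟨q.2.2, hk'⟩) (fr_eq_iff_mem.1 hf)

end Cfsg.Agent.H32.LargeFischer
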