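import Cfsg.Agent.H84.LF.Main
import Cfsg.Agent.H8.U62.Final
import Cfsg.Agent.H32.LargeFischer.Long
import Cfsg.Agent.H32.LargeFischer.Normalizer

/-!
# The elements outside the subgroup of index two are semilinear
-/

set_option autoImplicit false
set_option linter.unusedSectionVars false
set_option maxHeartbeats 1000000

namespace Cfsg.Agent.H32.LargeFischer

open Matrix Cfsg.Agent.H8.U62 Cfsg.Agent.H8.U62.Setup Cfsg.Agent.H84.LF

variable {F : Type} [Setup F]

theorem four (x : F) : x * x * (x * x) = x := by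
  have h : x ^ 4 = x := by
    have h := FiniteField.pow_card x
    rwa [show Fintype.card F = 4 from Setup.card] at h
  linear_combination h

theorem cube_om : (om : F) * om * om = 1 := by
  have h := hom (F := F)
  linear_combination (om + 1) * h + om * two (F := F)

theorem herm_symm (u v : Fin 6 → F) : hermForm 6 F 2 v u = hermForm 6 F 2 u v * hermForm 6 F 2 u v := by
  show _ = sigmaF F (hermForm 6 F 2 u v)
  simp only [hermForm, map_sum]
  refine Finset.sum_congr rfl fun j _ => ?_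
  show _ = (u j * v j ^ 2) * (u j * v j ^ 2)
  linear_combination (-(u j) ^ 2) * four (v j)

theorem herm_self (v : Fin 6 → F) : hermForm 6 F 2 v v = 0 ∨ hermForm 6 F 2 v v = 1 := by
  have h := herm_symm v v
  rcases eq_or_ne (hermForm 6 F 2 v v) 0 with e | e
  · exact Or.inl e
  · exact Or.inr (mul_left_cancel₀ e (by rw [mul_one]; exact h.symm))

theorem herm_add (u v : Fin 6 → F) : hermForm 6 F 2 (u + v) (u + v) =
    hermForm 6 F 2 u u + hermForm 6 F 2 v v + hermForm 6 F 2 u v + hermForm 6 F 2 v u := by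
  simp only [hermForm, Pi.add_apply, ← Finset.sum_add_distrib]
  refine Finset.sum_congr rfl fun j _ => ?_
  linear_combination (u j + v j) * (u j * v j) * two (F := F)

theorem herm_smul (x : F) (u v : Fin 6 → F) : hermForm 6 F 2 (x • u) v = x * hermForm 6 F 2 u v := by
  simp [hermForm, Finset.mul_sum, mul_assoc]

/-- A linear map preserving isotropy preserves the form. -/
theorem herm_of_iso (L : (Fin 6 → F) →ₗ[F] (Fin 6 → F))
    (h : ∀ v, hermForm 6 F 2 (L v) (L v) = 0 ↔ hermForm 6 F 2 v v = 0) (u v : Fin 6 → F) :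
    hermForm 6 F 2 (L u) (L v) = hermForm 6 F 2 u v := by
  have key : ∀ w, hermForm 6 F 2 (L w) (L w) = hermForm 6 F 2 w w := fun w => by
    rcases herm_self w with e | e
    · rw [e]; exact (h w).2 e
    · rw [e]
      exact (herm_self (L w)).resolve_left fun e' => one_ne_zero (e.symm.trans ((h w).1 e'))
  have pol : ∀ u v, hermForm 6 F 2 (L u) (L v) + hermForm 6 F 2 (L u) (L v) * hermForm 6 F 2 (L u) (L v) =
      hermForm 6 F 2 u v + hermForm 6 F 2 u v * hermForm 6 F 2 u v := fun u v => by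
    have h1 := key (u + v)
    rw [map_add, herm_add, herm_add, key, key, herm_symm (L u) (L v), herm_symm u v] at h1
    linear_combination h1
  have h1 := pol u v
  have h2 := pol ((om : F) • u) v
  rw [map_smul, herm_smul, herm_smul] at h2
  have h3 := hom (F := F)
  linear_combination (om * om) * h1 - h2 +
    (hermForm 6 F 2 u v - hermForm 6 F 2 (L u) (L v)) * h3

theorem exists_scalar : ∃ w : SU6 F, mat w = (om : F) • (1 : Matrix (Fin 6) (Fin 6) F) := by
  have hd : ((om : F) • (1 : Matrix (Fin 6) (Fin 6) F)).det = 1 := by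
    rw [Matrix.det_smul, Matrix.det_one, mul_one, Fintype.card_fin]
    linear_combination ((om : F) * om * om + 1) * cube_om (F := F)
  refine ⟨⟨⟨_, hd⟩, H3.mem_SU_iff.2 fun u v => ?_⟩, rfl⟩
  show hermForm 6 F 2 (((om : F) • (1 : Matrix (Fin 6) (Fin 6) F)) *ᵥ u)
    (((om : F) • (1 : Matrix (Fin 6) (Fin 6) F)) *ᵥ v) = _
  rw [Matrix.smul_mulVec, Matrix.smul_mulVec, Matrix.one_mulVec, Matrix.one_mulVec]
  simp only [hermForm, Pi.smul_apply, smul_eq_mul]
  refine Finset.sum_congr rfl fun j _ => ?_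
  linear_combination (u j * v j ^ 2) * cube_om (F := F)

variable {G : Type*} [Group G] {z : G} {Q : Subgroup (Subgroup.centralizer ({z} : Set G))} [Q.Normal]
  (D : H84.LF.Model F z Q)

/-- The action of an element of the centralizer on the vectors. -/
noncomputable def act' (c : Subgroup.centralizer ({z} : Set G)) (v : Fin 6 → F) : Fin 6 → F :=
  D.φ (c * (D.φ_surj v).choose * c⁻¹)

theorem act'_eq {a : Subgroup.centralizer ({z} : Set G)} (ha : a ∈ Q) (c : Subgroup.centralizer ({z} : Set G)) :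
    act' D c (D.φ a) = D.φ (c * a * c⁻¹) :=
  D.φ_congr (D.φ_surj _).choose_spec.1 ha (D.φ_surj _).choose_spec.2 c

theorem act'_add (c : Subgroup.centralizer ({z} : Set G)) (u v : Fin 6 → F) :
    act' D c (u + v) = act' D c u + act' D c v := by
  have hn : Q.Normal := ‹_›
  obtain ⟨a, ha, rfl⟩ := D.φ_surj u
  obtain ⟨b, hb, rfl⟩ := D.φ_surj v
  rw [← D.φ_mul a ha b hb, act'_eq D (mul_mem ha hb), act'_eq D ha, act'_eq D hb,
    show c * (a * b) * c⁻¹ = (c * a * c⁻¹) * (c * b * c⁻¹) by group]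
  exact D.φ_mul _ (hn.conj_mem _ ha c) _ (hn.conj_mem _ hb c)

theorem act'_mul (c d : Subgroup.centralizer ({z} : Set G)) (v : Fin 6 → F) :
    act' D (c * d) v = act' D c (act' D d v) := by
  obtain ⟨a, ha, rfl⟩ := D.φ_surj v
  rw [act'_eq D ha, act'_eq D ha, act'_eq D (‹Q.Normal›.conj_mem _ ha d),
    show c * d * a * (c * d)⁻¹ = c * (d * a * d⁻¹) * c⁻¹ by group]

theorem act'_one (v : Fin 6 → F) : act' D 1 v = v := by
  obtain ⟨a, ha, rfl⟩ := D.φ_surj v
  rw [act'_eq D ha, one_mul, inv_one, mul_one]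

theorem act'_M (m : D.M) (v : Fin 6 → F) :
    act' D (m : Subgroup.centralizer ({z} : Set G)) v = mat (D.ρ m) *ᵥ v := by
  obtain ⟨a, ha, rfl⟩ := D.φ_surj v
  rw [act'_eq D ha]
  exact D.ρ_act m a ha

/-- An element acting trivially lies in `Q`. -/
theorem mem_Q_of_fix [Finite G] {e : Subgroup.centralizer ({z} : Set G)} (h : ∀ v, act' D e v = v) : e ∈ Q := by
  have hn : Q.Normal := ‹_›
  obtain ⟨e', he', ee⟩ := D.sing.mem_of_disp (a := (e : G)) (Model.coe_comm e) (fun q hq => by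
    obtain ⟨a, ha, rfl⟩ := hq
    refine (H18.mem_zpowers_iff_pair D.sing.xx _).2 ((D.φ_zero _ (mul_mem (inv_mem ha) (hn.conj_mem _ ha e))).1 ?_)
    rw [D.φ_mul _ (inv_mem ha) _ (hn.conj_mem _ ha e), ← act'_eq D ha, h, ← D.φ_mul _ (inv_mem ha) _ ha,
      inv_mul_cancel]
    exact (D.φ_zero 1 (one_mem _)).2 (Or.inl rfl))
  rwa [show e = e' from Subtype.ext ee.symm]

theorem fix_of_mem_Q {q : Subgroup.centralizer ({z} : Set G)} (hq : q ∈ Q) (v : Fin 6 → F) : act' D q v = v := by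
  obtain ⟨a, ha, rfl⟩ := D.φ_surj v
  have h1 := D.φ_mul _ hq _ (mul_mem ha (inv_mem hq))
  have h2 := D.φ_mul _ ha _ (inv_mem hq)
  have h3 := D.φ_mul _ hq _ (inv_mem hq)
  rw [mul_inv_cancel, (D.φ_zero 1 (one_mem _)).2 (Or.inl rfl)] at h3
  rw [act'_eq D ha, mul_assoc, h1, h2, add_left_comm, ← h3, add_zero]

theorem mat_ext_act {g h : SU6 F} (e : ∀ v, mat g *ᵥ v = mat h *ᵥ v) : g = h :=
  ext_mat (Matrix.ext_of_mulVec_single fun j => e _)

/-- A homomorphism giving the action has no image in `sub ∪ sub * tau`. -/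
theorem no_hom [Finite G] (Φ : Subgroup.centralizer ({z} : Set G) →* SU6 F)
    (hΦ : ∀ e v, mat (Φ e) *ᵥ v = act' D e v) (hin : ∀ e, Φ e ∈ sub D.i ∨ Φ e * tau ∈ sub D.i)
    (hF : Cfsg.IsOfLargeFischerTypeAt z Q) : False := by
  classical
  obtain ⟨⟨-, -, -, -, g, ⟨hq, hsQ⟩, hne⟩, -⟩ := hF
  let E := Q.map (Subgroup.centralizer ({z} : Set G)).subtype
  let E' := E.map (MulAut.conj g).toMonoidHom
  let s : (Subgroup.centralizer ({z} : Set G)) := ⟨g * z * g⁻¹, hq⟩
  obtain ⟨hz', hle, hc12⟩ := D.inter_facts (g := g) ⟨s, hsQ, rfl⟩ hne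
  have h' : H18.SingPt E' (s : G) := D.sing.conj g
  have hs2 : orderOf s = 2 := orderOf_eq_prime (Subtype.ext (by rw [pow_two]; exact h'.xx))
    fun e => h'.xne (by rw [e]; rfl)
  have h0 : D.φ s ≠ 0 := (D.involution hsQ hs2 hne).1
  obtain ⟨y, hy, hys⟩ := D.conj_in_long (g := g) hsQ rfl hne
  let K : Subgroup (Subgroup.centralizer ({z} : Set G)) := E'.subgroupOf (Subgroup.centralizer ({z} : Set G))
  have hKc : Nat.card K = 2 ^ 12 := by
    rw [← hc12]
    show Nat.card (E'.subgroupOf (Subgroup.centralizer ({z} : Set G))) = Nat.card (E' ⊓ Subgroup.centralizer ({z} : Set G) : Subgroup G)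
    rw [← Subgroup.inf_subgroupOf_right E' (Subgroup.centralizer ({z} : Set G)),
      Nat.card_congr (Subgroup.subgroupOfEquivOfLe (inf_le_right : E' ⊓ (Subgroup.centralizer ({z} : Set G)) ≤ (Subgroup.centralizer ({z} : Set G)))).toEquiv]
  have hΦQ : ∀ q ∈ Q, Φ q = 1 := fun q hq =>
    mat_ext_act fun v => by rw [hΦ, fix_of_mem_Q D hq, mat_one, Matrix.one_mulVec]
  have hΦs : ∀ k : (Subgroup.centralizer ({z} : Set G)), (k : G) ∈ Subgroup.zpowers (s : G) → Φ k = 1 := by
    intro k hk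
    rcases h'.pair hk with e | e
    · rw [show k = 1 from Subtype.ext e, map_one]
    · rw [show k = s from Subtype.ext e]; exact hΦQ s hsQ
  have hfixs : ∀ k ∈ K, mat (Φ k) *ᵥ D.φ s = D.φ s := by
    intro k hk
    rw [hΦ, act'_eq D hsQ]
    congr 1
    exact Subtype.ext (by
      show (k : G) * (s : G) * (k : G)⁻¹ = (s : G)
      exact mul_inv_eq_iff_eq_mul.2 (h'.comm_x _ hk))
  let T : Subgroup (SU6 F) := (K.map Φ).map (MulAut.conj y⁻¹).toMonoidHom
  have hT : ∀ d ∈ T, ∃ k ∈ K, d = y⁻¹ * Φ k * y := by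
    rintro _ ⟨_, ⟨k, hk, rfl⟩, rfl⟩
    exact ⟨k, hk, by simp⟩
  refine no_normal_thirtytwo D.i T ?_ ?_ ?_ ?_ ?_ ?_
  · intro d hd
    obtain ⟨k, hk, rfl⟩ := hT d hd
    rcases hin k with h | h
    · exact Or.inl (mul_mem (mul_mem (inv_mem hy) h) hy)
    · refine Or.inr ?_
      have := mul_mem (mul_mem (inv_mem hy) h) (tau_conj_sub D.i hy)
      rwa [show y⁻¹ * (Φ k * tau) * (tau * y * tau) = y⁻¹ * Φ k * y * tau by
        calc y⁻¹ * (Φ k * tau) * (tau * y * tau) = y⁻¹ * Φ k * (tau * tau) * y * tau := by group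
          _ = _ := by rw [tau_mul_self, mul_one]] at this
  · intro d hd
    obtain ⟨k, hk, rfl⟩ := hT d hd
    rw [mat_mul, mat_mul, ← Matrix.mulVec_mulVec, hys, ← Matrix.mulVec_mulVec, hfixs k hk, ← hys,
      Matrix.mulVec_mulVec, ← mat_mul, inv_mul_cancel, mat_one, Matrix.one_mulVec]
  · intro d hd
    obtain ⟨k, hk, rfl⟩ := hT d hd
    rw [show y⁻¹ * Φ k * y * (y⁻¹ * Φ k * y) = y⁻¹ * (Φ k * Φ k) * y by group, ← map_mul,
      hΦs (k * k) (h'.sq hk), mul_one, inv_mul_cancel]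
  · intro d hd d' hd'
    obtain ⟨k, hk, rfl⟩ := hT d hd
    obtain ⟨l, hl, rfl⟩ := hT d' hd'
    have hkl : Φ k * Φ l = Φ l * Φ k := by
      have h1 := hΦs (k * l * k⁻¹ * l⁻¹) (h'.comm hk hl)
      rw [map_mul, map_mul, map_mul, map_inv, map_inv] at h1
      exact mul_inv_eq_iff_eq_mul.1 (mul_inv_eq_one.1 h1)
    rw [show y⁻¹ * Φ k * y * (y⁻¹ * Φ l * y) = y⁻¹ * (Φ k * Φ l) * y by group, hkl]
    group
  · intro x hx d hd
    obtain ⟨k, hk, rfl⟩ := hT d hd
    obtain ⟨m, hm⟩ := (show y * x * y⁻¹ ∈ D.ρ.range from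
      D.ρ_range.symm ▸ mul_mem (mul_mem hy hx.1) (inv_mem hy))
    have hmΦ : Φ (m : (Subgroup.centralizer ({z} : Set G))) = D.ρ m := mat_ext_act fun v => by rw [hΦ, act'_M]
    have hfx : D.φ ((m : (Subgroup.centralizer ({z} : Set G))) * s * (m : (Subgroup.centralizer ({z} : Set G)))⁻¹) = D.φ s := by
      rw [D.ρ_act m s hsQ, hm, mat_mul, mat_mul, ← hys, ← Matrix.mulVec_mulVec, ← Matrix.mulVec_mulVec,
        Matrix.mulVec_mulVec _ (mat y⁻¹) (mat y), ← mat_mul, inv_mul_cancel, mat_one, Matrix.one_mulVec,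
        show mat x *ᵥ (vB : Fin 6 → F) = vB from hx.2]
    have hms := ‹Q.Normal›.conj_mem s hsQ m
    obtain ⟨q, hq', e⟩ := D.exists_conjQ hms (by rw [hfx]; exact h0) (D.eq_or_eq_mul hms hsQ hfx)
    have hcent : ((q * (m : (Subgroup.centralizer ({z} : Set G))) : (Subgroup.centralizer ({z} : Set G))) : G) * (s : G) = (s : G) * ((q * (m : (Subgroup.centralizer ({z} : Set G))) : (Subgroup.centralizer ({z} : Set G))) : G) := by
      have e' : (q : G) * (((m : (Subgroup.centralizer ({z} : Set G))) : G) * (s : G) * ((m : (Subgroup.centralizer ({z} : Set G))) : G)⁻¹) * (q : G)⁻¹ = (s : G) :=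
        congrArg Subtype.val e
      show (q : G) * ((m : (Subgroup.centralizer ({z} : Set G))) : G) * (s : G) = (s : G) * ((q : G) * ((m : (Subgroup.centralizer ({z} : Set G))) : G))
      conv_rhs => rw [← e']
      group
    have hk' : q * (m : (Subgroup.centralizer ({z} : Set G))) * k * (q * (m : (Subgroup.centralizer ({z} : Set G))))⁻¹ ∈ K := h'.norm _ hcent _ hk
    refine ⟨Φ (q * (m : (Subgroup.centralizer ({z} : Set G))) * k * (q * (m : (Subgroup.centralizer ({z} : Set G))))⁻¹), ⟨_, hk', rfl⟩, ?_⟩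
    show y⁻¹ * Φ (q * (m : (Subgroup.centralizer ({z} : Set G))) * k * (q * (m : (Subgroup.centralizer ({z} : Set G))))⁻¹) * y⁻¹⁻¹ = _
    rw [map_mul, map_mul, map_inv, map_mul, hΦQ q hq', one_mul, hmΦ, hm]
    simp [mul_assoc]
  · have hT' : Nat.card T = Nat.card (K.map Φ) := Subgroup.card_map_of_injective (MulEquiv.injective _)
    have hR : (Φ.comp K.subtype).range = K.map Φ := by rw [MonoidHom.range_comp, Subgroup.range_subtype]
    have hm := (Φ.comp K.subtype).ker.card_mul_index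
    rw [Subgroup.index_ker, hR, hKc] at hm
    let EE : Subgroup (Subgroup.centralizer ({z} : Set G)) := (E ⊓ E').subgroupOf (Subgroup.centralizer ({z} : Set G))
    have hcEE : Nat.card EE ≤ 2 ^ 7 := by
      rw [Nat.card_congr (Subgroup.subgroupOfEquivOfLe (show E ⊓ E' ≤ (Subgroup.centralizer ({z} : Set G)) from inf_le_left.trans (Subgroup.map_subtype_le Q))).toEquiv]
      exact hle
    have hker : Nat.card (Φ.comp K.subtype).ker ≤ 2 ^ 7 := by
      refine le_trans (Nat.card_le_card_of_injective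
        (fun k : (Φ.comp K.subtype).ker => (⟨(k.1 : (Subgroup.centralizer ({z} : Set G))), ?_, k.1.2⟩ : EE)) fun a b e => ?_) hcEE
      · refine ⟨(k.1 : (Subgroup.centralizer ({z} : Set G))), mem_Q_of_fix D fun v => ?_, rfl⟩
        rw [← hΦ, show Φ (k.1 : (Subgroup.centralizer ({z} : Set G))) = 1 from k.2, mat_one, Matrix.one_mulVec]
      · exact Subtype.ext (Subtype.ext (congrArg (fun t : EE => (t : (Subgroup.centralizer ({z} : Set G)))) e))
    rw [hT']
    nlinarith

/-- An element outside the subgroup of index two is semilinear on `Q` modulo its centre. -/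
theorem outer_anti [Finite G] (hF : Cfsg.IsOfLargeFischerTypeAt z Q) {c : Subgroup.centralizer ({z} : Set G)}
    (hc : c ∉ D.M) (x : F) {a b : Subgroup.centralizer ({z} : Set G)} (ha : a ∈ Q) (hb : b ∈ Q)
    (h : D.φ b = x • D.φ a) : D.φ (c * b * c⁻¹) = x ^ 2 • D.φ (c * a * c⁻¹) := by
  classical
  have hMn := D.Mn
  rw [← act'_eq D hb, ← act'_eq D ha, h]
  generalize D.φ a = v
  have hinv : ∀ v, act' D c⁻¹ (act' D c v) = v := fun v => by rw [← act'_mul, inv_mul_cancel, act'_one]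
  have hsurj : ∀ w, ∃ v, act' D c v = w := fun w => ⟨act' D c⁻¹ w, by rw [← act'_mul, mul_inv_cancel, act'_one]⟩
  have hzero : act' D c 0 = 0 := by
    have := act'_add D c 0 0
    rwa [add_zero, left_eq_add] at this
  have hconj : ∀ (m : D.M) (v : Fin 6 → F), act' D c (mat (D.ρ m) *ᵥ v) =
      mat (D.ρ ⟨c * m * c⁻¹, hMn.conj_mem _ m.2 c⟩) *ᵥ act' D c v := fun m v => by
    rw [← act'_M, ← act'_M, ← act'_mul, ← act'_mul, inv_mul_cancel_right]
  obtain ⟨w, hw⟩ := exists_scalar (F := F)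
  have hwv : ∀ v, mat w *ᵥ v = (om : F) • v := fun v => by rw [hw, Matrix.smul_mulVec, Matrix.one_mulVec]
  have hwc : w ∈ Subgroup.center (SU6 F) := Subgroup.mem_center_iff.2 fun g => ext_mat (by
    rw [mat_mul, mat_mul, hw, Matrix.mul_smul, Matrix.smul_mul, mul_one, one_mul])
  obtain ⟨mw, hmw⟩ := (show w ∈ D.ρ.range from D.ρ_range.symm ▸ center_le_sub D.i hwc)
  obtain ⟨yw, hyw⟩ : ∃ y, y = D.ρ ⟨c * mw * c⁻¹, hMn.conj_mem _ mw.2 c⟩ := ⟨_, rfl⟩
  have hyom : ∀ v, act' D c ((om : F) • v) = mat yw *ᵥ act' D c v := fun v => by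
    rw [hyw, ← hconj, hmw, hwv]
  have hyc : yw ∈ Subgroup.center (SU6 F) := by
    have hys : yw ∈ sub D.i := hyw ▸ D.rho_mem _
    have : (⟨yw, hys⟩ : sub D.i) ∈ Subgroup.center (sub D.i) := by
      refine Subgroup.mem_center_iff.2 fun ⟨t, ht⟩ => Subtype.ext (mat_ext_act fun u => ?_)
      obtain ⟨m', rfl⟩ := (show t ∈ D.ρ.range from D.ρ_range.symm ▸ ht)
      obtain ⟨u, rfl⟩ := hsurj u
      obtain ⟨m, rfl⟩ : ∃ m : D.M, m' = ⟨c * m * c⁻¹, hMn.conj_mem _ m.2 c⟩ :=
        ⟨⟨c⁻¹ * m' * c, by simpa using hMn.conj_mem _ m'.2 c⁻¹⟩, Subtype.ext (by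
          show (m' : Subgroup.centralizer ({z} : Set G)) = c * (c⁻¹ * m' * c) * c⁻¹
          group)⟩
      show mat (_ * yw) *ᵥ _ = mat (yw * _) *ᵥ _
      rw [mat_mul, mat_mul, ← Matrix.mulVec_mulVec, ← Matrix.mulVec_mulVec, ← hyom, ← hconj, ← hconj, ← hyom,
        Matrix.mulVec_smul]
    rw [center_le_center_sub] at this
    exact this
  have hw1 : w ≠ 1 := fun e => by
    have h1 := congrFun (hwv (Pi.single 0 1)) 0
    rw [e, mat_one, Matrix.one_mulVec] at h1
    simp at h1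
    exact om_ne_one h1.symm
  have hw3 : orderOf w = 3 := orderOf_eq_prime (ext_mat (by
    rw [pow_succ, pow_two, mat_mul, mat_mul, hw, mat_one]
    simp [smul_smul, ← mul_assoc, cube_om])) hw1
  have hpow : yw ∈ Subgroup.zpowers w := by
    rw [Subgroup.eq_of_le_of_card_ge (Subgroup.zpowers_le.2 hwc) (by rw [Nat.card_zpowers, hw3, card_center])]
    exact hyc
  obtain ⟨k, hk, hke⟩ : ∃ k < 3, w ^ k = yw := by
    obtain ⟨n, hn⟩ := hpow
    refine ⟨(n % 3).toNat, by omega, ?_⟩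
    rw [← zpow_natCast, Int.toNat_of_nonneg (by omega), show (3 : ℤ) = (orderOf w : ℤ) by rw [hw3]; rfl,
      zpow_mod_orderOf]
    exact hn
  interval_cases k
  · exfalso
    refine hw1 (mat_ext_act fun v => ?_)
    rw [hwv, mat_one, Matrix.one_mulVec]
    have h1 := congrArg (act' D c⁻¹) (hyom v)
    rwa [← hke, pow_zero, mat_one, Matrix.one_mulVec, hinv, hinv] at h1
  · exfalso
    have hlin : ∀ (t : F) (v : Fin 6 → F), act' D c (t • v) = t • act' D c v := by
      intro t v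
      have h1 : act' D c ((om : F) • v) = (om : F) • act' D c v := by rw [hyom, ← hke, pow_one, hwv]
      obtain ⟨p, q, rfl⟩ := exists_fe t
      cases p <;> cases q <;> simp [fe, bF, hzero, h1, act'_add, add_smul]
    let L : (Fin 6 → F) →ₗ[F] (Fin 6 → F) :=
      { toFun := act' D c, map_add' := act'_add D c, map_smul' := hlin }
    obtain ⟨A, hA⟩ : ∃ A, A = LinearMap.toMatrix' L := ⟨_, rfl⟩
    have hAv : ∀ v, A *ᵥ v = act' D c v := fun v => by rw [hA, LinearMap.toMatrix'_mulVec]; rfl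
    have hcc := Subgroup.mul_self_mem_of_index_two D.M2 c
    have hA2 : A * A = mat (D.ρ ⟨c * c, hcc⟩) := Matrix.ext_of_mulVec_single fun j => by
      rw [← Matrix.mulVec_mulVec, hAv, hAv, ← act'_mul, ← act'_M]
    have hdet : A.det = 1 := by
      have h1 := congrArg Matrix.det hA2
      rw [Matrix.det_mul, (D.ρ ⟨c * c, hcc⟩).1.2] at h1
      rcases mul_self_eq_one_iff.1 h1 with e | e
      · exact e
      · rw [e, neg_one]
    have hiso : ∀ u v, hermForm 6 F 2 (A *ᵥ u) (A *ᵥ v) = hermForm 6 F 2 u v := by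
      intro u v
      rw [hAv, hAv]
      refine herm_of_iso L (fun v => ?_) u v
      obtain ⟨a, ha, rfl⟩ := D.φ_surj v
      show hermForm 6 F 2 (act' D c _) (act' D c _) = 0 ↔ _
      rw [act'_eq D ha, D.φ_iso a ha, D.φ_iso _ (‹Q.Normal›.conj_mem _ ha c),
        show c * a * c⁻¹ * (c * a * c⁻¹) = c * (a * a) * c⁻¹ by group, conj_eq_one_iff]
    let gA : SU6 F := ⟨⟨A, hdet⟩, H3.mem_SU_iff.2 hiso⟩
    have hgA : ∀ v, mat gA *ᵥ v = act' D c v := hAv
    have hnorm : ∀ t ∈ sub (F := F) D.i, gA * t * gA⁻¹ ∈ sub D.i := by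
      intro t ht
      obtain ⟨m, rfl⟩ := (show t ∈ D.ρ.range from D.ρ_range.symm ▸ ht)
      have e : gA * D.ρ m = D.ρ ⟨c * m * c⁻¹, hMn.conj_mem _ m.2 c⟩ * gA := mat_ext_act fun v => by
        rw [mat_mul, mat_mul, ← Matrix.mulVec_mulVec, ← Matrix.mulVec_mulVec, hgA, hgA, hconj]
      rw [e, mul_inv_cancel_right]
      exact D.rho_mem _
    have hgnot : gA ∉ sub D.i := by
      intro hg
      obtain ⟨m, hm⟩ := (show gA ∈ D.ρ.range from D.ρ_range.symm ▸ hg)
      have he : (m : Subgroup.centralizer ({z} : Set G))⁻¹ * c ∈ Q := mem_Q_of_fix D fun v => by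
        rw [act'_mul, ← hgA, ← hm, ← act'_M, ← act'_mul, inv_mul_cancel, act'_one]
      exact hc (by simpa using mul_mem m.2 (D.QM he))
    have hgtau : gA * tau ∈ sub D.i := (normalizer_sub hnorm).resolve_left hgnot
    have hex : ∀ e, ∃ g : SU6 F, (∀ v, mat g *ᵥ v = act' D e v) ∧ (g ∈ sub D.i ∨ g * tau ∈ sub D.i) := by
      intro e
      by_cases he : e ∈ D.M
      · exact ⟨D.ρ ⟨e, he⟩, fun v => (act'_M D ⟨e, he⟩ v).symm, Or.inl (D.rho_mem _)⟩
      · have hce : c⁻¹ * e ∈ D.M :=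
          (Subgroup.mul_mem_iff_of_index_two D.M2).2 (by rw [inv_mem_iff]; exact iff_of_false hc he)
        refine ⟨gA * D.ρ ⟨c⁻¹ * e, hce⟩, fun v => ?_, Or.inr ?_⟩
        · rw [mat_mul, ← Matrix.mulVec_mulVec, hgA, ← act'_M, ← act'_mul, mul_inv_cancel_left]
        · have := mul_mem hgtau (tau_conj_sub D.i (D.rho_mem ⟨c⁻¹ * e, hce⟩))
          rwa [show gA * tau * (tau * D.ρ ⟨c⁻¹ * e, hce⟩ * tau) = gA * D.ρ ⟨c⁻¹ * e, hce⟩ * tau by
            calc gA * tau * (tau * D.ρ ⟨c⁻¹ * e, hce⟩ * tau) = gA * (tau * tau) * D.ρ ⟨c⁻¹ * e, hce⟩ * tau := by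
                  group
              _ = _ := by rw [tau_mul_self, mul_one]] at this
    choose f hf hfin using hex
    refine no_hom D (MonoidHom.mk' f fun p q => mat_ext_act fun v => ?_) hf hfin hF
    rw [hf, mat_mul, ← Matrix.mulVec_mulVec, hf, hf, act'_mul]
  · have h1 : ∀ v, act' D c ((om : F) • v) = ((om : F) * om) • act' D c v := fun v => by
      rw [hyom, ← hke, pow_two, mat_mul, ← Matrix.mulVec_mulVec, hwv, hwv, smul_smul]
    obtain ⟨p, q, rfl⟩ := exists_fe x
    cases p <;> cases q <;> simp [fe, bF, hzero, h1, act'_add, add_smul, pow_two]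
    rw [show ((1 : F) + om) * (1 + om) = 1 + om * om by linear_combination (om : F) * two (F := F), add_smul, one_smul]

end Cfsg.Agent.H32.LargeFischer
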