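import Cfsg.Agent.H8.LFT.FuseCheck
import Cfsg.Agent.H32.LargeFischer.Check
import Cfsg.Agent.H32.LargeFischer.PlaneData

/-!
# Checks on the plane of the elementary subgroup
-/

set_option autoImplicit false

namespace Cfsg.Agent.H32.LargeFischer

open Cfsg.Agent.H8.U62 Cfsg.Agent.H8.LFT

/-- The displacement of a code. -/
def dspC (A x : ℕ) : ℕ := Nat.xor (mvC A x) x

/-- All entries differ. -/
def distinctB : List ℕ → Bool
  | [] => true
  | a :: l => (l.all fun b => !(Nat.beq a b)) && distinctB l

/-- The displacements of a code are those of the sixteen listed vectors. -/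
def imgOK (A : ℕ) (pre : List ℕ) : Bool :=
  forceL (pre.map (dspC A)) fun im =>
    Nat.beq im.length 16 && distinctB im && force (maskL im) fun m =>
      (List.range 4096).all fun x => m.testBit (dspC A x)

/-- The displacement images of the involutions of the small list. -/
def eImgOK : Bool :=
  (List.range 16).all fun i => force (e16.getD i 0) fun A => Nat.beq A oneC || imgOK A (ePre.getD i [])

/-- The displacement images of the sixteen matrices. -/
def kImgOK : Bool :=
  Nat.beq (kL.getD 0 0) oneC && force (maskL wL) fun mW =>
    (List.range 16).all fun i => Nat.beq i 0 || force (kL.getD i 0) fun A =>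
      imgOK A (kPre.getD i []) && forceL ((kPre.getD i []).map (dspC A)) fun im => im.all fun y => mW.testBit y

/-- The list of the sixty four vectors. -/
def wOK : Bool :=
  Nat.beq wL.length 64 && distinctB wL && Nat.beq kL.length 16 && forceL (kL.map nrmC) distinctB &&
    force (maskL wL) fun mW =>
      mW.testBit 0 && mW.testBit 85 && mW.testBit 5 && mW.testBit 1280 &&
      (wL.all fun v => Nat.blt v 4096) &&
      ((List.range 4096).all fun v => mW.testBit v || kL.any fun A => !(Nat.beq (mvC A v) v))

/-- The counts of short vectors. -/
def shortOK : Bool :=
  force (maskL (orbL 0)) fun m => forceL (wL.filter fun x => m.testBit x) fun S =>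
    Nat.beq S.length 18 && S.all fun u =>
      forceL (S.filter fun x => m.testBit (Nat.xor u x)) fun T =>
        Nat.beq T.length 2 && T.all fun w => Nat.beq (T.filter fun x => m.testBit (Nat.xor w x)).length 1

/-- The incidences of short vectors and matrices. -/
def fiveOK : Bool :=
  force (maskL (orbL 0)) fun m => forceL (wL.filter fun x => m.testBit x) fun S =>
    forceL ((List.range 16).map fun i =>
      bif Nat.beq i 0 then 0 else maskL ((kPre.getD i []).map (dspC (kL.getD i 0)))) fun M =>
      S.all fun u =>
        Nat.beq ((List.range 16).filter fun i => (M.getD i 0).testBit u).length 5 &&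
        (List.range 16).all fun i => !((M.getD i 0).testBit u) ||
          S.all fun w => !(m.testBit (Nat.xor u w)) || (M.getD i 0).testBit w

/-- The fixers of the three vectors among the stabiliser of the long representative. -/
def kCoverOK : Bool :=
  forceL kL fun K =>
    (tTab.getD 0 []).all fun T => (sTab.getD 0 []).all fun S =>
      force (mmC T S) fun M =>
        !(Nat.beq (mvC M 5) 5) || !(Nat.beq (mvC M 1280) 1280) || K.any fun A => Nat.beq A M

/-- A word keeps the sixty four vectors. -/
def keepW (mW A : ℕ) : Bool := wL.all fun x => mW.testBit (mvC A x)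

/-- Transitivity on the fifteen matrices. -/
def kTrOK : Bool :=
  force (maskL wL) fun mW => force (kL.getD 1 0) fun k1 =>
    (List.range 16).all fun i => Nat.beq i 0 || force (genWord (kTr.getD i [])) fun g =>
      keepW mW g && force (mmC g k1) fun a => force (mmC (kL.getD i 0) g) fun b => Nat.beq a b

/-- The images of the three vectors under a word. -/
def actKey (g : ℕ) : ℕ :=
  Nat.lor (mvC g 85) (Nat.lor ((mvC g 5) <<< 12) ((mvC g 1280) <<< 24))

/-- Many actions on the sixty four vectors. -/
def bigOK : Bool :=
  force (maskL wL) fun mW =>
    Nat.beq bigW.length 96 && forceL (bigW.map genWord) fun L =>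
      (L.all fun g => keepW mW g) && forceL (L.map actKey) fun keys => distinctB keys

/-- Nonzero multiples and translates by the seed line. -/
def repExp (r : ℕ) : List ℕ :=
  [r, H8.U62.sW r, H8.U62.sW (H8.U62.sW r)].flatMap fun s => [0, 1365, H8.U62.sW 1365, H8.U62.sW (H8.U62.sW 1365)].map fun l => Nat.xor s l

/-- The totally singular planes through the short seed. -/
def planeOK : Bool :=
  forceL ((List.range 4096).filter fun v => orthC v 1365) fun P5 =>
    force (maskL (repR.flatMap repExp)) fun MR =>
      (P5.all fun v => !(orthC v v) || MR.testBit v || Nat.beq v 0 || Nat.beq v 1365 || Nat.beq v (H8.U62.sW 1365) ||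
        Nat.beq v (H8.U62.sW (H8.U62.sW 1365))) &&
      forceL (planeW.map fun w => force (genWord w) fun g => maskL (wL.map (mvC g))) fun PM =>
        forceL (repR.map fun r => maskL (P5.filter fun x => orthC x r)) fun pm =>
          (List.range repR.length).all fun b => (List.range repR.length).all fun c =>
            Nat.beq b c || !(orthC (repR.getD b 0) (repR.getD c 0)) ||
              force (Nat.land (pm.getD b 0) (pm.getD c 0)) fun X => PM.any fun P => Nat.beq P X

theorem eImg_ok : eImgOK = true := by decide +kernel

theorem kImg_ok : kImgOK = true := by decide +kernel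

theorem w_ok : wOK = true := by decide +kernel

theorem short_ok : shortOK = true := by decide +kernel

theorem five_ok : fiveOK = true := by decide +kernel

theorem kCover_ok : kCoverOK = true := by decide +kernel

theorem kTr_ok : kTrOK = true := by decide +kernel

theorem big_ok : bigOK = true := by decide +kernel

theorem plane_ok : planeOK = true := by decide +kernel

end Cfsg.Agent.H32.LargeFischer
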