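import Cfsg.Agent.H32.LargeFischer.DuadModel
import Cfsg.Agent.H32.LargeFischer.Long
import Cfsg.Agent.H32.LargeFischer.PlaneCheck

/-!
# The plane of the elementary subgroup and the sixteen matrices fixing it
-/

set_option autoImplicit false
set_option linter.unusedSectionVars false
set_option maxRecDepth 20000
set_option maxHeartbeats 1000000

namespace Cfsg.Agent.H32.LargeFischer

open Matrix Cfsg.Agent.H8.U62 Cfsg.Agent.H8.U62.Setup Cfsg.Agent.H8.LFT

variable {F : Type} [Setup F]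

theorem distinctB_sound : ∀ {l : List ℕ}, distinctB l = true → l.Nodup
  | [], _ => List.nodup_nil
  | a :: l, h => by
    simp only [distinctB, Bool.and_eq_true, List.all_eq_true, Bool.not_eq_true'] at h
    exact List.nodup_cons.2 ⟨fun e => Nat.ne_of_beq_eq_false (h.1 a e) rfl, distinctB_sound h.2⟩

/-- The sixty four vectors. -/
def W0 : Set (Fin 6 → F) := vecF (om : F) '' {v | v ∈ wL}

theorem w_facts : wL.length = 64 ∧ wL.Nodup ∧ kL.length = 16 ∧ (kL.map nrmC).Nodup ∧ 0 ∈ wL ∧ 85 ∈ wL ∧ 5 ∈ wL ∧ 1280 ∈ wL ∧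
    (∀ v ∈ wL, v < 4096) ∧ ∀ v < 4096, v ∈ wL ∨ ∃ A ∈ kL, mvC A v ≠ v := by
  have h := w_ok
  simp only [wOK, forceL_eq, force_eq, Bool.and_eq_true, testBit_maskL, List.all_eq_true, List.mem_range, Bool.or_eq_true,
    List.any_eq_true, Bool.not_eq_true'] at h
  obtain ⟨⟨⟨⟨h1, h2⟩, h3⟩, h4⟩, ⟨⟨⟨⟨h5, h6⟩, h7⟩, h8⟩, h9⟩, h10⟩ := h
  exact ⟨Nat.eq_of_beq_eq_true h1, distinctB_sound h2, Nat.eq_of_beq_eq_true h3, distinctB_sound h4, h5, h6, h7, h8,
    fun v hv => Nat.le_of_ble_eq_true (h9 v hv),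
    fun v hv => (h10 v hv).imp id fun ⟨A, hA, e⟩ => ⟨A, hA, Nat.ne_of_beq_eq_false e⟩⟩

theorem vecF_mem_W0 {v : ℕ} (hv : v < 4096) : vecF (om : F) v ∈ W0 ↔ v ∈ wL := by
  refine ⟨fun ⟨w, hw, e⟩ => ?_, fun h => ⟨v, h, rfl⟩⟩
  rwa [← code_inj (F := F) (w_facts.2.2.2.2.2.2.2.2.1 w hw) hv e]

theorem mem_W0_iff {x : Fin 6 → F} : x ∈ W0 ↔ ∃ v ∈ wL, vecF (om : F) v = x := Iff.rfl

theorem ncard_W0 : (W0 : Set (Fin 6 → F)).ncard = 64 := by
  rw [W0, ncard_image w_facts.2.1 w_facts.2.2.2.2.2.2.2.2.1, w_facts.1]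

theorem zero_mem_W0 : (0 : Fin 6 → F) ∈ W0 := ⟨0, w_facts.2.2.2.2.1, vecF_zero _ hom two⟩

theorem isShort_iff {v : ℕ} (hv : v < 4096) : IsShort (vecF (om : F) v) ↔ v ∈ orbL 0 := by
  constructor
  · rintro ⟨γ, hγ, e⟩
    obtain ⟨w, hw, e'⟩ := sub_smul_mem (F := F) 0 hγ _ (orbL_facts 0).2.2.1
    have e2 : vecF (om : F) w = vecF om v := e'.symm.trans e
    rwa [← code_inj (F := F) ((orbL_facts 0).2.2.2 w hw).1 hv e2]
  · exact fun h => exists_smul_eq 0 h

theorem mvC_lt (A v : ℕ) : mvC A v < 4096 := mvN_lt (om : GaloisField 2 2) hom two 6 A v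

theorem code_smul {g : SU6 F} {A : ℕ} (e : mat g = matF om A) (v : ℕ) :
    g • vecF (om : F) v = vecF om (mvC A v) := by
  rw [smul_def, e, vecF_mvC _ hom two]

/-- The sixteen matrices. -/
noncomputable def K0 : Subgroup (SU6 F) :=
  { carrier := {g | g ∈ sub 0 ∧ ∀ x ∈ (W0 : Set (Fin 6 → F)), g • x = x}
    one_mem' := ⟨one_mem _, fun x _ => one_smul _ x⟩
    mul_mem' := fun {a b} ha hb => ⟨mul_mem ha.1 hb.1, fun x hx => by rw [mul_smul, hb.2 x hx, ha.2 x hx]⟩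
    inv_mem' := fun {a} ha => ⟨inv_mem ha.1, fun x hx => by rw [inv_smul_eq_iff]; exact (ha.2 x hx).symm⟩ }

theorem mem_K0 {g : SU6 F} : g ∈ K0 ↔ g ∈ sub 0 ∧ ∀ x ∈ (W0 : Set (Fin 6 → F)), g • x = x := Iff.rfl

theorem K0_code {g : SU6 F} (hg : g ∈ K0) : ∃ i < 16, mat g = matF om (kL.getD i 0) := by
  obtain ⟨-, -, hKl, -, -, h85, h5, h1280, hlt, -⟩ := w_facts
  have hfix : ∀ v ∈ wL, mat g *ᵥ vecF (om : F) v = vecF om v := fun v hv => (mem_K0.1 hg).2 _ ⟨v, hv, rfl⟩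
  obtain ⟨T, hT, S, hS, hM⟩ := cover (F := F) 0 (x := g) ⟨(mem_K0.1 hg).1, hfix 85 h85⟩
  have hb : ∀ v ∈ wL, mvC (mmC T S) v = v := fun v hv => by
    refine code_inj (F := F) (mvC_lt _ _) (hlt v hv) ?_
    rw [vecF_mvC _ hom two, ← hM, hfix v hv]
  have h := kCover_ok
  simp only [kCoverOK, forceL_eq, force_eq, List.all_eq_true, Bool.or_eq_true, Bool.not_eq_true',
    List.any_eq_true] at h
  rcases h T hT S hS with (e | e) | ⟨A, hA, e⟩
  · exact absurd (hb 5 h5) (Nat.ne_of_beq_eq_false e)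
  · exact absurd (hb 1280 h1280) (Nat.ne_of_beq_eq_false e)
  · obtain ⟨i, hi, he⟩ := List.getElem_of_mem hA
    exact ⟨i, hKl ▸ hi, by rw [List.getD_eq_getElem _ _ hi, he, hM, Nat.eq_of_beq_eq_true e]⟩

theorem kL_inj {i j : ℕ} (hi : i < 16) (hj : j < 16)
    (e : matF (om : F) (kL.getD i 0) = matF om (kL.getD j 0)) : i = j := by
  obtain ⟨-, -, hl, hnd, -⟩ := w_facts
  have hi' : i < kL.length := hl ▸ hi
  have hj' : j < kL.length := hl ▸ hj
  have e' := code_col_eq e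
  rw [List.getD_eq_getElem _ _ hi', List.getD_eq_getElem _ _ hj'] at e'
  refine (hnd.getElem_inj_iff (hi := by simpa using hi') (hj := by simpa using hj')).1 ?_
  simpa using e'

/-- The codes are exactly the elements, if there are sixteen. -/
theorem K0_equiv (h16 : 16 ≤ Nat.card ↥(K0 (F := F))) :
    ∃ e : Fin 16 ≃ ↥(K0 (F := F)), (∀ i, mat (e i).1 = matF (om : F) (kL.getD i.1 0)) ∧ e 0 = 1 := by
  classical
  choose f hf hf' using fun g : ↥(K0 (F := F)) => K0_code g.2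
  let f' : ↥(K0 (F := F)) → Fin 16 := fun g => ⟨f g, hf g⟩
  have hinj : Function.Injective f' := fun a b e => Subtype.ext (ext_mat (by
    rw [hf' a, hf' b, show f a = f b from congrArg Fin.val e]))
  have hb : Function.Bijective f' := hinj.bijective_of_nat_card_le (by rw [Nat.card_fin]; exact h16)
  refine ⟨(Equiv.ofBijective f' hb).symm, fun i => ?_, ?_⟩
  · have := hf' ((Equiv.ofBijective f' hb).symm i)
    rwa [show f ((Equiv.ofBijective f' hb).symm i) = i.1 from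
      congrArg Fin.val ((Equiv.ofBijective f' hb).apply_symm_apply i)] at this
  · rw [Equiv.symm_apply_eq]
    refine Fin.ext ?_
    show 0 = f 1
    have h0 := kImg_ok
    simp only [kImgOK, Bool.and_eq_true] at h0
    have e1 : matF (om : F) (kL.getD (f 1) 0) = matF om (kL.getD 0 0) := by
      rw [← hf' 1, Nat.eq_of_beq_eq_true h0.1, matF_oneC _ hom two]
      exact mat_one
    exact (kL_inj (hf 1) (by norm_num) e1).symm

theorem dspC_lt {A x : ℕ} (hx : x < 4096) : dspC A x < 4096 :=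
  Nat.xor_lt_two_pow (n := 12) (mvC_lt A x) hx

theorem vecF_dspC {g : SU6 F} {A : ℕ} (e : mat g = matF om A) (x : ℕ) :
    vecF (om : F) (dspC A x) = g • vecF om x + vecF om x := by
  rw [dspC, vecF_xor _ hom two, code_smul e]

/-- What a check on the displacements says. -/
theorem imgOK_sound {g : SU6 F} {A : ℕ} {pre : List ℕ} (h : imgOK A pre = true) (hp : ∀ x ∈ pre, x < 4096)
    (e : mat g = matF om A) :
    dImg g = vecF (om : F) '' {v | v ∈ pre.map (dspC A)} ∧ (dImg g).ncard = 16 := by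
  simp only [imgOK, forceL_eq, force_eq, Bool.and_eq_true, testBit_maskL, List.all_eq_true, List.mem_range] at h
  obtain ⟨⟨hl, hd⟩, hall⟩ := h
  have heq : dImg g = vecF (om : F) '' {v | v ∈ pre.map (dspC A)} := by
    ext y
    constructor
    · rintro ⟨x, rfl⟩
      obtain ⟨v, hv, rfl⟩ := exists_vecF x
      exact ⟨dspC A v, hall v hv, vecF_dspC e v⟩
    · rintro ⟨v, hv, rfl⟩
      obtain ⟨x, -, rfl⟩ := List.mem_map.1 hv
      exact ⟨vecF om x, (vecF_dspC e x).symm⟩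
  refine ⟨heq, ?_⟩
  rw [heq, ncard_image (distinctB_sound hd) fun v hv => ?_, Nat.eq_of_beq_eq_true hl]
  obtain ⟨x, hx, rfl⟩ := List.mem_map.1 hv
  exact dspC_lt (hp x hx)

theorem pre_lt : (kPre.all fun l => l.all fun x => Nat.blt x 4096) = true ∧
    (ePre.all fun l => l.all fun x => Nat.blt x 4096) = true := by decide +kernel

theorem getD_lt {L : List (List ℕ)} (h : (L.all fun l => l.all fun x => Nat.blt x 4096) = true) (i : ℕ) :
    ∀ x ∈ L.getD i [], x < 4096 := by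
  intro x hx
  rw [List.getD_eq_getElem?_getD] at hx
  cases e : L[i]? with
  | none => simp [e] at hx
  | some l =>
    simp only [e, Option.getD_some] at hx
    simp only [List.all_eq_true] at h
    exact Nat.le_of_ble_eq_true (h l (List.mem_of_getElem? e) x hx)

/-- A displacement image in the first subgroup has sixteen elements. -/
theorem ncard_dImg {x : SU6 F} (hx : x ∈ sub 0) (h2 : x * x = 1) (h1 : x ≠ 1) : (dImg x).ncard = 16 := by
  obtain ⟨w, hw, i, hi, hm⟩ := conj_into_e16 hx h2 h1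
  have h := eImg_ok
  simp only [eImgOK, force_eq, List.all_eq_true, List.mem_range, Bool.or_eq_true] at h
  rcases h i hi with e | e
  · exfalso
    rw [Nat.eq_of_beq_eq_true e, matF_oneC _ hom two] at hm
    exact h1 (conj_eq_one_iff.1 (ext_mat (hm.trans mat_one.symm)))
  obtain ⟨-, hc⟩ := imgOK_sound e (getD_lt pre_lt.2 i) hm
  rw [← hc]
  have himg : dImg (w * x * w⁻¹) = (fun y => w • y) '' dImg x := by
    ext y
    constructor
    · rintro ⟨u, rfl⟩
      refine ⟨_, ⟨w⁻¹ • u, rfl⟩, ?_⟩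
      show w • (x • w⁻¹ • u + w⁻¹ • u) = (w * x * w⁻¹) • u + u
      rw [smul_add', smul_inv_smul, mul_smul, mul_smul]
    · rintro ⟨_, ⟨u, rfl⟩, rfl⟩
      refine ⟨w • u, ?_⟩
      show (w * x * w⁻¹) • w • u + w • u = w • (x • u + u)
      rw [smul_add', ← mul_smul (w * x * w⁻¹), inv_mul_cancel_right, mul_smul]
  rw [himg, Set.ncard_image_of_injective _ (MulAction.injective w)]

/-- The short vectors of the sixty four. -/
theorem short_set (p : (Fin 6 → F) → Prop) (p' : ℕ → Bool) (hpp : ∀ v ∈ wL, (p (vecF om v) ↔ p' v = true)) :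
    Set.ncard {x | x ∈ W0 ∧ IsShort x ∧ p x} =
      ((wL.filter fun v => (maskL (orbL 0)).testBit v).filter p').length := by
  obtain ⟨-, hnd, -, -, -, -, -, -, hlt, -⟩ := w_facts
  have e : {x | x ∈ W0 ∧ IsShort x ∧ p x} =
      vecF (om : F) '' {v | v ∈ (wL.filter fun v => (maskL (orbL 0)).testBit v).filter p'} := by
    ext x
    simp only [Set.mem_image, Set.mem_setOf_eq, List.mem_filter, testBit_maskL]
    constructor
    · rintro ⟨⟨v, hv, rfl⟩, hs, hp⟩
      exact ⟨v, ⟨⟨hv, (isShort_iff (hlt v hv)).1 hs⟩, (hpp v hv).1 hp⟩, rfl⟩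
    · rintro ⟨v, ⟨⟨hv, hs⟩, hp⟩, rfl⟩
      exact ⟨⟨v, hv, rfl⟩, (isShort_iff (hlt v hv)).2 hs, (hpp v hv).2 hp⟩
  rw [e, ncard_image ((hnd.filter _).filter _) fun v hv => hlt v (List.mem_of_mem_filter (List.mem_of_mem_filter hv))]

/-- Elements keeping the sixty four vectors. -/
def Keep (g : SU6 F) : Prop := g ∈ sub 0 ∧ ∀ x ∈ (W0 : Set (Fin 6 → F)), g • x ∈ (W0 : Set (Fin 6 → F))

theorem keep_of_word (w : List ℕ) (h : keepW (maskL wL) (genWord w) = true) :
    ∃ g : SU6 F, Keep g ∧ mat g = matF om (genWord w) := by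
  obtain ⟨g, hg, e⟩ := real_genWord (F := F) w
  refine ⟨g, ⟨hg, ?_⟩, e⟩
  simp only [keepW, List.all_eq_true, testBit_maskL] at h
  rintro _ ⟨v, hv, rfl⟩
  exact ⟨_, h v hv, (code_smul e v).symm⟩

theorem Keep.mul {a b : SU6 F} (ha : Keep a) (hb : Keep b) : Keep (a * b) :=
  ⟨mul_mem ha.1 hb.1, fun x hx => by rw [mul_smul]; exact ha.2 _ (hb.2 x hx)⟩

theorem Keep.inv {a : SU6 F} (ha : Keep a) : Keep a⁻¹ := by
  refine ⟨inv_mem ha.1, fun x hx => ?_⟩
  have hsurj : Set.SurjOn (fun y => a • y) W0 (W0 : Set (Fin 6 → F)) :=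
    ((Set.toFinite W0).injOn_iff_bijOn_of_mapsTo ha.2).1 ((MulAction.injective a).injOn) |>.surjOn
  obtain ⟨y, hy, e⟩ := hsurj hx
  rw [← show a • y = x from e, inv_smul_smul]
  exact hy

theorem Keep.conj {a : SU6 F} (ha : Keep a) : ∀ j ∈ K0, a * j * a⁻¹ ∈ K0 := fun j hj =>
  ⟨mul_mem (mul_mem ha.1 (mem_K0.1 hj).1) (inv_mem ha.1), fun x hx => by
    rw [mul_smul, mul_smul, (mem_K0.1 hj).2 _ (ha.inv.2 x hx), smul_inv_smul]⟩

/-- The sixty four vectors are all the common fixed vectors. -/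
theorem fix_K0 (h16 : 16 ≤ Nat.card ↥(K0 (F := F))) {x : Fin 6 → F} (hx : ∀ k ∈ K0 (F := F), k • x = x) : x ∈ W0 := by
  obtain ⟨e, he, -⟩ := K0_equiv (F := F) h16
  obtain ⟨v, hv, rfl⟩ := exists_vecF x
  rcases w_facts.2.2.2.2.2.2.2.2.2 v hv with h | ⟨A, hA, hne⟩
  · exact ⟨v, h, rfl⟩
  exfalso
  obtain ⟨i, hi, rfl⟩ := List.getElem_of_mem hA
  have hi' : i < 16 := w_facts.2.2.1 ▸ hi
  have hA' : mat (e ⟨i, hi'⟩).1 = matF (om : F) kL[i] := by
    rw [he]; exact congrArg _ (List.getD_eq_getElem _ _ hi)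
  exact hne (code_inj (F := F) (mvC_lt _ _) hv ((code_smul hA' v).symm.trans (hx _ (e ⟨i, hi'⟩).2)))

/-- All the counts. -/
theorem wcert (h16 : 16 ≤ Nat.card ↥(K0 (F := F))) : WCert (K0 (F := F)) W0 := by
  classical
  obtain ⟨e, he, he0⟩ := K0_equiv (F := F) h16
  obtain ⟨-, hnd, -, -, -, h85, h5, h1280, hlt, -⟩ := w_facts
  have hshort : ∀ u ∈ wL, IsShort (vecF (om : F) u) → u ∈ wL.filter fun v => (maskL (orbL 0)).testBit v :=
    fun u hu hs => List.mem_filter.2 ⟨hu, (testBit_maskL _ _).2 ((isShort_iff (hlt u hu)).1 hs)⟩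
  have hsum : ∀ u v, u ∈ wL → v ∈ wL →
      (IsShort (vecF (om : F) u + vecF om v) ↔ (maskL (orbL 0)).testBit (Nat.xor u v) = true) := fun u v hu hv => by
    rw [← vecF_xor _ hom two, isShort_iff (show Nat.xor u v < 4096 from Nat.xor_lt_two_pow (n := 12) (hlt u hu) (hlt v hv)), testBit_maskL]
  -- the images of the fifteen matrices
  have hk := kImg_ok
  simp only [kImgOK, force_eq, forceL_eq, Bool.and_eq_true, List.all_eq_true, List.mem_range, Bool.or_eq_true,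
    testBit_maskL] at hk
  have himg : ∀ k ∈ K0 (F := F), k ≠ 1 → ∃ i < 16, i ≠ 0 ∧ mat k = matF om (kL.getD i 0) ∧ (dImg k).ncard = 16 ∧
      dImg k = vecF (om : F) '' {v | v ∈ (kPre.getD i []).map (dspC (kL.getD i 0))} ∧
      ∀ v ∈ (kPre.getD i []).map (dspC (kL.getD i 0)), v ∈ wL := by
    intro k hk0 hk1
    obtain ⟨i, rfl⟩ : ∃ i, (e i).1 = k := ⟨e.symm ⟨k, hk0⟩, by rw [e.apply_symm_apply]⟩
    have hi0 : i.1 ≠ 0 := fun h => hk1 (by rw [show i = 0 from Fin.ext h, he0]; rfl)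
    obtain ⟨h1, h2⟩ := (hk.2 i.1 i.2).resolve_left fun h => hi0 (Nat.eq_of_beq_eq_true h)
    obtain ⟨h3, h4⟩ := imgOK_sound h1 (getD_lt pre_lt.1 i.1) (he i)
    exact ⟨i.1, i.2, hi0, he i, h4, h3, h2⟩
  have hdlt : ∀ i, ∀ v ∈ (kPre.getD i []).map (dspC (kL.getD i 0)), v < 4096 := by
    intro i v hv
    obtain ⟨x, hx, rfl⟩ := List.mem_map.1 hv
    exact dspC_lt (getD_lt pre_lt.1 i x hx)
  have hmem : ∀ i : Fin 16, i.1 ≠ 0 → ∀ u < 4096,
      (vecF (om : F) u ∈ dImg (e i).1 ↔ u ∈ (kPre.getD i.1 []).map (dspC (kL.getD i.1 0))) := by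
    intro i hi u hu
    obtain ⟨h1, -⟩ := (hk.2 i.1 i.2).resolve_left fun h => hi (Nat.eq_of_beq_eq_true h)
    rw [(imgOK_sound h1 (getD_lt pre_lt.1 i.1) (he i)).1]
    exact ⟨fun ⟨v, hv, ev⟩ => code_inj (F := F) (hdlt _ v hv) hu ev ▸ hv, fun h => ⟨u, h, rfl⟩⟩
  have hs := short_ok
  simp only [shortOK, force_eq, forceL_eq, Bool.and_eq_true, List.all_eq_true] at hs
  obtain ⟨hs18, hs⟩ := hs
  have hf := five_ok
  simp only [fiveOK, force_eq, forceL_eq, Bool.and_eq_true, List.all_eq_true, List.mem_range, Bool.or_eq_true,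
    Bool.not_eq_true'] at hf
  have hM : ∀ i < 16, ((List.range 16).map fun i => bif Nat.beq i 0 then 0 else
      maskL ((kPre.getD i []).map (dspC (kL.getD i 0)))).getD i 0 =
      bif Nat.beq i 0 then 0 else maskL ((kPre.getD i []).map (dspC (kL.getD i 0))) := fun i hi => by
    rw [List.getD_eq_getElem _ _ (by simpa using hi)]
    simp
  have hbit : ∀ i : Fin 16, ∀ u < 4096, ((((List.range 16).map fun i => bif Nat.beq i 0 then 0 else
      maskL ((kPre.getD i []).map (dspC (kL.getD i 0)))).getD i.1 0).testBit u = true ↔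
      (e i).1 ≠ 1 ∧ vecF (om : F) u ∈ dImg (e i).1) := by
    intro i u hu
    rw [hM i.1 i.2]
    by_cases hi : i.1 = 0
    · rw [show i = 0 from Fin.ext hi, he0]
      simp
    · rw [show Nat.beq i.1 0 = false from Bool.eq_false_iff.2 fun h => hi (Nat.eq_of_beq_eq_true h), cond_false,
        testBit_maskL, hmem i hi u hu]
      refine ⟨fun h => ⟨fun h1 => hi ?_, h⟩, fun h => h.2⟩
      have : e i = e 0 := by rw [he0]; exact Subtype.ext h1
      exact congrArg Fin.val (e.injective this)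
  refine
    { cardW := ncard_W0, zeroW := zero_mem_W0, s18 := ?_, pt := ?_, pt2 := ?_, img16 := ?_, imgW := ?_,
      five := ?_, pair := ?_, trans := ?_, big := ?_ }
  · have h := short_set (F := F) (fun _ => True) (fun _ => true) fun _ _ => by simp
    simp only [and_true] at h
    rw [h, List.filter_eq_self.2 fun _ _ => rfl, Nat.eq_of_beq_eq_true hs18]
  · rintro _ ⟨u, hu, rfl⟩ hus
    rw [short_set _ (fun v => (maskL (orbL 0)).testBit (Nat.xor u v)) fun v hv => hsum u v hu hv,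
      Nat.eq_of_beq_eq_true (hs u (hshort u hu hus)).1]
  · rintro _ ⟨u, hu, rfl⟩ _ ⟨w, hw, rfl⟩ hus hws huw
    have h := short_set (F := F) (fun x => IsShort (vecF om u + x) ∧ IsShort (vecF om w + x))
      (fun v => (maskL (orbL 0)).testBit (Nat.xor w v) && (maskL (orbL 0)).testBit (Nat.xor u v)) fun v hv => by
        rw [hsum u v hu hv, hsum w v hw hv, Bool.and_eq_true, and_comm]
    rw [h, ← List.filter_filter]
    exact Nat.eq_of_beq_eq_true ((hs u (hshort u hu hus)).2 w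
      (List.mem_filter.2 ⟨hshort w hw hws, (hsum u w hu hw).1 huw⟩))
  · intro k hk0 hk1
    exact (himg k hk0 hk1).choose_spec.2.2.2.1
  · intro k hk0 x hx
    by_cases hk1 : k = 1
    · obtain ⟨y, rfl⟩ := hx
      show k • y + y ∈ W0
      rw [hk1, one_smul, Model.add_self]
      exact zero_mem_W0
    · obtain ⟨i, -, -, -, -, heq, hin⟩ := himg k hk0 hk1
      rw [heq] at hx
      obtain ⟨v, hv, rfl⟩ := hx
      exact ⟨v, hin v hv, rfl⟩
  · rintro _ ⟨u, hu, rfl⟩ hus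
    have h5 := Nat.eq_of_beq_eq_true (hf u (hshort u hu hus)).1
    rw [← h5, ← List.toFinset_card_of_nodup (List.nodup_range.filter _), ← Set.ncard_coe_finset]
    refine Set.ncard_congr (fun k hk => (e.symm ⟨k, hk.1⟩).1) (fun k hk => ?_) (fun a b ha hb h => ?_) fun i hi => ?_
    · rw [Finset.mem_coe, List.mem_toFinset, List.mem_filter, List.mem_range]
      refine ⟨(e.symm ⟨k, hk.1⟩).2, (hbit _ u (hlt u hu)).2 ?_⟩
      rw [e.apply_symm_apply]
      exact hk.2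
    · exact congrArg Subtype.val (e.symm.injective (Fin.ext h))
    · rw [Finset.mem_coe, List.mem_toFinset, List.mem_filter, List.mem_range] at hi
      refine ⟨(e ⟨i, hi.1⟩).1, ⟨(e ⟨i, hi.1⟩).2, (hbit ⟨i, hi.1⟩ u (hlt u hu)).1 hi.2⟩, ?_⟩
      simp
  · rintro _ ⟨u, hu, rfl⟩ _ ⟨w, hw, rfl⟩ hus hws huw k hk0 hk1 hd
    obtain ⟨i, rfl⟩ : ∃ i, (e i).1 = k := ⟨e.symm ⟨k, hk0⟩, by rw [e.apply_symm_apply]⟩
    rcases (hf u (hshort u hu hus)).2 i.1 i.2 with h | h
    · exact absurd ((hbit i u (hlt u hu)).2 ⟨hk1, hd⟩) (by rw [h]; simp)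
    rcases h w (hshort w hw hws) with h | h
    · exact absurd ((hsum u w hu hw).1 huw) (by rw [h]; simp)
    exact ((hbit i w (hlt w hw)).1 h).2
  · have ht := kTr_ok
    simp only [kTrOK, force_eq, List.all_eq_true, List.mem_range, Bool.or_eq_true, Bool.and_eq_true] at ht
    have key : ∀ k ∈ K0 (F := F), k ≠ 1 → ∃ g, Keep g ∧ g * (e 1).1 * g⁻¹ = k := by
      intro k hk0 hk1
      obtain ⟨i, rfl⟩ : ∃ i, (e i).1 = k := ⟨e.symm ⟨k, hk0⟩, by rw [e.apply_symm_apply]⟩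
      have hi0 : i.1 ≠ 0 := fun h => hk1 (by rw [show i = 0 from Fin.ext h, he0]; rfl)
      obtain ⟨h1, h2⟩ := (ht i.1 i.2).resolve_left fun h => hi0 (Nat.eq_of_beq_eq_true h)
      obtain ⟨g, hg, hge⟩ := keep_of_word (F := F) _ h1
      refine ⟨g, hg, ?_⟩
      rw [mul_inv_eq_iff_eq_mul]
      refine ext_mat ?_
      rw [mat_mul, mat_mul, hge, he, he, show (((1 : Fin 16) : ℕ)) = 1 from rfl, ← matF_mmC _ hom two,
        Nat.eq_of_beq_eq_true h2, matF_mmC _ hom two]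
    intro k hk0 hk1 l hl0 hl1
    obtain ⟨g, hg, hge⟩ := key k hk0 hk1
    obtain ⟨g', hg', hge'⟩ := key l hl0 hl1
    refine ⟨g' * g⁻¹, (hg'.mul hg.inv).1, (hg'.mul hg.inv).conj, ?_⟩
    rw [← hge, ← hge']
    group
  · have hb := big_ok
    simp only [bigOK, force_eq, forceL_eq, Bool.and_eq_true, List.all_eq_true] at hb
    obtain ⟨hl, hkeep, hdist⟩ := hb
    have hlen := Nat.eq_of_beq_eq_true hl
    have hget : ∀ l : Fin 96, bigW.getD l.1 [] ∈ bigW := fun l => getD_mem (by rw [hlen]; exact l.2)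
    choose L hL hLe using fun l : Fin 96 => keep_of_word (F := F) _ (hkeep _ (List.mem_map.2 ⟨_, hget l, rfl⟩))
    refine ⟨96, L, by norm_num, fun l => ⟨(hL l).1, (hL l).conj⟩, fun l l' h => ?_⟩
    have hv : ∀ v ∈ wL, mvC (genWord (bigW.getD l.1 [])) v = mvC (genWord (bigW.getD l'.1 [])) v :=
      fun v hv => code_inj (F := F) (mvC_lt _ _) (mvC_lt _ _) (by
        rw [← code_smul (hLe l), ← code_smul (hLe l')]; exact h _ ⟨v, hv, rfl⟩)
    have hnd' := distinctB_sound hdist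
    have hl1 : l.1 < bigW.length := by rw [hlen]; exact l.2
    have hl2 : l'.1 < bigW.length := by rw [hlen]; exact l'.2
    refine Fin.ext ((hnd'.getElem_inj_iff (hi := by simpa using hl1) (hj := by simpa using hl2)).1 ?_)
    rw [List.getD_eq_getElem _ _ hl1, List.getD_eq_getElem _ _ hl2] at hv
    simp only [List.getElem_map, actKey, hv 85 h85, hv 5 h5, hv 1280 h1280]

end Cfsg.Agent.H32.LargeFischer
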