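import Mathlib
import Cfsg.Agent.S0363
import Cfsg.Agent.S0369
import Cfsg.Agent.S0407

/-!
# The twenty-four points of an elementary group of order 2^11 with a distinguished set of 276 elements
-/

set_option autoImplicit false
set_option linter.unusedSectionVars false
set_option maxHeartbeats 1000000

namespace Cfsg.Agent.H32.LargeFischer

open scoped Pointwise

variable {V : Type*} [AddCommGroup V] [Fintype V] [DecidableEq V]

/-- The elements of `P` moved into `P` by `z`. -/
def nbhd (P : Finset V) (z : V) : Finset V := P.filter fun t => t + z ∈ P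

/-- The common neighbours of two elements. -/
def common (P : Finset V) (t w : V) : Finset V := P.filter fun u => t + u ∈ P ∧ w + u ∈ P

/-- The data: a group of order 2^11, 276 elements, and the local structure at the remaining ones. -/
structure DuadConfig (P : Finset V) : Prop where
  two : ∀ x : V, x + x = 0
  cardV : Fintype.card V = 2048
  cardP : P.card = 276
  zero : (0 : V) ∉ P
  deg : ∀ t ∈ P, ∀ t' ∈ P, (P.filter fun w => t + w ∈ P).card = (P.filter fun w => t' + w ∈ P).card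
  nb36 : ∀ z, z ≠ 0 → z ∉ P → (nbhd P z).card = 36
  nb4 : ∀ z, z ≠ 0 → z ∉ P → ∀ t ∈ nbhd P z, ((nbhd P z).filter fun w => t + w ∈ P).card = 4
  closed : ∀ z, z ≠ 0 → z ∉ P → ∀ t ∈ nbhd P z, ∀ w ∈ nbhd P z, t + w ∈ P → t + w + z ∈ P
  com22 : ∀ z, z ≠ 0 → z ∉ P → ∀ t ∈ nbhd P z, ∀ w ∈ nbhd P z, t + w ∈ P → (common P t w).card = 22
  third : ∀ z, z ≠ 0 → z ∉ P → ∀ t ∈ nbhd P z, ∀ w ∈ nbhd P z, t + w ∈ P → ∀ u ∈ common P t w,
    u ∉ nbhd P z → t + w + u ∈ P ∨ t + w + z + u ∈ P

namespace DuadConfig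

variable {P : Finset V} (h : DuadConfig P)
include h

theorem add_self_left (x y : V) : x + (x + y) = y := by rw [← add_assoc, h.two, zero_add]

theorem eq_of_add_eq_zero {x y : V} (e : x + y = 0) : x = y := by
  calc x = x + y + y := by rw [add_assoc, h.two, add_zero]
    _ = y := by rw [e, zero_add]

theorem ne_of_adj {x y : V} (e : x + y ∈ P) : x ≠ y := fun he => h.zero (by rw [he, h.two] at e; exact e)

/-- The remaining elements. -/
abbrev rest (_ : DuadConfig P) : Finset V := Finset.univ.filter fun z => z ≠ 0 ∧ z ∉ P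

theorem mem_rest {z : V} : z ∈ h.rest ↔ z ≠ 0 ∧ z ∉ P := by simp

theorem card_rest : h.rest.card = 1771 := by
  have e : h.rest = (insert 0 P)ᶜ := by
    ext z
    simp [not_or]
  rw [e, Finset.card_compl, Finset.card_insert_of_notMem h.zero, h.cardV, h.cardP]

theorem adj_or {t w : V} (hne : t ≠ w) : t + w ∈ P ∨ t + w ∈ h.rest := by
  by_cases e : t + w ∈ P
  · exact Or.inl e
  · exact Or.inr (h.mem_rest.2 ⟨fun e0 => hne (h.eq_of_add_eq_zero e0), e⟩)

/-- The neighbours. -/
abbrev adj (_ : DuadConfig P) (t : V) : Finset V := P.filter fun w => t + w ∈ P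

/-- The `z` moving `t` inside `P`. -/
abbrev zs (h : DuadConfig P) (t : V) : Finset V := h.rest.filter fun z => t + z ∈ P

theorem card_zs_add {t : V} (ht : t ∈ P) : (h.zs t).card + (h.adj t).card = 275 := by
  have e : (h.zs t).card = ((P.erase t).filter fun w => ¬ t + w ∈ P).card := by
    refine Finset.card_nbij' (fun z => t + z) (fun w => t + w) (fun z hz => ?_) (fun w hw => ?_)
      (fun z _ => h.add_self_left t z) (fun w _ => h.add_self_left t w)
    · rw [Finset.mem_coe, Finset.mem_filter, h.mem_rest] at hz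
      simp only [Finset.coe_filter, Set.mem_setOf_eq, Finset.mem_erase, h.add_self_left]
      exact ⟨⟨fun e => hz.1.1 (by simpa using e), hz.2⟩, hz.1.2⟩
    · simp only [Finset.coe_filter, Set.mem_setOf_eq, Finset.mem_erase] at hw
      rw [Finset.mem_coe, Finset.mem_filter, h.mem_rest, h.add_self_left]
      exact ⟨⟨fun e => hw.1.1 (h.eq_of_add_eq_zero e).symm, hw.2⟩, hw.1.2⟩
  have e2 : h.adj t = (P.erase t).filter fun w => t + w ∈ P := by
    ext w
    simp only [Finset.mem_filter, Finset.mem_erase]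
    exact ⟨fun hw => ⟨⟨(h.ne_of_adj hw.2).symm, hw.1⟩, hw.2⟩, fun hw => ⟨hw.1.2, hw.2⟩⟩
  rw [e, e2, add_comm, Finset.card_filter_add_card_filter_not, Finset.card_erase_of_mem ht, h.cardP]

theorem card_adj {t : V} (ht : t ∈ P) : (h.adj t).card = 44 := by
  have hsum : ∑ u ∈ P, (h.zs u).card = 1771 * 36 := by
    rw [← h.card_rest]
    have e := Finset.sum_card_bipartiteAbove_eq_sum_card_bipartiteBelow (s := P) (t := h.rest)
      (fun u z => u + z ∈ P)
    refine e.trans ((Finset.sum_congr rfl fun z hz => ?_).trans (Finset.sum_const _))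
    exact h.nb36 z (h.mem_rest.1 hz).1 (h.mem_rest.1 hz).2
  have hc : ∀ u ∈ P, (h.zs u).card = (h.zs t).card := fun u hu => by
    have e1 := h.card_zs_add hu
    have e2 := h.card_zs_add ht
    have e3 : (h.adj u).card = (h.adj t).card := h.deg u hu t ht
    omega
  rw [Finset.sum_congr rfl hc, Finset.sum_const, h.cardP, smul_eq_mul] at hsum
  have := h.card_zs_add ht
  omega

/-- The `z` having both ends of an edge in their neighbourhood. -/
abbrev edgeZ (h : DuadConfig P) (t w : V) : Finset V := (h.zs t).filter fun z => w + z ∈ P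

theorem edgeZ_facts {t w : V} (ht : t ∈ P) (hw : w ∈ P) (e : t + w ∈ P) {z : V} (hz : z ∈ h.edgeZ t w) :
    z ≠ 0 ∧ z ∉ P ∧ t ∈ nbhd P z ∧ w ∈ nbhd P z ∧ t + w + z ∈ P := by
  simp only [Finset.mem_filter, h.mem_rest] at hz
  have h1 : t ∈ nbhd P z := Finset.mem_filter.2 ⟨ht, hz.1.2⟩
  have h2 : w ∈ nbhd P z := Finset.mem_filter.2 ⟨hw, hz.2⟩
  exact ⟨hz.1.1.1, hz.1.1.2, h1, h2, h.closed z hz.1.1.1 hz.1.1.2 t h1 w h2 e⟩

theorem third_mem {t w : V} (ht : t ∈ P) (hw : w ∈ P) (e : t + w ∈ P) {z : V} (hz : z ∈ h.edgeZ t w) :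
    t + w + z ∈ (common P t w).erase (t + w) := by
  obtain ⟨hz0, -, h1, h2, h3⟩ := h.edgeZ_facts ht hw e hz
  refine Finset.mem_erase.2 ⟨fun e' => hz0 (by simpa using e'), Finset.mem_filter.2 ⟨h3, ?_, ?_⟩⟩
  · rw [add_assoc, h.add_self_left]; exact (Finset.mem_filter.1 h2).2
  · rw [add_comm t w, add_assoc, h.add_self_left]; exact (Finset.mem_filter.1 h1).2

theorem self_mem_common {t w : V} (ht : t ∈ P) (hw : w ∈ P) (e : t + w ∈ P) : t + w ∈ common P t w :=
  Finset.mem_filter.2 ⟨e, by rwa [h.add_self_left], by rwa [add_comm t w, h.add_self_left]⟩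

theorem card_edgeZ_le {t w : V} (ht : t ∈ P) (hw : w ∈ P) (e : t + w ∈ P) : (h.edgeZ t w).card ≤ 21 := by
  rcases (h.edgeZ t w).eq_empty_or_nonempty with h0 | ⟨z, hz⟩
  · simp [h0]
  obtain ⟨hz0, hz1, h1, h2, -⟩ := h.edgeZ_facts ht hw e hz
  have h22 := h.com22 z hz0 hz1 t h1 w h2 e
  refine (Finset.card_le_card_of_injOn (fun z => t + w + z) (fun z hz => h.third_mem ht hw e hz)
    fun a _ b _ hab => add_left_cancel hab).trans (le_of_eq ?_)
  rw [Finset.card_erase_of_mem (h.self_mem_common ht hw e), h22]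

theorem card_edgeZ {t w : V} (ht : t ∈ P) (hw : w ∈ P) (e : t + w ∈ P) : (h.edgeZ t w).card = 21 := by
  have hsum : ∑ w ∈ h.adj t, (h.edgeZ t w).card = 44 * 21 := by
    have e' := Finset.sum_card_bipartiteAbove_eq_sum_card_bipartiteBelow (s := h.adj t) (t := h.zs t)
      (fun w z => w + z ∈ P)
    refine e'.trans ?_
    have h231 : (h.zs t).card = 231 := by have := h.card_zs_add ht; have := h.card_adj ht; omega
    rw [show 44 * 21 = (h.zs t).card * 4 by omega]
    refine (Finset.sum_congr rfl fun z hz => ?_).trans (Finset.sum_const _)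
    rw [Finset.mem_filter, h.mem_rest] at hz
    rw [← h.nb4 z hz.1.1 hz.1.2 t (Finset.mem_filter.2 ⟨ht, hz.2⟩)]
    congr 1
    ext w
    simp only [Finset.bipartiteBelow, Finset.mem_filter, nbhd]
    tauto
  refine (Finset.sum_eq_sum_iff_of_le fun w hw => ?_).1
    (hsum.trans (show 44 * 21 = ∑ _w ∈ h.adj t, 21 by rw [Finset.sum_const, h.card_adj ht, smul_eq_mul])) w
    (Finset.mem_filter.2 ⟨hw, e⟩)
  rw [Finset.mem_filter] at hw
  exact h.card_edgeZ_le ht hw.1 hw.2

theorem common_card {t w : V} (ht : t ∈ P) (hw : w ∈ P) (e : t + w ∈ P) : (common P t w).card = 22 := by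
  obtain ⟨z, hz⟩ := Finset.card_pos.1 (by rw [h.card_edgeZ ht hw e]; norm_num : 0 < (h.edgeZ t w).card)
  obtain ⟨hz0, hz1, h1, h2, -⟩ := h.edgeZ_facts ht hw e hz
  exact h.com22 z hz0 hz1 t h1 w h2 e

theorem exists_third {t w u : V} (ht : t ∈ P) (hw : w ∈ P) (e : t + w ∈ P) (hu : u ∈ common P t w)
    (hne : u ≠ t + w) : ∃ z ∈ h.edgeZ t w, t + w + z = u := by
  have hi : ((h.edgeZ t w).image fun z => t + w + z) = (common P t w).erase (t + w) := by
    refine Finset.eq_of_subset_of_card_le (fun x hx => ?_) ?_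
    · obtain ⟨z, hz, rfl⟩ := Finset.mem_image.1 hx
      exact h.third_mem ht hw e hz
    · rw [Finset.card_image_of_injective _ (add_right_injective _), h.card_edgeZ ht hw e,
        Finset.card_erase_of_mem (h.self_mem_common ht hw e), h.common_card ht hw e]
  exact Finset.mem_image.1 (hi.symm ▸ Finset.mem_erase.2 ⟨hne, hu⟩)

/-- No further element of `P` closes a plane on an edge. -/
theorem no_plane {t w u : V} (ht : t ∈ P) (hw : w ∈ P) (e : t + w ∈ P) (hu : u ∈ common P t w)
    (hne : u ≠ t + w) : t + w + u ∉ P := by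
  obtain ⟨z, hz, rfl⟩ := h.exists_third ht hw e hu hne
  rw [h.add_self_left]
  exact (h.edgeZ_facts ht hw e hz).2.1

theorem clique {t w u u' : V} (ht : t ∈ P) (hw : w ∈ P) (e : t + w ∈ P) (hu : u ∈ common P t w)
    (hu' : u' ∈ common P t w) (hne : u ≠ t + w) (hne' : u' ≠ t + w) (hd : u ≠ u') : u + u' ∈ P := by
  obtain ⟨z, hz, rfl⟩ := h.exists_third ht hw e hu hne
  obtain ⟨hz0, hz1, h1, h2, h3⟩ := h.edgeZ_facts ht hw e hz
  have hwz := (Finset.mem_filter.1 h2).2
  have htz := (Finset.mem_filter.1 h1).2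
  obtain ⟨hu'P, hu't, hu'w⟩ := Finset.mem_filter.1 hu'
  have hout : u' ∉ nbhd P z := by
    intro hin
    have hsub : ({w, w + z, t + w, t + w + z} : Finset V) ⊆ (nbhd P z).filter fun x => t + x ∈ P := by
      intro x hx
      simp only [Finset.mem_insert, Finset.mem_singleton] at hx
      have hh : ∀ a b : V, a + b + b = a := fun a b => by rw [add_assoc, h.two, add_zero]
      rcases hx with rfl | rfl | rfl | rfl <;> simp only [Finset.mem_filter, nbhd, hh, h.add_self_left, ← add_assoc]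
      · exact ⟨⟨hw, hwz⟩, e⟩
      · exact ⟨⟨hwz, hw⟩, h3⟩
      · exact ⟨⟨e, h3⟩, by simpa [h.two] using hw⟩
      · exact ⟨⟨h3, e⟩, by simpa [h.two] using hwz⟩
    have hcard : ({w, w + z, t + w, t + w + z} : Finset V).card = 4 := by
      have a1 : w ≠ w + z := fun e' => hz0 (by simpa using e'.symm)
      have a2 : w ≠ t + w := fun e' => h.zero (by rwa [show t = 0 by simpa using e'.symm] at ht)
      have a3 : w ≠ t + w + z := fun e' => by
        rw [add_comm t w, add_assoc] at e'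
        exact h.ne_of_adj htz (by have := h.eq_of_add_eq_zero (show t + z = 0 by simpa using e'.symm); exact this)
      have a4 : w + z ≠ t + w := fun e' => by
        rw [add_comm t w] at e'
        have : z = t := add_left_cancel e'
        exact h.ne_of_adj htz this.symm
      have a5 : w + z ≠ t + w + z := fun e' => a2 (add_right_cancel e')
      have a6 : t + w ≠ t + w + z := fun e' => hz0 (by simpa using e'.symm)
      simp [a1, a2, a3, a4, a5, a6]
    have heq := Finset.eq_of_subset_of_card_le hsub (by rw [hcard, h.nb4 z hz0 hz1 t h1])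
    have hmem : u' ∈ (nbhd P z).filter fun x => t + x ∈ P := Finset.mem_filter.2 ⟨hin, hu't⟩
    rw [← heq] at hmem
    simp only [Finset.mem_insert, Finset.mem_singleton] at hmem
    rcases hmem with rfl | rfl | rfl | rfl
    · exact h.ne_of_adj hu'w rfl
    · rw [h.add_self_left] at hu'w; exact hz1 hu'w
    · exact hne' rfl
    · exact hd rfl
  rcases h.third z hz0 hz1 t h1 w h2 e u' hu' hout with h' | h'
  · exact absurd h' (h.no_plane ht hw e hu' hne')
  · exact h'

/-- A star: 23 elements, pairwise adjacent, without three summing to zero. -/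
def IsStar (_ : DuadConfig P) (S : Finset V) : Prop :=
  S ⊆ P ∧ S.card = 23 ∧ ∀ x ∈ S, ∀ y ∈ S, x ≠ y → x + y ∈ P ∧ x + y ∉ S

/-- The star of an edge. -/
def starOf (_ : DuadConfig P) (t w : V) : Finset V := insert t (insert w ((common P t w).erase (t + w)))

theorem isStar_starOf {t w : V} (ht : t ∈ P) (hw : w ∈ P) (e : t + w ∈ P) : h.IsStar (h.starOf t w) := by
  set C := (common P t w).erase (t + w) with hC
  have hmem : ∀ u ∈ C, u ∈ P ∧ t + u ∈ P ∧ w + u ∈ P ∧ u ≠ t + w := fun u hu => by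
    obtain ⟨a, b⟩ := Finset.mem_erase.1 hu
    obtain ⟨c, d, f⟩ := Finset.mem_filter.1 b
    exact ⟨c, d, f, a⟩
  have hcl : ∀ u ∈ C, ∀ u' ∈ C, u ≠ u' → u + u' ∈ P := fun u hu u' hu' hd =>
    h.clique ht hw e (Finset.mem_erase.1 hu).2 (Finset.mem_erase.1 hu').2 (hmem u hu).2.2.2 (hmem u' hu').2.2.2 hd
  have hnp : ∀ u ∈ C, t + w + u ∉ P := fun u hu =>
    h.no_plane ht hw e (Finset.mem_erase.1 hu).2 (hmem u hu).2.2.2
  have hC' : ∀ x, x ∈ h.starOf t w ↔ x = t ∨ x = w ∨ x ∈ C := fun x => by simp [starOf, ← hC]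
  have h_tw : t + w ∉ h.starOf t w := by
    rw [hC']
    rintro (e' | e' | e')
    · exact h.zero (by rwa [show w = 0 by simpa using e'] at hw)
    · exact h.zero (by rwa [show t = 0 by simpa using e'] at ht)
    · exact (hmem _ e').2.2.2 rfl
  have h_tu : ∀ u ∈ C, t + u ∉ h.starOf t w := by
    intro u hu
    rw [hC']
    rintro (e' | e' | e')
    · exact h.zero (by have := (hmem u hu).1; rwa [show u = 0 by simpa using e'] at this)
    · exact (hmem u hu).2.2.2 (by rw [← e', h.add_self_left])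
    · have := hnp _ e'
      rw [show t + w + (t + u) = w + u by rw [add_add_add_comm, h.two, zero_add]] at this
      exact this (hmem u hu).2.2.1
  have h_wu : ∀ u ∈ C, w + u ∉ h.starOf t w := by
    intro u hu
    rw [hC']
    rintro (e' | e' | e')
    · exact (hmem u hu).2.2.2 (by rw [← e', add_comm (w + u) w, h.add_self_left])
    · exact h.zero (by have := (hmem u hu).1; rwa [show u = 0 by simpa using e'] at this)
    · have := hnp _ e'
      rw [show t + w + (w + u) = t + u by rw [add_assoc, h.add_self_left]] at this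
      exact this (hmem u hu).2.1
  refine ⟨fun x hx => ?_, ?_, fun x hx y hy hxy => ?_⟩
  · rcases (hC' x).1 hx with rfl | rfl | hx
    · exact ht
    · exact hw
    · exact (hmem x hx).1
  · have hcard : C.card = 21 := by
      rw [hC, Finset.card_erase_of_mem (h.self_mem_common ht hw e), h.common_card ht hw e]
    have hwC : w ∉ C := fun hh => h.ne_of_adj (hmem w hh).2.2.1 rfl
    have htC : t ∉ insert w C := fun hh => by
      rcases Finset.mem_insert.1 hh with rfl | hh
      · exact h.ne_of_adj e rfl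
      · exact h.ne_of_adj (hmem t hh).2.1 rfl
    show (insert t (insert w C)).card = 23
    rw [Finset.card_insert_of_notMem htC, Finset.card_insert_of_notMem hwC, hcard]
  · rcases (hC' x).1 hx with rfl | rfl | hx' <;> rcases (hC' y).1 hy with rfl | rfl | hy'
    · exact absurd rfl hxy
    · exact ⟨e, h_tw⟩
    · exact ⟨(hmem y hy').2.1, h_tu y hy'⟩
    · rw [add_comm]; exact ⟨e, h_tw⟩
    · exact absurd rfl hxy
    · exact ⟨(hmem y hy').2.2.1, h_wu y hy'⟩
    · rw [add_comm]; exact ⟨(hmem x hx').2.1, h_tu x hx'⟩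
    · rw [add_comm]; exact ⟨(hmem x hx').2.2.1, h_wu x hx'⟩
    · refine ⟨hcl x hx' y hy' hxy, fun hin => ?_⟩
      rcases (hC' _).1 hin with e' | e' | e'
      · exact h_tu x hx' ((hC' _).2 (Or.inr (Or.inr (by rwa [← e', add_comm (x + y) x, h.add_self_left]))))
      · exact h_wu x hx' ((hC' _).2 (Or.inr (Or.inr (by rwa [← e', add_comm (x + y) x, h.add_self_left]))))
      · -- the edge from `t` to `x` has no plane
        have hy1 : y ∈ common P t x := Finset.mem_filter.2 ⟨(hmem y hy').1, (hmem y hy').2.1, hcl x hx' y hy' hxy⟩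
        have hne : y ≠ t + x := fun e'' => h_tu x hx' (e'' ▸ hy)
        exact h.no_plane ht (hmem x hx').1 (hmem x hx').2.1 hy1 hne (by rw [add_assoc]; exact (hmem _ e').2.1)

theorem star_eq {S : Finset V} (hS : h.IsStar S) {x y : V} (hx : x ∈ S) (hy : y ∈ S) (hxy : x ≠ y) :
    S = h.starOf x y := by
  obtain ⟨hP, hcard, hS⟩ := hS
  refine Finset.eq_of_subset_of_card_le (fun u hu => ?_) ?_
  · simp only [starOf, Finset.mem_insert, Finset.mem_erase, common, Finset.mem_filter]
    by_cases h1 : u = x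
    · exact Or.inl h1
    by_cases h2 : u = y
    · exact Or.inr (Or.inl h2)
    exact Or.inr (Or.inr ⟨fun e => (hS x hx y hy hxy).2 (e ▸ hu), hP hu, (hS x hx u hu (Ne.symm h1)).1,
      (hS y hy u hu (Ne.symm h2)).1⟩)
  · rw [hcard, (h.isStar_starOf (hP hx) (hP hy) (hS x hx y hy hxy).1).2.1]

theorem star_inj {S T : Finset V} (hS : h.IsStar S) (hT : h.IsStar T) {x y : V} (hx : x ∈ S) (hy : y ∈ S)
    (hx' : x ∈ T) (hy' : y ∈ T) (hxy : x ≠ y) : S = T :=
  (h.star_eq hS hx hy hxy).trans (h.star_eq hT hx' hy' hxy).symm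

open Classical in
/-- The points. -/
noncomputable def pts (h : DuadConfig P) : Finset (Finset V) := Finset.univ.filter h.IsStar

theorem mem_pts {S : Finset V} : S ∈ h.pts ↔ h.IsStar S := by
  classical
  simp [pts]

theorem mem_left_starOf (t w : V) : t ∈ h.starOf t w := Finset.mem_insert_self _ _

theorem mem_right_starOf (t w : V) : w ∈ h.starOf t w := Finset.mem_insert_of_mem (Finset.mem_insert_self _ _)

theorem card_through {t : V} (ht : t ∈ P) : (h.pts.filter fun S => t ∈ S).card = 2 := by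
  classical
  have e : (h.adj t).card = ∑ S ∈ h.pts.filter (fun S => t ∈ S), (S.erase t).card := by
    rw [← Finset.card_biUnion]
    · congr 1
      ext w
      simp only [Finset.mem_biUnion, Finset.mem_filter, Finset.mem_erase, h.mem_pts]
      constructor
      · rintro ⟨hw, e⟩
        exact ⟨h.starOf t w, ⟨h.isStar_starOf ht hw e, h.mem_left_starOf t w⟩, (h.ne_of_adj e).symm,
          h.mem_right_starOf t w⟩
      · rintro ⟨S, ⟨hS, htS⟩, hne, hwS⟩
        exact ⟨hS.1 hwS, (hS.2.2 t htS w hwS (Ne.symm hne)).1⟩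
    · intro S hS T hT hne
      rw [Finset.mem_coe, Finset.mem_filter, h.mem_pts] at hS hT
      rw [Function.onFun, Finset.disjoint_left]
      intro w hw hw'
      rw [Finset.mem_erase] at hw hw'
      exact hne (h.star_inj hS.1 hT.1 hS.2 hw.2 hT.2 hw'.2 (Ne.symm hw.1))
  have e22 : ∀ S ∈ h.pts.filter (fun S => t ∈ S), (S.erase t).card = 22 := fun S hS => by
    rw [Finset.mem_filter, h.mem_pts] at hS
    rw [Finset.card_erase_of_mem hS.2, hS.1.2.1]
  rw [h.card_adj ht, Finset.sum_congr rfl e22, Finset.sum_const, smul_eq_mul] at e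
  omega

theorem card_pts : h.pts.card = 24 := by
  classical
  have e := Finset.sum_card_bipartiteAbove_eq_sum_card_bipartiteBelow (s := h.pts) (t := P) (fun S t => t ∈ S)
  have e1 : ∀ S ∈ h.pts, (Finset.bipartiteAbove (fun S t => t ∈ S) P S).card = 23 := fun S hS => by
    rw [h.mem_pts] at hS
    rw [show Finset.bipartiteAbove (fun S t => t ∈ S) P S = S from ?_, hS.2.1]
    ext t
    simp only [Finset.bipartiteAbove, Finset.mem_filter]
    exact ⟨And.right, fun ht => ⟨hS.1 ht, ht⟩⟩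
  have e2 : ∀ t ∈ P, (Finset.bipartiteBelow (fun S t => t ∈ S) h.pts t).card = 2 := fun t ht => h.card_through ht
  rw [Finset.sum_congr rfl e1, Finset.sum_const, Finset.sum_congr rfl e2,
    Finset.sum_const, h.cardP, smul_eq_mul, smul_eq_mul] at e
  omega

theorem exists_meet {S T : Finset V} (hS : S ∈ h.pts) (hT : T ∈ h.pts) (hne : S ≠ T) : ∃ t, t ∈ S ∧ t ∈ T := by
  classical
  have himg : P.image (fun t => h.pts.filter fun S => t ∈ S) = Finset.powersetCard 2 h.pts := by
    refine Finset.eq_of_subset_of_card_le (fun A hA => ?_) ?_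
    · obtain ⟨t, ht, rfl⟩ := Finset.mem_image.1 hA
      exact Finset.mem_powersetCard.2 ⟨Finset.filter_subset _ _, h.card_through ht⟩
    · rw [Finset.card_image_of_injOn, Finset.card_powersetCard, h.card_pts, h.cardP]
      · decide
      · intro t ht t' _ e
        obtain ⟨S₁, S₂, hd, e'⟩ := Finset.card_eq_two.1 (h.card_through (Finset.mem_coe.1 ht))
        have m1 : S₁ ∈ h.pts.filter fun S => t ∈ S := by rw [e']; simp
        have m2 : S₂ ∈ h.pts.filter fun S => t ∈ S := by rw [e']; simp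
        have e2 : (h.pts.filter fun S => t ∈ S) = h.pts.filter fun S => t' ∈ S := e
        have n1 := e2 ▸ m1
        have n2 := e2 ▸ m2
        rw [Finset.mem_filter, h.mem_pts] at m1 m2 n1 n2
        by_contra hne'
        exact hd (h.star_inj m1.1 m2.1 m1.2 n1.2 m2.2 n2.2 hne')
  have hmem : ({S, T} : Finset (Finset V)) ∈ Finset.powersetCard 2 h.pts :=
    Finset.mem_powersetCard.2 ⟨by simp [Finset.insert_subset_iff, hS, hT], Finset.card_pair hne⟩
  rw [← himg] at hmem
  obtain ⟨t, -, e⟩ := Finset.mem_image.1 hmem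
  have a : S ∈ h.pts.filter fun S => t ∈ S := by rw [e]; simp
  have b : T ∈ h.pts.filter fun S => t ∈ S := by rw [e]; simp
  exact ⟨t, (Finset.mem_filter.1 a).2, (Finset.mem_filter.1 b).2⟩

/-- The type of points. -/
abbrev Pt (h : DuadConfig P) : Type _ := ↥h.pts

open Classical in
/-- The element on two points. -/
noncomputable def pr (h : DuadConfig P) (a b : h.Pt) : V :=
  if hab : a = b then 0 else (h.exists_meet a.2 b.2 fun e => hab (Subtype.ext e)).choose

theorem pr_self (a : h.Pt) : h.pr a a = 0 := dif_pos rfl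

theorem pr_mem {a b : h.Pt} (hab : a ≠ b) : h.pr a b ∈ a.1 ∧ h.pr a b ∈ b.1 := by
  rw [pr, dif_neg hab]
  exact (h.exists_meet a.2 b.2 fun e => hab (Subtype.ext e)).choose_spec

theorem pr_memP {a b : h.Pt} (hab : a ≠ b) : h.pr a b ∈ P := (h.mem_pts.1 a.2).1 (h.pr_mem hab).1

theorem pr_eq {a b : h.Pt} (hab : a ≠ b) {t : V} (ha : t ∈ a.1) (hb : t ∈ b.1) : h.pr a b = t := by
  by_contra hne
  exact hab (Subtype.ext (h.star_inj (h.mem_pts.1 a.2) (h.mem_pts.1 b.2) (h.pr_mem hab).1 ha (h.pr_mem hab).2 hb hne))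

theorem pr_comm (a b : h.Pt) : h.pr a b = h.pr b a := by
  by_cases hab : a = b
  · rw [hab]
  · exact h.pr_eq hab (h.pr_mem (Ne.symm hab)).2 (h.pr_mem (Ne.symm hab)).1

theorem only_two {t : V} {a b c : h.Pt} (hab : a ≠ b) (ha : t ∈ a.1) (hb : t ∈ b.1) (hc : t ∈ c.1) :
    c = a ∨ c = b := by
  classical
  have hsub : ({a.1, b.1} : Finset (Finset V)) ⊆ h.pts.filter fun S => t ∈ S := by
    intro S hS
    simp only [Finset.mem_insert, Finset.mem_singleton] at hS
    rcases hS with rfl | rfl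
    · exact Finset.mem_filter.2 ⟨a.2, ha⟩
    · exact Finset.mem_filter.2 ⟨b.2, hb⟩
  have e := Finset.eq_of_subset_of_card_le hsub (by
    rw [h.card_through ((h.mem_pts.1 a.2).1 ha), Finset.card_pair (fun e => hab (Subtype.ext e))])
  have : c.1 ∈ h.pts.filter fun S => t ∈ S := Finset.mem_filter.2 ⟨c.2, hc⟩
  rw [← e] at this
  simp only [Finset.mem_insert, Finset.mem_singleton] at this
  rcases this with e' | e'
  · exact Or.inl (Subtype.ext e')
  · exact Or.inr (Subtype.ext e')

theorem pr_add_mem {a b c : h.Pt} (hab : a ≠ b) (hac : a ≠ c) (hbc : b ≠ c) :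
    h.pr a b + h.pr a c ∈ b.1 := by
  obtain ⟨hxa, hxb⟩ := h.pr_mem hab
  obtain ⟨hya, hyc⟩ := h.pr_mem hac
  have hxy : h.pr a b ≠ h.pr a c := fun e => by
    rcases h.only_two hab hxa hxb (e ▸ hyc) with r | r
    · exact hac r.symm
    · exact hbc r.symm
  obtain ⟨hP, hnot⟩ := (h.mem_pts.1 a.2).2.2 _ hxa _ hya hxy
  have hxP := h.pr_memP hab
  have hadj : h.pr a b + (h.pr a b + h.pr a c) ∈ P := by rw [h.add_self_left]; exact h.pr_memP hac
  let S : h.Pt := ⟨_, h.mem_pts.2 (h.isStar_starOf hxP hP hadj)⟩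
  rcases h.only_two (c := S) hab hxa hxb (h.mem_left_starOf _ _) with r | r
  · exact absurd ((congrArg Subtype.val r).subset (h.mem_right_starOf _ _)) hnot
  · exact (congrArg Subtype.val r).subset (h.mem_right_starOf _ _)

theorem pr_add (a b c : h.Pt) : h.pr a b + h.pr a c = h.pr b c := by
  by_cases hbc : b = c
  · subst hbc; rw [h.two, h.pr_self]
  by_cases hab : a = b
  · subst hab; rw [h.pr_self, zero_add]
  by_cases hac : a = c
  · subst hac; rw [h.pr_self, add_zero, h.pr_comm]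
  exact (h.pr_eq hbc (h.pr_add_mem hab hac hbc) (add_comm (h.pr a b) _ ▸ h.pr_add_mem hac hab (Ne.symm hbc))).symm

/-- The sum over a set of points, relative to a base point. -/
noncomputable def sm (h : DuadConfig P) (o : h.Pt) (T : Finset h.Pt) : V := ∑ a ∈ T, h.pr o a

theorem sm_four (o : h.Pt) {a b c d : h.Pt} (hab : a ≠ b) (hac : a ≠ c) (had : a ≠ d) (hbc : b ≠ c) (hbd : b ≠ d)
    (hcd : c ≠ d) : h.sm o {a, b, c, d} = h.pr a b + h.pr c d := by
  rw [sm, Finset.sum_insert (by simp [hab, hac, had]), Finset.sum_insert (by simp [hbc, hbd]), Finset.sum_pair hcd,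
    h.pr_add, ← add_assoc, h.pr_add]

theorem adj_meet {a b c d : h.Pt} (hab : a ≠ b) (hcd : c ≠ d) (e : h.pr a b + h.pr c d ∈ P) :
    c = a ∨ c = b ∨ d = a ∨ d = b := by
  let S : h.Pt := ⟨_, h.mem_pts.2 (h.isStar_starOf (h.pr_memP hab) (h.pr_memP hcd) e)⟩
  have m1 : h.pr a b ∈ S.1 := h.mem_left_starOf _ _
  have m2 : h.pr c d ∈ S.1 := h.mem_right_starOf _ _
  rcases h.only_two hab (h.pr_mem hab).1 (h.pr_mem hab).2 m1 with r | r <;>
    rcases h.only_two hcd (h.pr_mem hcd).1 (h.pr_mem hcd).2 m2 with r' | r'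
  · exact Or.inl (r'.symm.trans r)
  · exact Or.inr (Or.inr (Or.inl (r'.symm.trans r)))
  · exact Or.inr (Or.inl (r'.symm.trans r))
  · exact Or.inr (Or.inr (Or.inr (r'.symm.trans r)))

theorem pr_inj {a b c d : h.Pt} (hab : a ≠ b) (hcd : c ≠ d) (e : h.pr a b = h.pr c d) :
    (a = c ∨ a = d) ∧ (b = c ∨ b = d) :=
  ⟨h.only_two hcd (h.pr_mem hcd).1 (h.pr_mem hcd).2 (e ▸ (h.pr_mem hab).1),
    h.only_two hcd (h.pr_mem hcd).1 (h.pr_mem hcd).2 (e ▸ (h.pr_mem hab).2)⟩

theorem four_mem_rest (o : h.Pt) {T : Finset h.Pt} (hT : T.card = 4) : h.sm o T ∈ h.rest := by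
  obtain ⟨a, b, c, d, hab, hac, had, hbc, hbd, hcd, rfl⟩ := Finset.card_eq_four.1 hT
  rw [h.sm_four o hab hac had hbc hbd hcd]
  refine (h.adj_or fun e => ?_).resolve_left fun e => ?_
  · rcases (h.pr_inj hab hcd e).1 with r | r
    · exact hac r
    · exact had r
  · rcases h.adj_meet hab hcd e with r | r | r | r
    · exact hac r.symm
    · exact hbc r.symm
    · exact had r.symm
    · exact hbd r.symm

theorem exists_abcd {T : Finset h.Pt} (hT : T.card = 4) {a b : h.Pt} (ha : a ∈ T) (hb : b ∈ T) (hab : a ≠ b) :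
    ∃ c d, a ≠ c ∧ a ≠ d ∧ b ≠ c ∧ b ≠ d ∧ c ≠ d ∧ T = {a, b, c, d} := by
  have h2 : ((T.erase a).erase b).card = 2 := by
    rw [Finset.card_erase_of_mem (Finset.mem_erase.2 ⟨Ne.symm hab, hb⟩), Finset.card_erase_of_mem ha, hT]
  obtain ⟨c, d, hcd, e⟩ := Finset.card_eq_two.1 h2
  have hc : c ∈ (T.erase a).erase b := by rw [e]; simp
  have hd : d ∈ (T.erase a).erase b := by rw [e]; simp
  simp only [Finset.mem_erase] at hc hd
  refine ⟨c, d, Ne.symm hc.2.1, Ne.symm hd.2.1, Ne.symm hc.1, Ne.symm hd.1, hcd, ?_⟩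
  rw [← e, Finset.insert_erase (Finset.mem_erase.2 ⟨Ne.symm hab, hb⟩), Finset.insert_erase ha]

theorem four_disjoint (o : h.Pt) {T T' : Finset h.Pt} (hT : T.card = 4) (hT' : T'.card = 4)
    (e : h.sm o T = h.sm o T') {a : h.Pt} (ha : a ∈ T) (ha' : a ∈ T') : T = T' := by
  refine (Finset.eq_of_subset_of_card_le (fun x hx => ?_) (by rw [hT, hT'])).symm
  by_contra hxT
  have hxa : a ≠ x := fun e' => hxT (e' ▸ ha)
  obtain ⟨b, hb, hba⟩ := Finset.exists_mem_ne (by rw [hT]; norm_num : 1 < T.card) a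
  obtain ⟨c, d, hac, had, hbc, hbd, hcd, rfl⟩ := h.exists_abcd hT ha hb (Ne.symm hba)
  obtain ⟨c', d', hac', had', hxc', hxd', hcd', rfl⟩ := h.exists_abcd hT' ha' hx hxa
  have hab : a ≠ b := Ne.symm hba
  rw [h.sm_four o hab hac had hbc hbd hcd, h.sm_four o hxa hac' had' hxc' hxd' hcd'] at e
  set z := h.pr a b + h.pr c d with hz
  have hzr : z ∈ h.rest := by
    have := h.four_mem_rest o hT
    rwa [h.sm_four o hab hac had hbc hbd hcd, ← hz] at this
  obtain ⟨hz0, hzP⟩ := h.mem_rest.1 hzr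
  have t1 : h.pr a b ∈ nbhd P z :=
    Finset.mem_filter.2 ⟨h.pr_memP hab, by rw [hz, h.add_self_left]; exact h.pr_memP hcd⟩
  have ec : ∀ q r : h.Pt, h.pr a q + h.pr b r = h.pr q r + h.pr a b := fun q r => by
    rw [← h.pr_add a q r, ← h.pr_add a b r]
    abel
  have hin : ∀ q r : h.Pt, a ≠ q → b ≠ r → q ≠ r → ({q, r} : Finset h.Pt) = {c, d} →
      h.pr a q ∈ nbhd P z ∧ h.pr b r ∈ nbhd P z := by
    intro q r haq hbr hqr eqr
    have eq' : h.pr q r = h.pr c d := by
      have hq : q = c ∨ q = d := by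
        have : q ∈ ({c, d} : Finset h.Pt) := eqr ▸ Finset.mem_insert_self q _
        simpa using this
      have hr : r = c ∨ r = d := by
        have : r ∈ ({c, d} : Finset h.Pt) := eqr ▸ Finset.mem_insert_of_mem (Finset.mem_singleton_self r)
        simpa using this
      rcases hq with rfl | rfl <;> rcases hr with rfl | rfl
      · exact absurd rfl hqr
      · rfl
      · exact h.pr_comm _ _
      · exact absurd rfl hqr
    have ez : z = h.pr a q + h.pr b r := by rw [ec, eq', hz, add_comm]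
    exact ⟨Finset.mem_filter.2 ⟨h.pr_memP haq, by rw [ez, h.add_self_left]; exact h.pr_memP hbr⟩,
      Finset.mem_filter.2 ⟨h.pr_memP hbr, by rw [ez, add_comm (h.pr a q), h.add_self_left]; exact h.pr_memP haq⟩⟩
  obtain ⟨m1, m2⟩ := hin c d hac hbd hcd rfl
  obtain ⟨m3, m4⟩ := hin d c had hbc (Ne.symm hcd) (Finset.pair_comm _ _)
  have hadj : ∀ q : h.Pt, a ≠ q → b ≠ q → h.pr a b + h.pr a q ∈ P ∧ h.pr a b + h.pr b q ∈ P := fun q haq hbq => by
    refine ⟨by rw [h.pr_add]; exact h.pr_memP hbq, ?_⟩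
    rw [h.pr_comm a b, h.pr_add]; exact h.pr_memP haq
  have hsub : ({h.pr a c, h.pr b d, h.pr a d, h.pr b c} : Finset V) ⊆
      (nbhd P z).filter fun w => h.pr a b + w ∈ P := by
    intro w hw
    simp only [Finset.mem_insert, Finset.mem_singleton] at hw
    rcases hw with rfl | rfl | rfl | rfl
    · exact Finset.mem_filter.2 ⟨m1, (hadj c hac hbc).1⟩
    · exact Finset.mem_filter.2 ⟨m2, (hadj d had hbd).2⟩
    · exact Finset.mem_filter.2 ⟨m3, (hadj d had hbd).1⟩
    · exact Finset.mem_filter.2 ⟨m4, (hadj c hac hbc).2⟩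
  have hinj : ∀ {q r s t : h.Pt}, q ≠ r → s ≠ t → q ≠ s → q ≠ t → h.pr q r ≠ h.pr s t :=
    fun hqr hst hqs hqt e' => by
      rcases (h.pr_inj hqr hst e').1 with r' | r'
      · exact hqs r'
      · exact hqt r'
  have d1 : h.pr a c ≠ h.pr b d := hinj hac hbd hab had
  have d2 : h.pr a c ≠ h.pr a d := by
    intro e'
    rcases (h.pr_inj hac had e').2 with r | r
    · exact hac r.symm
    · exact hcd r
  have d3 : h.pr a c ≠ h.pr b c := hinj hac hbc hab hac
  have d4 : h.pr b d ≠ h.pr a d := hinj hbd had (Ne.symm hab) hbd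
  have d5 : h.pr b d ≠ h.pr b c := by
    intro e'
    rcases (h.pr_inj hbd hbc e').2 with r | r
    · exact hbd r.symm
    · exact hcd r.symm
  have d6 : h.pr a d ≠ h.pr b c := hinj had hbc hab hac
  have heq := Finset.eq_of_subset_of_card_le hsub (by
    rw [h.nb4 z hz0 hzP _ t1]
    simp [d1, d2, d3, d4, d5, d6])
  have hxb : b ≠ x := fun e' => hxT (e' ▸ hb)
  have hy : h.pr a x ∈ (nbhd P z).filter fun w => h.pr a b + w ∈ P :=
    Finset.mem_filter.2 ⟨Finset.mem_filter.2 ⟨h.pr_memP hxa, by rw [e, h.add_self_left]; exact h.pr_memP hcd'⟩,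
      (hadj x hxa hxb).1⟩
  rw [← heq] at hy
  simp only [Finset.mem_insert, Finset.mem_singleton] at hy
  simp only [Finset.mem_insert, Finset.mem_singleton, not_or] at hxT
  rcases hy with r | r | r | r
  · rcases (h.pr_inj hxa hac r).2 with r' | r' <;>
      first | exact hxT.1 r' | exact hxT.2.1 r' | exact hxT.2.2.1 r' | exact hxT.2.2.2 r'
  · rcases (h.pr_inj hxa hbd r).2 with r' | r' <;>
      first | exact hxT.1 r' | exact hxT.2.1 r' | exact hxT.2.2.1 r' | exact hxT.2.2.2 r'
  · rcases (h.pr_inj hxa had r).2 with r' | r' <;>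
      first | exact hxT.1 r' | exact hxT.2.1 r' | exact hxT.2.2.1 r' | exact hxT.2.2.2 r'
  · rcases (h.pr_inj hxa hbc r).2 with r' | r' <;>
      first | exact hxT.1 r' | exact hxT.2.1 r' | exact hxT.2.2.1 r' | exact hxT.2.2.2 r'

theorem covered (o : h.Pt) {z : V} (hz : z ∈ h.rest) (x : h.Pt) :
    ∃ T : Finset h.Pt, T.card = 4 ∧ h.sm o T = z ∧ x ∈ T := by
  classical
  let F : Finset (Finset h.Pt) := Finset.powersetCard 4 Finset.univ
  let fib : V → Finset (Finset h.Pt) := fun w => F.filter fun T => h.sm o T = w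
  have hmem : ∀ {w T}, T ∈ fib w → T.card = 4 ∧ h.sm o T = w := fun hT => by
    simp only [fib, F, Finset.mem_filter, Finset.mem_powersetCard] at hT
    exact ⟨hT.1.2, hT.2⟩
  have hpt : Fintype.card h.Pt = 24 := by rw [Fintype.card_coe, h.card_pts]
  have hU : ∀ w, ((fib w).biUnion id).card = (fib w).card * 4 := fun w => by
    refine (Finset.card_biUnion ?_).trans ((Finset.sum_congr rfl fun T hT => (hmem hT).1).trans
      (by rw [Finset.sum_const, smul_eq_mul]))
    intro T hT T' hT' hne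
    rw [Function.onFun, Finset.disjoint_left]
    intro a ha ha'
    exact hne (h.four_disjoint o (hmem hT).1 (hmem hT').1 ((hmem hT).2.trans (hmem hT').2.symm) ha ha')
  have hle : ∀ w ∈ h.rest, (fib w).card ≤ 6 := fun w _ => by
    have := Finset.card_le_univ ((fib w).biUnion id)
    rw [hU, hpt] at this
    omega
  have hF : F.card = 1771 * 6 := by
    rw [Finset.card_powersetCard, Finset.card_univ, hpt]; decide
  have hsum := Finset.card_eq_sum_card_fiberwise (f := h.sm o) (s := F) (t := h.rest) fun T hT => by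
    rw [Finset.mem_coe, Finset.mem_powersetCard] at hT
    exact h.four_mem_rest o hT.2
  have h6 : (fib z).card = 6 := (Finset.sum_eq_sum_iff_of_le hle).1
    (hsum.symm.trans (by rw [hF, Finset.sum_const, h.card_rest, smul_eq_mul])) z hz
  have hall : (fib z).biUnion id = Finset.univ := Finset.eq_univ_of_card _ (by rw [hU, h6, hpt])
  obtain ⟨T, hT, hxT⟩ := Finset.mem_biUnion.1 (hall.symm ▸ Finset.mem_univ x)
  exact ⟨T, (hmem hT).1, (hmem hT).2, hxT⟩

/-- The octads. -/
def octs (h : DuadConfig P) (o : h.Pt) : Set (Finset h.Pt) := {B | B.card = 8 ∧ h.sm o B = 0}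

theorem steiner (o : h.Pt) : Cfsg.IsSteinerSystem 5 8 (h.octs o) := by
  classical
  refine ⟨fun B hB => hB.1, fun F hF => ?_⟩
  obtain ⟨a, ha⟩ := Finset.card_pos.1 (by rw [hF]; norm_num : 0 < F.card)
  set T := F.erase a with hTdef
  have hT : T.card = 4 := by rw [hTdef, Finset.card_erase_of_mem ha, hF]
  obtain ⟨T', hT', eT', haT'⟩ := h.covered o (h.four_mem_rest o hT) a
  have hne : T' ≠ T := fun e => by rw [e, hTdef] at haT'; exact Finset.notMem_erase a F haT'
  have hdisj : Disjoint T T' := Finset.disjoint_left.2 fun b hb hb' =>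
    hne (h.four_disjoint o hT' hT eT' hb' hb)
  refine ⟨T ∪ T', ⟨⟨by rw [Finset.card_union_of_disjoint hdisj, hT, hT'], ?_⟩, ?_⟩, fun B hB => ?_⟩
  · show h.sm o (T ∪ T') = 0
    rw [sm, Finset.sum_union hdisj, ← sm, ← sm, eT', h.two]
  · intro b hb
    by_cases e : b = a
    · exact Finset.mem_union.2 (Or.inr (e ▸ haT'))
    · exact Finset.mem_union.2 (Or.inl (Finset.mem_erase.2 ⟨e, hb⟩))
  · obtain ⟨⟨hB8, hB0⟩, hFB⟩ := hB
    have hTB : T ⊆ B := (Finset.erase_subset _ _).trans hFB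
    have hc : (B \ T).card = 4 := by rw [Finset.card_sdiff_of_subset hTB, hB8, hT]
    have hs : h.sm o (B \ T) = h.sm o T := by
      have := Finset.sum_sdiff (f := fun b => h.pr o b) hTB
      exact h.eq_of_add_eq_zero ((this : h.sm o (B \ T) + h.sm o T = h.sm o B).trans hB0)
    have he : B \ T = T' := h.four_disjoint o hc hT' (hs.trans eT'.symm)
      (Finset.mem_sdiff.2 ⟨hFB ha, Finset.notMem_erase a F⟩) haT'
    rw [← he, Finset.union_sdiff_of_subset hTB]

/-- The permutation of the points given by an automorphism. -/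
theorem exists_perm (e : V ≃+ V) (he : ∀ x, e x ∈ P ↔ x ∈ P) :
    ∃ σ : Equiv.Perm h.Pt, ∀ (a : h.Pt) (x : V), e x ∈ (σ a).1 ↔ x ∈ a.1 := by
  classical
  have hst : ∀ S, h.IsStar S → h.IsStar (S.image e) := by
    rintro S ⟨hP, hc, hp⟩
    refine ⟨fun x hx => ?_, by rw [Finset.card_image_of_injective _ e.injective, hc], fun x hx y hy hne => ?_⟩
    · obtain ⟨x, hx', rfl⟩ := Finset.mem_image.1 hx
      exact (he x).2 (hP hx')
    · obtain ⟨x, hx', rfl⟩ := Finset.mem_image.1 hx
      obtain ⟨y, hy', rfl⟩ := Finset.mem_image.1 hy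
      rw [← map_add, he, Finset.mem_image]
      refine ⟨(hp x hx' y hy' fun e' => hne (e' ▸ rfl)).1, ?_⟩
      rintro ⟨w, hw, e'⟩
      exact (hp x hx' y hy' fun e'' => hne (e'' ▸ rfl)).2 (e.injective e' ▸ hw)
  let f : h.Pt → h.Pt := fun a => ⟨a.1.image e, h.mem_pts.2 (hst _ (h.mem_pts.1 a.2))⟩
  have hf : Function.Injective f := fun a b e' =>
    Subtype.ext (Finset.image_injective e.injective (congrArg Subtype.val e'))
  refine ⟨Equiv.ofBijective f (Finite.injective_iff_bijective.1 hf), fun a x => ?_⟩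
  show e x ∈ a.1.image e ↔ _
  rw [Finset.mem_image]
  exact ⟨fun ⟨y, hy, e'⟩ => e.injective e' ▸ hy, fun hx => ⟨x, hx, rfl⟩⟩

theorem perm_unique {σ τ : Equiv.Perm h.Pt} (e : V ≃+ V) (hσ : ∀ (a : h.Pt) x, e x ∈ (σ a).1 ↔ x ∈ a.1)
    (hτ : ∀ (a : h.Pt) x, e x ∈ (τ a).1 ↔ x ∈ a.1) : σ = τ := by
  refine Equiv.ext fun a => Subtype.ext (Finset.ext fun y => ?_)
  rw [← e.apply_symm_apply y, hσ, hτ]

theorem perm_octs (o : h.Pt) {σ : Equiv.Perm h.Pt} (e : V ≃+ V)
    (hσ : ∀ (a : h.Pt) x, e x ∈ (σ a).1 ↔ x ∈ a.1) {B : Finset h.Pt} (hB : B ∈ h.octs o) :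
    B.image σ ∈ h.octs o := by
  classical
  have hpr : ∀ a b, h.pr (σ a) (σ b) = e (h.pr a b) := fun a b => by
    by_cases hab : a = b
    · rw [hab, h.pr_self, h.pr_self, map_zero]
    · exact h.pr_eq (σ.injective.ne hab) ((hσ a _).2 (h.pr_mem hab).1) ((hσ b _).2 (h.pr_mem hab).2)
  refine ⟨by rw [Finset.card_image_of_injective _ σ.injective, hB.1], ?_⟩
  obtain ⟨hB8, hB0⟩ := hB
  show ∑ a ∈ B.image σ, h.pr o a = 0
  rw [Finset.sum_image σ.injective.injOn]
  have : ∀ a ∈ B, h.pr o (σ a) = h.pr (σ o) o + e (h.pr o a) := fun a _ => by rw [← hpr, h.pr_add]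
  rw [Finset.sum_congr rfl this, Finset.sum_add_distrib, ← map_sum, show ∑ a ∈ B, h.pr o a = 0 from hB0, map_zero,
    add_zero, Finset.sum_const, hB8]
  rw [show (8 : ℕ) = 4 * 2 from rfl, mul_smul, two_nsmul, h.two, nsmul_zero]

/-- A group acting on the configuration maps into `M24`, with the pointwise stabiliser as kernel. -/
theorem exists_hom {M : Type*} [Group M] (f : M → V ≃+ V) (hmul : ∀ m n x, f (m * n) x = f m (f n x))
    (hP : ∀ m x, f m x ∈ P ↔ x ∈ P) : ∃ Φ : M →* ↥Cfsg.M24, ∀ m, Φ m = 1 ↔ ∀ x, f m x = x := by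
  classical
  obtain ⟨o⟩ : Nonempty h.Pt := Fintype.card_pos_iff.1 (by rw [Fintype.card_coe, h.card_pts]; norm_num)
  choose σ hσ using fun m => h.exists_perm (f m) (hP m)
  have hone : ∀ x, f 1 x = x := fun x => (f 1).injective (by rw [← hmul, one_mul])
  have hσmul : ∀ m n, σ (m * n) = σ m * σ n := fun m n =>
    h.perm_unique (f (m * n)) (hσ _) fun a x => by rw [hmul, Equiv.Perm.mul_apply, hσ, hσ]
  obtain ⟨E, hE⟩ := Cfsg.Agent.S0407.result (α := h.Pt) (β := Cfsg.GolayPt)
    (by rw [Fintype.card_coe, h.card_pts]) (by decide) (h.steiner o) Cfsg.Agent.S0363.result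
  let τ : M → Equiv.Perm Cfsg.GolayPt := fun m => E.permCongr (σ m)
  have hτ : ∀ m, τ m ∈ Cfsg.M24 := by
    intro m
    rw [Cfsg.Agent.S0369.result]
    refine MulAction.mem_stabilizer_iff.2 ?_
    have hsub : τ m • Cfsg.octads ⊆ Cfsg.octads := by
      rintro _ ⟨b, hb, rfl⟩
      rw [← hE] at hb ⊢
      obtain ⟨B, hB, rfl⟩ := hb
      refine ⟨B.image (σ m), h.perm_octs o (f m) (hσ m) hB, ?_⟩
      show (B.image (σ m)).image E = τ m • B.image E
      rw [show τ m • B.image E = (B.image E).image (τ m) from rfl, Finset.image_image, Finset.image_image]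
      congr 1
      funext a
      simp [τ, Equiv.permCongr_apply]
    exact Set.eq_of_subset_of_ncard_le hsub (le_of_eq (Set.ncard_smul_set _ _).symm) (Set.toFinite _)
  refine ⟨MonoidHom.mk' (fun m => ⟨τ m, hτ m⟩) fun m n => Subtype.ext ?_, fun m => ?_⟩
  · show τ (m * n) = τ m * τ n
    simp [τ, hσmul, ← Equiv.permCongr_mul]
  · show (⟨τ m, _⟩ : ↥Cfsg.M24) = 1 ↔ _
    rw [Subtype.ext_iff]
    show τ m = 1 ↔ _
    constructor
    · intro hm
      have hσ1 : σ m = 1 := E.permCongr.injective (hm.trans (by ext p; simp [Equiv.permCongr_apply]))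
      have hfix : ∀ t ∈ P, f m t = t := by
        intro t ht
        obtain ⟨A, B, hd, e⟩ := Finset.card_eq_two.1 (h.card_through ht)
        have hA : A ∈ h.pts.filter fun S => t ∈ S := by rw [e]; simp
        have hB : B ∈ h.pts.filter fun S => t ∈ S := by rw [e]; simp
        rw [Finset.mem_filter] at hA hB
        have hab : (⟨A, hA.1⟩ : h.Pt) ≠ ⟨B, hB.1⟩ := fun e' => hd (congrArg Subtype.val e')
        have p1 := (hσ m ⟨A, hA.1⟩ t).2 hA.2
        have p2 := (hσ m ⟨B, hB.1⟩ t).2 hB.2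
        rw [hσ1] at p1 p2
        exact (h.pr_eq hab p1 p2).symm.trans (h.pr_eq hab hA.2 hB.2)
      intro x
      by_cases hx0 : x = 0
      · rw [hx0, map_zero]
      by_cases hxP : x ∈ P
      · exact hfix x hxP
      obtain ⟨t, ht⟩ := Finset.card_pos.1 (by rw [h.nb36 x hx0 hxP]; norm_num : 0 < (nbhd P x).card)
      obtain ⟨ht1, ht2⟩ := Finset.mem_filter.1 ht
      have e2 := hfix _ ht2
      rw [map_add, hfix t ht1] at e2
      exact add_left_cancel e2
    · intro hm
      have hσ1 : σ m = 1 := h.perm_unique (f m) (hσ m) fun a x => by rw [hm]; rfl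
      ext p
      simp [τ, hσ1, Equiv.permCongr_apply]

end DuadConfig

end Cfsg.Agent.H32.LargeFischer
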