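import Cfsg.Agent.H32.LargeFischer.Carry
import Cfsg.Agent.H8.LFT.FuseTop
import Cfsg.Agent.H8.LFT.FuseCent

/-!
# The normalizer of the Thompson subgroup maps onto `M24`
-/

set_option autoImplicit false
set_option linter.unusedSectionVars false
set_option maxRecDepth 20000
set_option maxHeartbeats 1000000

namespace Cfsg.Agent.H32.LargeFischer

open Matrix Cfsg.Agent.H8.U62 Cfsg.Agent.H8.U62.Setup Cfsg.Agent.H8.LFT

variable {G : Type*} [Group G] [Finite G]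

/-- The statement on the maximal elementary abelian subgroups of the centralizer. -/
def TopsAt (z : G) (Q : Subgroup (Subgroup.centralizer ({z} : Set G))) [Q.Normal] : Prop :=
  ∀ T : Sylow 2 ↥(Subgroup.centralizer ({z} : Set G)),
    ∃ A : Subgroup ↥(T : Subgroup (Subgroup.centralizer ({z} : Set G))),
      Cfsg.maxElementaryAbelianSubgroups 2 ↥(T : Subgroup (Subgroup.centralizer ({z} : Set G))) = {A} ∧
      Nat.card A = 2 ^ 11 ∧
      Nat.card ↥(A.map (T : Subgroup (Subgroup.centralizer ({z} : Set G))).subtype ⊓ Q) = 2 ^ 7 ∧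
      Nat.card ↥((A.map (T : Subgroup (Subgroup.centralizer ({z} : Set G))).subtype).map (QuotientGroup.mk' Q)) = 16

variable {z : G} {Q : Subgroup (Subgroup.centralizer ({z} : Set G))} [Q.Normal]

/-- A standard position of the subgroup. -/
theorem exists_standard (hF : Cfsg.IsOfLargeFischerTypeAt z Q) (h44 : TopsAt z Q) :
    ∃ (D : H8.LFT.Model z Q (GaloisField 2 2)) (g : G) (s : Q) (A : Subgroup G) (S : Sylow 2 G),
      g * z * g⁻¹ = gv s ∧ gv s ≠ z ∧ IsTop (S : Subgroup G) A ∧ Subgroup.centralizer (A : Set G) ≤ A ∧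
      WCert (K0 (F := GaloisField 2 2)) W0 ∧ AData D K0 W0 A := by
  classical
  haveI : Fact (Nat.Prime 2) := ⟨Nat.prime_two⟩
  obtain ⟨D⟩ := exists_model hF
  obtain ⟨g0, ⟨hq, hmem⟩, hne0⟩ := hF.1.2.2.2.2
  let s0 : Q := ⟨⟨g0 * z * g0⁻¹, hq⟩, hmem⟩
  have hgs : g0 * z * g0⁻¹ = gv s0 := rfl
  have hne1 : gv s0 ≠ z := hne0
  obtain ⟨T1⟩ : Nonempty (Sylow 2 (Subgroup.centralizer ({z} : Set G))) := inferInstance
  obtain ⟨hQT, S1, hS1⟩ := D.sylow_le_centralizer T1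
  obtain ⟨A1, hmax, h11, h7, h16⟩ := h44 T1
  have hA1 : A1 ∈ Cfsg.maxElementaryAbelianSubgroups 2 ↥(T1 : Subgroup (Subgroup.centralizer ({z} : Set G))) := by
    rw [hmax]; rfl
  let AH : Subgroup (Subgroup.centralizer ({z} : Set G)) :=
    A1.map (T1 : Subgroup (Subgroup.centralizer ({z} : Set G))).subtype
  have hAHe : Cfsg.IsElementaryAbelian 2 AH := elem_map hA1.1 _
  obtain ⟨A0, hA0, -⟩ := thompson_fusion z Q hF h44 S1
  have hAG : AH.map (Subgroup.centralizer ({z} : Set G)).subtype = A0 := hA0.2.2.2 _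
    (by rw [hS1]; exact Subgroup.map_mono (Subgroup.map_subtype_le A1)) (elem_map hAHe _) (by
      rw [Subgroup.card_map_of_injective (Subgroup.subtype_injective _),
        Subgroup.card_map_of_injective (Subgroup.subtype_injective _), h11])
  have hAHsq : ∀ a ∈ AH, a * a = 1 := fun a ha => by rw [← pow_two]; exact hAHe.2 a ha
  have hcommH : ∀ a ∈ AH, ∀ b ∈ AH, a * b = b * a := fun a ha b hb =>
    congrArg Subtype.val (hAHe.1.1.1 ⟨a, ha⟩ ⟨b, hb⟩)
  have hAM : AH ≤ D.M := D.le_M g0 s0 hgs hne1 hcommH h7 (lt_of_lt_of_eq (by norm_num) h16.symm)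
  have hEES : EE Q ≤ (S1 : Subgroup G) := hS1 ▸ Subgroup.map_mono hQT
  have hzA : z ∈ A0 := mem_of_top hA0 (hEES D.sing.mem) D.sing.xx (by
    intro a ha
    rw [← hAG] at ha
    obtain ⟨b, -, rfl⟩ := ha
    exact Subgroup.mem_centralizer_singleton_iff.1 b.2)
  have hcent : Subgroup.centralizer (A0 : Set G) ≤ A0 :=
    top_centralizer z Q hF h44 T1 A0 (by rw [← hS1]; exact hA0)
  have hA0c : ∀ a ∈ A0, ∀ b ∈ A0, a * b = b * a := fun a ha b hb =>
    congrArg Subtype.val (hA0.2.1.1.1.1 ⟨a, ha⟩ ⟨b, hb⟩)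
  -- the part in `Q` is its own centralizer in `Q`
  let R : Subgroup G := A0 ⊓ EE Q
  have hR : Nat.card R = 2 ^ 7 := by
    rw [show R = (AH ⊓ Q).map (Subgroup.centralizer ({z} : Set G)).subtype by
      show A0 ⊓ EE Q = _
      rw [← hAG]
      exact (Subgroup.map_inf_eq AH Q _ (Subgroup.subtype_injective _)).symm,
      Subgroup.card_map_of_injective (Subgroup.subtype_injective _)]
    exact h7
  have hzR : z ∈ R := Subgroup.mem_inf.2 ⟨hzA, D.sing.mem⟩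
  have hself : ∀ q : Q, (∀ b ∈ R, b * gv q = gv q * b) → gv q ∈ R := by
    have h := D.sing.card_mul R inf_le_right hzR
    rw [Subgroup.card_map_of_injective (Subgroup.subtype_injective _), D.card_Q, hR] at h
    have hle : R ≤ EE Q ⊓ Subgroup.centralizer (R : Set G) := fun b hb => ⟨hb.2,
      Subgroup.mem_centralizer_iff.2 fun b' hb' => hA0c b' hb'.1 b hb.1⟩
    have hCR : R = EE Q ⊓ Subgroup.centralizer (R : Set G) :=
      Subgroup.eq_of_le_of_card_ge hle (by rw [hR]; norm_num at h ⊢; omega)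
    intro q hq
    rw [hCR]
    exact ⟨⟨q.1, q.2, rfl⟩, Subgroup.mem_centralizer_iff.2 hq⟩
  -- the vectors
  let W : Set (Fin 6 → GaloisField 2 2) := D.v '' {q : Q | gv q ∈ A0}
  have hinW : ∀ q : Q, gv q ∈ A0 ↔ D.v q ∈ W := by
    intro q
    refine ⟨fun h => ⟨q, h, rfl⟩, fun ⟨q', hq', e⟩ => ?_⟩
    obtain ⟨d, hd, e'⟩ := (D.v_eq_iff q' q).1 e
    rw [e', show gv (q' * d) = gv q' * gv d from rfl]
    refine mul_mem hq' ?_
    rcases hd with h | h <;> rw [h]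
    exacts [one_mem _, hzA]
  have hWc : W.ncard = 64 := by
    obtain ⟨c, hc⟩ := D.exists_zQ
    have hvc : D.v c = 0 := (D.v_eq_zero c).2 (Or.inr hc)
    have e1 : ({q : Q | gv q ∈ A0}).ncard = 2 ^ 7 := by
      rw [← hR, ← Nat.card_coe_set_eq]
      refine Nat.card_congr
        { toFun := fun q => ⟨gv q.1, q.2, ⟨q.1.1, q.1.2, rfl⟩⟩
          invFun := fun r => ⟨⟨⟨r.1, ?_⟩, ?_⟩, r.2.1⟩
          left_inv := fun _ => rfl
          right_inv := fun _ => rfl }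
      · obtain ⟨y, -, e⟩ := r.2.2
        exact e ▸ y.2
      · obtain ⟨y, hy, e⟩ := r.2.2
        rwa [show (⟨r.1, _⟩ : Subgroup.centralizer ({z} : Set G)) = y from Subtype.ext e.symm]
    have e2 : {q : Q | gv q ∈ A0} = (fun x => D.lift x) '' W ∪ (fun x => D.lift x * c) '' W := by
      ext q
      constructor
      · intro hq
        obtain ⟨d, hd, e⟩ := (D.v_eq_iff (D.lift (D.v q)) q).1 (D.v_lift _)
        rcases hd with h | h
        · exact Or.inl ⟨D.v q, (hinW q).1 hq, ((congrArg (D.lift (D.v q) * ·)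
            (gv_injective h : d = 1)).trans (mul_one _)).symm.trans e.symm⟩
        · exact Or.inr ⟨D.v q, (hinW q).1 hq, ((congrArg (D.lift (D.v q) * ·)
            (gv_injective (h.trans hc.symm) : d = c))).symm.trans e.symm⟩
      · rintro (⟨x, hx, rfl⟩ | ⟨x, hx, rfl⟩)
        · exact (hinW _).2 (by rw [D.v_lift]; exact hx)
        · exact (hinW _).2 (by rw [D.v_mul, D.v_lift, hvc, add_zero]; exact hx)
    have hi1 : Function.Injective fun x => D.lift x := fun a b e => by rw [← D.v_lift a, ← D.v_lift b]; exact congrArg D.v e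
    have hd : Disjoint ((fun x => D.lift x) '' W) ((fun x => D.lift x * c) '' W) := by
      rw [Set.disjoint_left]
      rintro _ ⟨a, -, rfl⟩ ⟨b, -, e⟩
      have : a = b := by
        have := congrArg D.v e
        rwa [D.v_mul, D.v_lift, D.v_lift, hvc, add_zero, eq_comm] at this
      subst this
      exact D.sing.xne (hc ▸ congrArg gv (mul_eq_left.1 e))
    rw [e2, Set.ncard_union_eq hd, Set.ncard_image_of_injective _ hi1,
      Set.ncard_image_of_injective (f := fun x => D.lift x * c) _ fun a b e => hi1 (mul_right_cancel e)] at e1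
    omega
  have hWadd : ∀ x ∈ W, ∀ y ∈ W, x + y ∈ W := by
    rintro _ ⟨a, ha, rfl⟩ _ ⟨b, hb, rfl⟩
    rw [← D.v_mul]
    exact (hinW _).1 (show gv a * gv b ∈ A0 from mul_mem ha hb)
  have hsqA : ∀ a ∈ A0, a * a = 1 := fun a ha => by rw [← pow_two]; exact hA0.2.1.2 a ha
  have hsing : ∀ x ∈ W, hermForm 6 (GaloisField 2 2) 2 x x = 0 := by
    rintro _ ⟨q, hq, rfl⟩
    rw [D.v_sq, if_pos (hsqA _ hq)]
  -- the matrices
  let AM : Subgroup D.M := AH.subgroupOf D.M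
  let K : Subgroup (SU6 (GaloisField 2 2)) := AM.map D.ρ
  have hKs : K ≤ sub 0 := by
    rintro _ ⟨a, -, rfl⟩
    exact D.ρ_range ▸ ⟨a, rfl⟩
  have hKsq : ∀ k ∈ K, k * k = 1 := by
    rintro _ ⟨a, ha, rfl⟩
    rw [← map_mul, show a * a = 1 from Subtype.ext (hAHsq _ ha), map_one]
  have hKel : Cfsg.IsElementaryAbelian 2 K := by
    refine ⟨⟨⟨?_⟩⟩, fun k hk => by rw [pow_two]; exact hKsq k hk⟩
    rintro ⟨_, a, ha, rfl⟩ ⟨_, b, hb, rfl⟩
    refine Subtype.ext ?_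
    show D.ρ a * D.ρ b = D.ρ b * D.ρ a
    rw [← map_mul, ← map_mul, show a * b = b * a from Subtype.ext (hcommH _ ha _ hb)]
  have hK16 : Nat.card ↥K = 16 := by
    refine le_antisymm (card_elementary_le hKs hKel) ?_
    have key : ∀ x : ↥(AH.map (QuotientGroup.mk' Q)), ∃ a : D.M, a ∈ AM ∧
        QuotientGroup.mk' Q (a : Subgroup.centralizer ({z} : Set G)) = x.1 := by
      rintro ⟨_, a, ha, rfl⟩
      exact ⟨⟨a, hAM ha⟩, ha, rfl⟩
    choose f hf1 hf2 using key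
    rw [← h16]
    refine Nat.card_le_card_of_injective (fun x => (⟨D.ρ (f x), f x, hf1 x, rfl⟩ : K)) fun x y e => ?_
    have e' : D.ρ (f x) = D.ρ (f y) := congrArg Subtype.val e
    refine Subtype.ext ?_
    rw [← hf2 x, ← hf2 y]
    refine QuotientGroup.eq.2 ((D.ρ_ker ((f x)⁻¹ * f y)).1 ?_)
    rw [map_mul, map_inv, e', inv_mul_cancel]
  have hAin : ∀ a : D.M, a ∈ AM → ((a : Subgroup.centralizer ({z} : Set G)) : G) ∈ A0 := fun a ha =>
    hAG ▸ ⟨_, ha, rfl⟩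
  have hfix : ∀ k ∈ K, ∀ x ∈ W, k • x = x := by
    rintro _ ⟨a, ha, rfl⟩ _ ⟨q, hq, rfl⟩
    rw [smul_def, ← D.v_conj]
    refine congrArg D.v (gv_injective ?_)
    rw [gv_cj]
    exact mul_inv_eq_iff_eq_mul.2 (hA0c _ (hAin a ha) _ hq)
  have hdR : ∀ a ∈ AH, ∀ q : Q, gv (cj a q * q⁻¹) ∈ R := by
    intro a ha q
    refine hself _ fun b hb => ?_
    have hbA : b ∈ AH.map (Subgroup.centralizer ({z} : Set G)).subtype := hAG.symm ▸ hb.1
    obtain ⟨b1, hb1, rfl⟩ := hbA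
    obtain ⟨b2, hb2, e2⟩ := hb.2
    have hbQ : b1 ∈ Q := by rw [show b1 = b2 from Subtype.ext e2.symm]; exact hb2
    obtain ⟨ζ, hζ, hζe⟩ := (D.v_eq_iff q (cj b1 q)).1 (D.Q_le_St q hbQ).symm
    have e1 : cj b1 (cj a q * q⁻¹) = cj a q * q⁻¹ := by
      rw [cj_mul, show cj b1 q⁻¹ = (cj b1 q)⁻¹ from Subtype.ext (by
        show b1 * q.1⁻¹ * b1⁻¹ = (b1 * q.1 * b1⁻¹)⁻¹
        group), hζe, cj_cj, ← hcommH a ha b1 hb1, ← cj_cj, hζe, cj_mul, cj_central' hζ a]
      group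
    have e3 := congrArg gv e1
    rw [gv_cj] at e3
    exact mul_inv_eq_iff_eq_mul.1 e3
  have hdW : ∀ k ∈ K, dImg k ⊆ W := by
    rintro _ ⟨a, ha, rfl⟩ _ ⟨x, rfl⟩
    obtain ⟨q, rfl⟩ := D.v_surj x
    refine ⟨cj (a : Subgroup.centralizer ({z} : Set G)) q * q⁻¹, (hdR _ ha q).1, ?_⟩
    rw [D.v_mul, D.v_conj, D.v_inv]
    rfl
  obtain ⟨a1, ha1, ha1Q⟩ : ∃ a ∈ AH, a ∉ Q := by
    by_contra hno
    push Not at hno
    have h7' : Nat.card ↥(AH ⊓ Q) = 2 ^ 7 := h7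
    rw [inf_eq_left.2 hno, Subgroup.card_map_of_injective (Subgroup.subtype_injective _), h11] at h7'
    norm_num at h7'
  have hshort : ∃ x ∈ W, IsShort x := by
    obtain ⟨q, γ, hγ, e⟩ := D.exists_comm_cls ⟨a1, hAM ha1⟩ ha1Q (hAHsq _ ha1)
    exact ⟨_, (hinW _).1 (hdR a1 ha1 q).1, γ, hγ, e⟩
  obtain ⟨γ, hγ, hWimg, hKimg, h0⟩ := exists_carry hKs hKsq hK16 hWc hWadd hsing hfix hdW hshort
  obtain ⟨m, hm⟩ := D.exists_rho hγ
  set mg : G := ((m : Subgroup.centralizer ({z} : Set G)) : G) with hmg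
  let A : Subgroup G := A0.map (MulAut.conj mg).toMonoidHom
  let S : Sylow 2 G := mg • S1
  have hS : IsTop (S : Subgroup G) A := by
    show IsTop ((mg • S1 : Sylow 2 G) : Subgroup G) A
    rw [Sylow.coe_subgroup_smul]
    exact hA0.conj mg
  have hmem : ∀ {b : G}, b ∈ A ↔ mg⁻¹ * b * mg ∈ A0 := by
    intro b
    constructor
    · rintro ⟨a, ha, rfl⟩
      rwa [show mg⁻¹ * (MulAut.conj mg).toMonoidHom a * mg = a by
        show mg⁻¹ * (mg * a * mg⁻¹) * mg = a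
        group]
    · intro h
      exact ⟨_, h, by show mg * (mg⁻¹ * b * mg) * mg⁻¹ = b; group⟩
  have hcentA : Subgroup.centralizer (A : Set G) ≤ A := fun b hb => hmem.2 (hcent
    (Subgroup.mem_centralizer_iff.2 fun a ha => by
      have := Subgroup.mem_centralizer_iff.1 hb _ (hmem.2 (show mg⁻¹ * (mg * a * mg⁻¹) * mg ∈ A0 by
        rwa [show mg⁻¹ * (mg * a * mg⁻¹) * mg = a by group]))
      calc a * (mg⁻¹ * b * mg) = mg⁻¹ * (mg * a * mg⁻¹ * b) * mg := by group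
        _ = mg⁻¹ * (b * (mg * a * mg⁻¹)) * mg := by rw [this]
        _ = mg⁻¹ * b * mg * a := by group))
  have hinWA : ∀ q : Q, gv q ∈ A ↔ D.v q ∈ W0 := by
    intro q
    rw [hmem, show mg⁻¹ * gv q * mg = gv (cj ((m⁻¹ : D.M) : Subgroup.centralizer ({z} : Set G)) q) by
      rw [gv_cj, hmg]; simp, hinW, D.v_conj, ← smul_def, map_inv, hm, ← hWimg]
    constructor
    · exact fun h => ⟨_, h, smul_inv_smul _ _⟩
    · rintro ⟨y, hy, e⟩
      rw [← e, inv_smul_smul]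
      exact hy
  have honK : ∀ k ∈ K0 (F := GaloisField 2 2), ∃ a : D.M,
      ((a : Subgroup.centralizer ({z} : Set G)) : G) ∈ A ∧ D.ρ a = k := by
    intro k hk
    rw [← hKimg] at hk
    obtain ⟨_, ⟨a, ha, rfl⟩, rfl⟩ := hk
    refine ⟨m * a * m⁻¹, ⟨_, hAin a ha, rfl⟩, ?_⟩
    rw [map_mul, map_mul, map_inv, hm]
    rfl
  have hinK : ∀ a ∈ A, ∃ a' : D.M, ((a' : Subgroup.centralizer ({z} : Set G)) : G) = a ∧ D.ρ a' ∈ K0 := by
    rintro _ ⟨a, ha, rfl⟩
    rw [← hAG] at ha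
    obtain ⟨b, hb, rfl⟩ := ha
    refine ⟨m * ⟨b, hAM hb⟩ * m⁻¹, rfl, ?_⟩
    rw [← hKimg]
    exact ⟨_, ⟨⟨b, hAM hb⟩, hb, rfl⟩, by rw [map_mul, map_mul, map_inv, hm]; rfl⟩
  have hAc : ∀ a ∈ A, ∀ b ∈ A, a * b = b * a := fun a ha b hb =>
    congrArg Subtype.val (hS.2.1.1.1.1 ⟨a, ha⟩ ⟨b, hb⟩)
  have hzA' : z ∈ A := hmem.2 (by
    rw [mul_assoc, ← Subgroup.mem_centralizer_singleton_iff.1 (m : Subgroup.centralizer ({z} : Set G)).2,
      inv_mul_cancel_left]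
    exact hzA)
  have hselfA : ∀ q : Q, (∀ b ∈ A, b ∈ EE Q → b * gv q = gv q * b) → gv q ∈ A := by
    intro q hq
    let q' : Q := cj ((m⁻¹ : D.M) : Subgroup.centralizer ({z} : Set G)) q
    have e : gv q' = mg⁻¹ * gv q * mg := by
      show gv (cj _ q) = _
      rw [gv_cj, hmg]; simp
    rw [hmem, ← e]
    refine (Subgroup.mem_inf.1 (hself q' fun b hb => ?_)).1
    obtain ⟨c, hc, ec⟩ := hb.2
    have hbQ : mg * b * mg⁻¹ ∈ EE Q := by
      refine ⟨(m : Subgroup.centralizer ({z} : Set G)) * c * (m : Subgroup.centralizer ({z} : Set G))⁻¹,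
        (inferInstance : Q.Normal).conj_mem _ hc _, ?_⟩
      rw [← ec]
      rfl
    have h := hq _ (hmem.2 (by rw [show mg⁻¹ * (mg * b * mg⁻¹) * mg = b by group]; exact hb.1)) hbQ
    rw [e]
    calc b * (mg⁻¹ * gv q * mg) = mg⁻¹ * (mg * b * mg⁻¹ * gv q) * mg := by group
      _ = mg⁻¹ * (gv q * (mg * b * mg⁻¹)) * mg := by rw [h]
      _ = mg⁻¹ * gv q * mg * b := by group
  have hnormK : ∀ n : D.M, (∀ k ∈ K0, D.ρ n * k * (D.ρ n)⁻¹ ∈ K0) → ∀ a ∈ A,
      ((n : Subgroup.centralizer ({z} : Set G)) : G) * a * ((n : Subgroup.centralizer ({z} : Set G)) : G)⁻¹ ∈ A := by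
    intro n hn a ha
    set γn := D.ρ n with hγn
    set ng : G := ((n : Subgroup.centralizer ({z} : Set G)) : G) with hng
    have hW0' : ∀ x ∈ W0 (F := GaloisField 2 2), γn⁻¹ • x ∈ W0 (F := GaloisField 2 2) := fun x hx => by
      refine fix_K0 h0 fun k hk => ?_
      have := (mem_K0.1 (hn k hk)).2 x hx
      rwa [mul_smul, mul_smul, ← eq_inv_smul_iff] at this
    obtain ⟨a', hae, hak⟩ := hinK a ha
    obtain ⟨b, hbA, hbk⟩ := honK _ (hn _ hak)
    let bG : G := ((b : Subgroup.centralizer ({z} : Set G)) : G)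
    have hqQ : ((b⁻¹ * (n * a' * n⁻¹) : D.M) : Subgroup.centralizer ({z} : Set G)) ∈ Q := (D.ρ_ker _).1 (by
      rw [map_mul, map_inv, hbk, map_mul, map_mul, map_inv, inv_mul_cancel])
    let q : Q := ⟨_, hqQ⟩
    have hqe : gv q = bG⁻¹ * (ng * a * ng⁻¹) := by rw [← hae]; rfl
    have hq : gv q ∈ A := hselfA q fun c hc hcE => by
      obtain ⟨c1, hc1, ec1⟩ := hcE
      have hc' : ng⁻¹ * c * ng ∈ A := by
        have e : ng⁻¹ * c * ng = gv (cj ((n⁻¹ : D.M) : Subgroup.centralizer ({z} : Set G)) ⟨c1, hc1⟩) := by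
          rw [gv_cj, hng, ← ec1]; simp
        rw [e, hinWA, D.v_conj, ← smul_def, map_inv, ← hγn]
        refine hW0' _ ((hinWA _).1 ?_)
        show (c1 : G) ∈ A
        rw [show (c1 : G) = c from ec1]
        exact hc
      have h1 := hAc _ hc' a ha
      have h2 := hAc c hc bG hbA
      rw [hqe]
      have h1' : c * (ng * a * ng⁻¹) = ng * a * ng⁻¹ * c := by
        calc c * (ng * a * ng⁻¹) = ng * (ng⁻¹ * c * ng * a) * ng⁻¹ := by group
          _ = ng * (a * (ng⁻¹ * c * ng)) * ng⁻¹ := by rw [h1]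
          _ = ng * a * ng⁻¹ * c := by group
      have h2' : c * bG⁻¹ = bG⁻¹ * c := by
        calc c * bG⁻¹ = bG⁻¹ * (bG * c) * bG⁻¹ := by group
          _ = bG⁻¹ * (c * bG) * bG⁻¹ := by rw [h2]
          _ = bG⁻¹ * c := by group
      rw [← mul_assoc, h2', mul_assoc, h1', ← mul_assoc]
    rw [show ng * a * ng⁻¹ = bG * gv q by rw [hqe]; group]
    exact mul_mem hbA hq
  obtain ⟨A2, hA2, hfus, -, -, htrans⟩ := thompson_fusion z Q hF h44 S
  obtain rfl : A = A2 := hA2.2.2.2 A hS.1 hS.2.1 hS.2.2.1.ge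
  have hnmem : ∀ {n : G}, n ∈ Subgroup.normalizer (A : Set G) → ∀ b ∈ A, n * b * n⁻¹ ∈ A := fun hn b hb =>
    (Subgroup.mem_normalizer_iff.1 hn b).1 hb
  refine ⟨D, g0, s0, A, S, hgs, hne1, hS, hcentA, wcert h0,
    { sq := fun a ha => by rw [← pow_two]; exact hS.2.1.2 a ha
      cardA := hS.2.2.1
      inW := hinWA
      inK := hinK
      onK := honK
      normK := hnormK
      transZ := fun a ha hc => ?_
      transP := fun a b ha hb => ?_ }⟩
  · obtain ⟨g, hg⟩ := isConj_iff.1 hc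
    obtain ⟨n, hn, e⟩ := hfus z hzA' g (by rw [hg]; exact ha)
    exact ⟨n, hnmem hn, e.trans hg⟩
  · obtain ⟨n, hn, e⟩ := htrans a ha.1 b hb.1 ha.2.1 hb.2.1 (iff_of_false ha.2.2 hb.2.2)
    exact ⟨n, hnmem hn, e⟩

end Cfsg.Agent.H32.LargeFischer
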